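/-
Monomial elements of unitary groups, Heisenberg elements, norm facts: the basic layer for the maximality of the stabilisers of
non-degenerate decompositions in special unitary groups.
-/
import Mathlib
import Cfsg.Agent.Lib.Classical.Sub.UElts
import Cfsg.Agent.Lib.Classical.Geo.UParab
import Cfsg.Agent.Lib.Classical.C2.Finish

set_option autoImplicit false
set_option linter.unusedSectionVars false

namespace Cfsg.Agent.Lib.Classical.C2U.Base

open scoped Matrix MatrixGroups
open Module Cfsg Cfsg.Geo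
open Cfsg.Agent.Lib.Classical.Geo.Basic
open Cfsg.Agent.Lib.Classical.Geo.UForm Cfsg.Agent.Lib.Classical.Geo.UPair
open Cfsg.Agent.Lib.Classical.Sub.Rat Cfsg.Agent.Lib.Classical.Sub.UElts
open Cfsg.Agent.Lib.Classical.C2.Base

variable {ι : Type} [Fintype ι] [DecidableEq ι] {F : Type*} [Field F] [Fintype F]
  {σ : F ≃+* F} {f : (ι → F) → (ι → F) → F}

/-- The facts on norms that are used. -/
structure NormFacts (σ : F ≃+* F) : Prop where
  three : ∀ t : F, t ≠ 0 → σ t = t → ∀ b₁ b₂ : F, ∃ x : F, x * σ x = t ∧ x ≠ b₁ ∧ x ≠ b₂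
  span : ∀ z : F, z ∈ AddSubgroup.closure {δ : F | δ * σ δ = 1}

/-- The coordinate vectors. -/
abbrev ee (j : ι) : ι → F := Pi.single j 1

section Std

variable (hf : IsUnitaryForm σ f) (hstd : ∀ x y, f x y = ∑ i, x i * σ (y i))

include hstd

theorem f_single_right (x : ι → F) (j : ι) : f x (ee j) = x j := by
  rw [hstd, Finset.sum_eq_single j]
  · simp
  · intro b _ hb
    simp [Pi.single_eq_of_ne hb]
  · simp

theorem f_single_left (y : ι → F) (j : ι) : f (ee j) y = σ (y j) := by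
  rw [hstd, Finset.sum_eq_single j]
  · simp
  · intro b _ hb
    simp [Pi.single_eq_of_ne hb]
  · simp

/-- Unitary monomial matrices are isometries. -/
theorem mono_iso (π : Equiv.Perm ι) (c : ι → Fˣ) (hc : ∀ i, (c i : F) * σ (c i) = 1) (x y : ι → F) :
    f (((mono π c : GL ι F) : Matrix ι ι F) *ᵥ x) (((mono π c : GL ι F) : Matrix ι ι F) *ᵥ y) = f x y := by
  rw [hstd, hstd]
  simp only [mono_apply]
  rw [← Equiv.sum_comp π]
  refine Finset.sum_congr rfl fun i _ => ?_
  have h1 : π⁻¹ (π i) = i := π.symm_apply_apply i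
  rw [h1, map_mul]
  linear_combination (x i * σ (y i)) * hc i

end Std

/-- The unitary monomial matrices of determinant one. -/
def UMono (σ : F ≃+* F) : Subgroup (GL ι F) where
  carrier := {g | ∃ (π : Equiv.Perm ι) (c : ι → Fˣ), g = mono π c ∧ (∀ i, (c i : F) * σ (c i) = 1) ∧
    ((mono π c : GL ι F) : Matrix ι ι F).det = 1}
  mul_mem' := by
    rintro a b ⟨π, c, rfl, hc, hd⟩ ⟨π', c', rfl, hc', hd'⟩
    refine ⟨_, _, mono_mul _ _ _ _, fun i => ?_, ?_⟩
    · simp only [Units.val_mul, map_mul]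
      linear_combination (c' i * σ (c' i)) * hc (π' i) + hc' i
    · rw [← mono_mul, Units.val_mul, Matrix.det_mul, hd, hd', one_mul]
  one_mem' := ⟨1, fun _ => 1, (mono_one _ (fun _ => rfl)).symm, by simp, by
    rw [mono_one _ (fun _ => rfl)]
    simp⟩
  inv_mem' := by
    rintro a ⟨π, c, rfl, hc, hd⟩
    refine ⟨_, _, mono_inv _ _, fun i => ?_, ?_⟩
    · have h1 : ((c (π⁻¹ i))⁻¹ : Fˣ) = (c (π⁻¹ i))⁻¹ := rfl
      simp only [Units.val_inv_eq_inv_val, map_inv₀]
      have h2 := hc (π⁻¹ i)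
      have h3 := (c (π⁻¹ i)).ne_zero
      have h4 : σ (c (π⁻¹ i)) ≠ 0 := by
        intro h
        rw [h, mul_zero] at h2
        exact zero_ne_one h2
      field_simp
      linear_combination -h2
    · rw [← mono_inv]
      have h1 : ((mono π c)⁻¹ : GL ι F).val.det * ((mono π c : GL ι F) : Matrix ι ι F).det = 1 := by
        rw [← Matrix.det_mul, ← Units.val_mul]
        simp
      rwa [hd, mul_one] at h1

/-- Unit vectors: unit-norm scalars. -/
def UN (σ : F ≃+* F) (c : Fˣ) : Prop := (c : F) * σ c = 1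

section Heis

variable (hf : IsUnitaryForm σ f)

include hf

/-- The trace condition of a Heisenberg element in the isometry group. -/
theorem Hh_tr {z w : ι → F} {s : F} (hz : f z z = 0) (h : f w z = 0) (hz0 : z ≠ 0)
    (hiso : ∀ x y, f (((Hh hf z w s hz h : GL ι F) : Matrix ι ι F) *ᵥ x)
      (((Hh hf z w s hz h : GL ι F) : Matrix ι ι F) *ᵥ y) = f x y) : s + σ s + f w w = 0 := by
  obtain ⟨x₀, hx₀⟩ := (hf.nondegenerate z hz0).1
  have hx : f x₀ z ≠ 0 := hx₀
  have h' := swap_zero hf h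
  have h1 := hiso x₀ x₀
  rw [Hh_mulVec hf hz] at h1
  have e1 : f z x₀ = σ (f x₀ z) := (hf.herm _ _)
  have e2 : f w x₀ = σ (f x₀ w) := (hf.herm _ _)
  simp only [sub_left hf, sub_right hf, hf.add_left, add_right hf, hf.smul_left, smul_right hf, hz, h, h', e1, e2,
    map_mul] at h1
  have h2 : (f x₀ z * σ (f x₀ z)) * (s + σ s + f w w) = 0 := by
    linear_combination h1
  rcases mul_eq_zero.1 h2 with h3 | h3
  · exfalso
    rcases mul_eq_zero.1 h3 with h4 | h4
    · exact hx h4
    · exact hx ((map_eq_zero σ).1 h4)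
  · exact h3

/-- A Heisenberg element with the trace condition is an isometry. -/
theorem Hh_iso {z w : ι → F} {s : F} (hz : f z z = 0) (h : f w z = 0) (hs : s + σ s + f w w = 0) (x y : ι → F) :
    f (((Hh hf z w s hz h : GL ι F) : Matrix ι ι F) *ᵥ x)
      (((Hh hf z w s hz h : GL ι F) : Matrix ι ι F) *ᵥ y) = f x y := by
  have h' := swap_zero hf h
  rw [Hh_mulVec hf hz, Hh_mulVec hf hz]
  have e1 : f z y = σ (f y z) := (hf.herm _ _)
  have e2 : f w y = σ (f y w) := (hf.herm _ _)
  simp only [sub_left hf, sub_right hf, hf.add_left, add_right hf, hf.smul_left, smul_right hf, hz, h, h', e1, e2,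
    map_mul]
  linear_combination (f x z * σ (f y z)) * hs

theorem Hh_mem_SL {z w : ι → F} {s : F} (hz : f z z = 0) (h : f w z = 0) :
    Hh hf z w s hz h ∈ specialLinear ι F := by
  unfold Hh E
  exact mul_mem (mul_mem (T_mem_SL _ _ _ _) (T_mem_SL _ _ _ _)) (T_mem_SL _ _ _ _)

variable {K : Subgroup (GL ι F)}

/-- The trace condition, for an element of a group of isometries. -/
theorem InY.tr (hK : K ≤ isoGroup hf) {z w : ι → F} {s : F} (h : InY hf K z w s) (hz0 : z ≠ 0) :
    s + σ s + f w w = 0 := by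
  obtain ⟨hz, h0, h1⟩ := h
  exact Hh_tr hf hz h0 hz0 ((mem_isoGroup hf).1 (hK h1)).1

/-- The trivial Heisenberg element. -/
theorem InY.triv {z : ι → F} (hz : f z z = 0) : InY hf K z 0 0 := by
  have h0 : f (0 : ι → F) z = 0 := zero_left hf z
  refine ⟨hz, h0, ?_⟩
  have : Hh hf z 0 0 hz h0 = 1 := by
    apply gl_ext
    intro x
    rw [Hh_mulVec hf hz, zero_right hf]
    simp
  rw [this]
  exact K.one_mem

/-- The multiples of the centre. -/
theorem InY.self {z : ι → F} (hz : f z z = 0) (l : F) : InY hf K z (l • z) (σ l - l) := by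
  have h0 : f (l • z) z = 0 := by rw [hf.smul_left, hz, mul_zero]
  refine ⟨hz, h0, ?_⟩
  have : Hh hf z (l • z) (σ l - l) hz h0 = 1 := by
    apply gl_ext
    intro x
    rw [Hh_mulVec hf hz, smul_right hf]
    simp only [Units.val_one, Matrix.one_mulVec]
    module
  rw [this]
  exact K.one_mem

/-- The general conjugation. -/
theorem InY.conj' {z w : ι → F} {s : F} (h : InY hf K z w s) {g : GL ι F} (hgM : g ∈ K)
    (hg : ∀ x y, f ((g : Matrix ι ι F) *ᵥ x) ((g : Matrix ι ι F) *ᵥ y) = f x y) :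
    InY hf K ((g : Matrix ι ι F) *ᵥ z) ((g : Matrix ι ι F) *ᵥ w) s := by
  obtain ⟨hz, h1, m1⟩ := h
  have hz' : f ((g : Matrix ι ι F) *ᵥ z) ((g : Matrix ι ι F) *ᵥ z) = 0 := by rw [hg, hz]
  have h3 : f ((g : Matrix ι ι F) *ᵥ w) ((g : Matrix ι ι F) *ᵥ z) = 0 := by rw [hg, h1]
  refine ⟨hz', h3, ?_⟩
  have e : Hh hf ((g : Matrix ι ι F) *ᵥ z) ((g : Matrix ι ι F) *ᵥ w) s hz' h3 = g * Hh hf z w s hz h1 * g⁻¹ := by
    apply gl_ext
    intro x
    rw [gl_mulVec_mul, gl_mulVec_mul, Hh_mulVec hf hz, Hh_mulVec hf hz']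
    have e1 := hg (((g⁻¹ : GL ι F) : Matrix ι ι F) *ᵥ x) z
    have e2 := hg (((g⁻¹ : GL ι F) : Matrix ι ι F) *ᵥ x) w
    rw [mulVec_inv_mulVec] at e1 e2
    rw [Matrix.mulVec_add, Matrix.mulVec_sub, Matrix.mulVec_add, Matrix.mulVec_smul, Matrix.mulVec_smul, Matrix.mulVec_smul,
      mulVec_inv_mulVec, ← e1, ← e2]
  rw [e]
  exact K.mul_mem (K.mul_mem hgM m1) (K.inv_mem hgM)

/-- The central elements. -/
theorem InY.toT {z : ι → F} {s : F} (h : InY hf K z 0 s) :
    ∃ hz : f z z = 0, T hf (s • z) z (by rw [hf.smul_left, hz, mul_zero]) ∈ K := by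
  obtain ⟨hz, h0, h1⟩ := h
  refine ⟨hz, ?_⟩
  have e : Hh hf z 0 s hz h0 = T hf (s • z) z (by rw [hf.smul_left, hz, mul_zero]) := by
    apply gl_ext
    intro x
    rw [Hh_mulVec hf hz, T_mulVec, zero_right hf]
    simp only [smul_zero, zero_smul, smul_smul, add_zero, sub_zero]
    module
  rw [← e]
  exact h1

/-- The centre from two elements. -/
theorem InY.center {z y y' : ι → F} {s s' : F} (h : InY hf K z y s) (h' : InY hf K z y' s') :
    InY hf K z 0 (f y y' - f y' y) := by
  have h1 := InY.mul hf h h'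
  have h2 := InY.mul hf h' h
  have h3 := InY.mul hf h1 (InY.inv hf h2)
  refine h3.congr hf (by abel) ?_
  have e : y' + y = y + y' := add_comm _ _
  rw [neg_left hf, e]
  ring

/-- Adjusting the last parameter. -/
theorem InY.adjust {z w : ι → F} {s : F} (h : InY hf K z w s) (hc : InY hf K z 0 (-s)) : InY hf K z w 0 := by
  have h1 := InY.mul hf h hc
  refine h1.congr hf (add_zero _) ?_
  rw [zero_left hf]
  ring

/-- Heisenberg elements on two isotropic vectors. -/
theorem InY.role {v w : ι → F} (hww : f w w = 0) (h : InY hf K v w 0) : InY hf K w v 0 := by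
  have hvv := h.1
  exact InE.toY hf hww (InE.swap hf hww hvv (InY.toE hf h))

/-- The root elements from the Heisenberg elements. -/
theorem E_of_InY {p q : ι → F} (hqq : f q q = 0) (h : f p q = 0) {s : F} (hY : InY hf K p (-q) s)
    (hc : InY hf K p 0 (-s)) : E hf p q h ∈ K := by
  obtain ⟨h6, h7⟩ := InY.toE hf (InY.adjust hf hY hc)
  have e : E hf p q h = E hf (-q) p h6 := by
    apply gl_ext
    intro x
    rw [E_mulVec hf h hqq, E_mulVec hf h6 hY.1, neg_right hf]
    module
  rw [e]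
  exact h7

end Heis

end Cfsg.Agent.Lib.Classical.C2U.Base
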