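/-
From one good Heisenberg element to all unitary transvections, in the presence of the unitary monomial matrices.
-/
import Mathlib
import Cfsg.Agent.Lib.Classical.C2U.Base

set_option autoImplicit false
set_option linter.unusedSectionVars false

namespace Cfsg.Agent.Lib.Classical.C2U.Pipe

open scoped Matrix MatrixGroups
open Module Cfsg Cfsg.Geo
open Cfsg.Agent.Lib.Classical.Geo.Basic
open Cfsg.Agent.Lib.Classical.Geo.UForm Cfsg.Agent.Lib.Classical.Geo.UPair Cfsg.Agent.Lib.Classical.Geo.UParab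
open Cfsg.Agent.Lib.Classical.Sub.Rat Cfsg.Agent.Lib.Classical.Sub.UElts
open Cfsg.Agent.Lib.Classical.C2.Base Cfsg.Agent.Lib.Classical.C2.Finish Cfsg.Agent.Lib.Classical.C2U.Base

variable {ι : Type} [Fintype ι] [DecidableEq ι] {F : Type*} [Field F] [Fintype F]
  {σ : F ≃+* F} {f : (ι → F) → (ι → F) → F}

/-- The combinatorial data. -/
structure Frame (Allowed : Equiv.Perm ι → Prop) (Adm : ι → ι → Prop) (Out : ι → ι → ι → Prop) : Prop where
  one : Allowed 1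
  ne : ∀ {a b}, Adm a b → a ≠ b
  swap : ∀ {a b}, Adm a b → Allowed (Equiv.swap a b)
  trans : ∀ {a b a' b'}, Adm a b → Adm a' b' → ∃ π, Allowed π ∧ π a = a' ∧ π b = b'
  fix : ∀ {a b j j'}, Adm a b → Out a b j → Out a b j' → ∃ π, Allowed π ∧ π a = a ∧ π b = b ∧ π j = j'
  adm : ∀ a, ∃ b, Adm a b

/-- The sign, as a unit. -/
noncomputable def sgnU (F : Type*) [Field F] (π : Equiv.Perm ι) : Fˣ :=
  Units.mk0 (((Equiv.Perm.sign π : ℤ) : F)) (by
    rcases Int.units_eq_one_or (Equiv.Perm.sign π) with h | h <;> rw [h] <;> simp)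

theorem sgnU_un (π : Equiv.Perm ι) : ((sgnU F π : Fˣ) : F) * σ (sgnU F π) = 1 := by
  change ((Equiv.Perm.sign π : ℤ) : F) * σ ((Equiv.Perm.sign π : ℤ) : F) = 1
  rw [map_intCast]
  rcases Int.units_eq_one_or (Equiv.Perm.sign π) with h | h <;> rw [h] <;> simp

/-- Unit-norm scalars. -/
theorem un_inv {c : Fˣ} (h : (c : F) * σ c = 1) : (((c⁻¹ : Fˣ) : F)) * σ ((c⁻¹ : Fˣ) : F) = 1 := by
  rw [Units.val_inv_eq_inv_val, map_inv₀, ← mul_inv, h, inv_one]

theorem un_mul {c d : Fˣ} (h : (c : F) * σ c = 1) (h' : (d : F) * σ d = 1) :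
    (((c * d : Fˣ) : F)) * σ ((c * d : Fˣ) : F) = 1 := by
  rw [Units.val_mul, map_mul]
  linear_combination (d * σ d : F) * h + h'

theorem un_ite (c : Fˣ) (h : (c : F) * σ c = 1) (p : Prop) [Decidable p] :
    (((if p then c else 1 : Fˣ) : F)) * σ ((if p then c else 1 : Fˣ) : F) = 1 := by
  split_ifs
  · exact h
  · simp

/-- A monomial matrix of determinant one with a given permutation. -/
theorem exists_detFix (π : Equiv.Perm ι) (j₀ : ι) (d : ι → Fˣ) (hd : ∀ i, (d i : F) * σ (d i) = 1) (hdj : d j₀ = 1) :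
    ∃ c : ι → Fˣ, (∀ i, i ≠ j₀ → c i = d i) ∧ (∀ i, (c i : F) * σ (c i) = 1) ∧
      ((mono π c : GL ι F) : Matrix ι ι F).det = 1 := by
  set P : Fˣ := ∏ i, d i with hP
  have hPn : (P : F) * σ P = 1 := by
    rw [hP, Units.coe_prod, map_prod, ← Finset.prod_mul_distrib]
    exact Finset.prod_eq_one fun i _ => hd i
  set r : Fˣ := (sgnU F π * P)⁻¹ with hr
  refine ⟨fun i => if i = j₀ then r else d i, fun i hi => by simp [hi], fun i => ?_, ?_⟩
  · by_cases hi : i = j₀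
    · simp only [hi, if_true]
      exact un_inv (un_mul (sgnU_un π) hPn)
    · simp only [hi, if_false]
      exact hd i
  · rw [mono_det]
    have h1 : ∏ i, (((if i = j₀ then r else d i : Fˣ)) : F) = (r : F) * P := by
      rw [hP, Units.coe_prod, ← Finset.mul_prod_erase Finset.univ _ (Finset.mem_univ j₀),
        ← Finset.mul_prod_erase Finset.univ (fun i => (d i : F)) (Finset.mem_univ j₀)]
      simp only [if_true, hdj, Units.val_one, one_mul]
      congr 1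
      refine Finset.prod_congr rfl fun i hi => ?_
      rw [if_neg (Finset.ne_of_mem_erase hi)]
    rw [h1]
    have h2 : ((Equiv.Perm.sign π : ℤ) : F) = (sgnU F π : F) := rfl
    rw [h2, hr, ← Units.val_mul, ← Units.val_mul]
    simp

section Main

variable (hf : IsUnitaryForm σ f) (hstd : ∀ x y, f x y = ∑ i, x i * σ (y i)) (NF : NormFacts σ)
  {K : Subgroup (GL ι F)} {Allowed : Equiv.Perm ι → Prop} {Adm : ι → ι → Prop} {Out : ι → ι → ι → Prop}
  (Fr : Frame Allowed Adm Out) (hKiso : K ≤ isoGroup hf)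
  (hM : ∀ (π : Equiv.Perm ι) (c : ι → Fˣ), Allowed π → (∀ i, (c i : F) * σ (c i) = 1) →
    ((mono π c : GL ι F) : Matrix ι ι F).det = 1 → mono π c ∈ K)

theorem dg_eq (a b : ι) (l : Fˣ) : (dg a b l : GL ι F) =
    mono 1 (fun i => (if i = a then l else 1) * (if i = b then l⁻¹ else 1)) := by
  rw [dg, dAt, dAt, mono_mul]
  rfl

include Fr hM in
theorem dg_mem (a b : ι) {l : Fˣ} (hl : (l : F) * σ l = 1) : dg a b l ∈ K := by
  have h1 := dg_det (F := F) a b l
  rw [dg_eq] at h1 ⊢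
  refine hM _ _ Fr.one (fun i => ?_) h1
  exact un_mul (un_ite l hl _) (un_ite _ (un_inv hl) _)

include hstd in
theorem dg_iso (a b : ι) {l : Fˣ} (hl : (l : F) * σ l = 1) (x y : ι → F) :
    f (((dg a b l : GL ι F) : Matrix ι ι F) *ᵥ x) (((dg a b l : GL ι F) : Matrix ι ι F) *ᵥ y) = f x y := by
  rw [dg_eq]
  refine mono_iso hstd _ _ (fun i => ?_) x y
  exact un_mul (un_ite l hl _) (un_ite _ (un_inv hl) _)

theorem dg_fix {a b : ι} (hab : a ≠ b) (l : Fˣ) {v : ι → F} (ha : v a = 0) (hb : v b = 0) :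
    ((dg a b l : GL ι F) : Matrix ι ι F) *ᵥ v = v := by
  rw [dg_mulVec hab, ha, hb]
  simp

include NF in
theorem exists_un : ∃ l : Fˣ, (l : F) * σ l = 1 ∧ l ≠ 1 := by
  obtain ⟨x, hx, hx1, hx0⟩ := NF.three 1 one_ne_zero (map_one σ) 1 0
  refine ⟨Units.mk0 x hx0, hx, fun h => hx1 ?_⟩
  have := congrArg Units.val h
  simpa using this

include hf hstd NF Fr hM in
/-- Isolating a coordinate. -/
theorem lift_single {v c : ι → F} {s : F} (hY : InY hf K v c s) {a a₁ a₂ : ι} (h1 : a ≠ a₁) (h2 : a ≠ a₂)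
    (h3 : a₁ ≠ a₂) (hva : v a = 0) (hva₁ : v a₁ = 0) (hva₂ : v a₂ = 0) (hc : c a ≠ 0) :
    ∀ τ : F, ∃ s', InY hf K v (τ • (ee a : ι → F)) s' := by
  obtain ⟨l, hl, hl1⟩ := exists_un NF
  have hl0 : (l : F) - 1 ≠ 0 := sub_one_ne hl1
  -- the first step
  have s1 := InY.step hf hY (dg_mem Fr hM a a₁ hl) (dg_iso hstd a a₁ hl) (dg_fix h1 l hva hva₁)
  rw [dg_mulVec h1, show c + (((l : F) - 1) * c a) • (ee a : ι → F) + ((((l⁻¹ : Fˣ) : F) - 1) * c a₁) • (ee a₁ : ι → F) - c =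
    (((l : F) - 1) * c a) • (ee a : ι → F) + ((((l⁻¹ : Fˣ) : F) - 1) * c a₁) • (ee a₁ : ι → F) by abel] at s1
  set c₁ := (((l : F) - 1) * c a) • (ee a : ι → F) + ((((l⁻¹ : Fˣ) : F) - 1) * c a₁) • (ee a₁ : ι → F) with hc₁
  have hc₁a : c₁ a = ((l : F) - 1) * c a := by
    simp [hc₁, Pi.single_eq_of_ne h1]
  have hc₁a₂ : c₁ a₂ = 0 := by
    simp [hc₁, Pi.single_eq_of_ne h2.symm, Pi.single_eq_of_ne h3.symm]
  -- the second step
  have s2 := InY.step hf s1 (dg_mem Fr hM a a₂ hl) (dg_iso hstd a a₂ hl) (dg_fix h2 l hva hva₂)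
  rw [dg_mulVec h2, hc₁a₂, mul_zero, zero_smul, add_zero, add_sub_cancel_left] at s2
  set κ : F := ((l : F) - 1) * c₁ a with hκ
  have hκ0 : κ ≠ 0 := by
    rw [hκ, hc₁a]
    exact mul_ne_zero hl0 (mul_ne_zero hl0 hc)
  -- the additive closure
  have hadd : ∀ τ τ' : F, (∃ s', InY hf K v (τ • (ee a : ι → F)) s') → (∃ s', InY hf K v (τ' • (ee a : ι → F)) s') →
      ∃ s', InY hf K v ((τ + τ') • (ee a : ι → F)) s' := by
    rintro τ τ' ⟨t, ht⟩ ⟨t', ht'⟩
    exact ⟨_, (InY.mul hf ht ht').congr hf (add_smul _ _ _).symm rfl⟩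
  have hneg : ∀ τ : F, (∃ s', InY hf K v (τ • (ee a : ι → F)) s') → ∃ s', InY hf K v ((-τ) • (ee a : ι → F)) s' := by
    rintro τ ⟨t, ht⟩
    exact ⟨_, (InY.inv hf ht).congr hf (neg_smul _ _).symm rfl⟩
  have hmul : ∀ (δ τ : F), δ * σ δ = 1 → (∃ s', InY hf K v (τ • (ee a : ι → F)) s') →
      ∃ s', InY hf K v ((δ * τ) • (ee a : ι → F)) s' := by
    rintro δ τ hδ ⟨t, ht⟩
    have hδ0 : δ ≠ 0 := by
      rintro rfl
      simp at hδ
    let r : Fˣ := Units.mk0 δ hδ0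
    have hr : (r : F) * σ r = 1 := hδ
    have h4 := InY.conj hf ht (dg_mem Fr hM a a₁ hr) (dg_iso hstd a a₁ hr) (dg_fix h1 r hva hva₁)
    refine ⟨_, h4.congr hf ?_ rfl⟩
    rw [dg_mulVec h1]
    ext i
    by_cases hi : i = a
    · subst hi
      simp [Pi.single_eq_of_ne h1, r]
      ring
    · by_cases hi' : i = a₁
      · subst hi'
        simp [Pi.single_eq_of_ne h1.symm]
      · simp [Pi.single_eq_of_ne hi, Pi.single_eq_of_ne hi']
  have hall : ∀ z : F, ∃ s', InY hf K v ((z * κ) • (ee a : ι → F)) s' := by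
    intro z
    induction NF.span z using AddSubgroup.closure_induction with
    | mem x hx => exact hmul x κ hx ⟨_, s2.congr hf (by rw [hκ]) rfl⟩
    | zero =>
      refine ⟨0, ?_⟩
      have := InY.triv (K := K) hf hY.1
      refine this.congr hf ?_ rfl
      simp
    | add x y _ _ h5 h6 =>
      have := hadd _ _ h5 h6
      rwa [← add_mul] at this
    | neg x _ h5 =>
      have := hneg _ h5
      rwa [← neg_mul] at this
  intro τ
  have := hall (τ / κ)
  rwa [div_mul_cancel₀ _ hκ0] at this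

include hf hstd in
/-- The centre from a coordinate. -/
theorem center_of {v : ι → F} {a : ι} (h : ∀ τ : F, ∃ s', InY hf K v (τ • (ee a : ι → F)) s') {α : F}
    (hα : α + σ α = 0) : InY hf K v 0 α := by
  obtain ⟨t, ht⟩ := exists_sub_sigma hf (c := -α) (by rw [map_neg]; linear_combination -hα)
  obtain ⟨s₁, h₁⟩ := h 1
  obtain ⟨s₂, h₂⟩ := h t
  refine (InY.center hf h₁ h₂).congr hf rfl ?_
  rw [smul_right hf, hf.smul_left, hf.smul_left, smul_right hf, f_single_right hstd]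
  simp only [Pi.single_eq_same, map_one]
  linear_combination -ht

/-- The two-coordinate isotropic vectors. -/
noncomputable def ww (a b : ι) (δ : F) : ι → F := ee a + δ • ee b

include hf hstd in
theorem ww_iso {a b : ι} (hab : a ≠ b) {δ : F} (hδ : δ * σ δ = -1) : f (ww a b δ) (ww a b δ) = 0 := by
  simp only [ww, hf.add_left, add_right hf, hf.smul_left, smul_right hf, f_single_right hstd]
  simp only [Pi.add_apply, Pi.smul_apply, smul_eq_mul, Pi.single_eq_same, Pi.single_eq_of_ne hab, Pi.single_eq_of_ne hab.symm]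
  simp
  linear_combination hδ

include hstd in
theorem f_ww (x : ι → F) (a b : ι) (δ : F) (hf : IsUnitaryForm σ f) : f x (ww a b δ) = x a + x b * σ δ := by
  rw [ww, add_right hf, smul_right hf, f_single_right hstd, f_single_right hstd]
  ring

/-- The good isotropic vectors. -/
def GoodW (hf : IsUnitaryForm σ f) (K : Subgroup (GL ι F)) (w : ι → F) : Prop :=
  f w w = 0 ∧ (∀ α : F, α + σ α = 0 → InY hf K w 0 α) ∧ ∀ c, f c w = 0 → ∃ s, InY hf K w c s

include hf in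
theorem good_vecs {w : ι → F} (h : GoodW hf K w) : w ∈ vecs hf K := by
  refine ⟨h.1, fun c hc => ?_⟩
  obtain ⟨_, h2⟩ := InY.toT hf (h.2.1 c hc)
  exact h2

include hf hKiso in
theorem good_E {w : ι → F} (h : GoodW hf K w) (hw0 : w ≠ 0) (q : ι → F) (hqq : f q q = 0) (hwq : f w q = 0) :
    E hf w q hwq ∈ K := by
  have h0 : f (-q) w = 0 := by rw [neg_left hf, swap_zero hf hwq, neg_zero]
  obtain ⟨s, hs⟩ := h.2.2 _ h0
  have h1 := InY.tr hf hKiso hs hw0
  rw [neg_left hf, neg_right hf, hqq, neg_neg, add_zero] at h1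
  exact E_of_InY hf hqq hwq hs (h.2.1 _ (by rw [map_neg]; linear_combination -h1))

include hf in
theorem good_conj {w : ι → F} (h : GoodW hf K w) {g : GL ι F} (hgK : g ∈ K)
    (hg : ∀ x y, f ((g : Matrix ι ι F) *ᵥ x) ((g : Matrix ι ι F) *ᵥ y) = f x y) :
    GoodW hf K ((g : Matrix ι ι F) *ᵥ w) := by
  refine ⟨by rw [hg, h.1], fun α hα => ?_, fun c hc => ?_⟩
  · have := InY.conj' hf (h.2.1 α hα) hgK hg
    rwa [Matrix.mulVec_zero] at this
  · have e : c = (g : Matrix ι ι F) *ᵥ (((g⁻¹ : GL ι F) : Matrix ι ι F) *ᵥ c) := (mulVec_inv_mulVec g c).symm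
    rw [e, hg] at hc
    obtain ⟨s, hs⟩ := h.2.2 _ hc
    refine ⟨s, ?_⟩
    have := InY.conj' hf hs hgK hg
    rwa [← e] at this

include hf hstd NF Fr hM in
/-- The core: from a Heisenberg element to a good vector. -/
theorem good_of_single (hc5 : 5 ≤ Fintype.card ι) (hKiso : K ≤ isoGroup hf)
    (hIn : ∀ {a b : ι} {δ : F}, Adm a b → δ * σ δ = -1 → ∀ j, ¬ Out a b j → j ≠ a → j ≠ b →
      ∀ τ : F, ∃ s, InY hf K (ww a b δ) (τ • (ee j : ι → F)) s)
    {v c : ι → F} {s : F} (hY : InY hf K v c s) (hv0 : v ≠ 0)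
    {f₁ f₂ f' f'' : ι} (h12 : f₁ ≠ f₂) (h1' : f₁ ≠ f') (h1'' : f₁ ≠ f'') (h2' : f₂ ≠ f') (h'' : f' ≠ f'')
    (hv₁ : v f₁ = 0) (hv₂ : v f₂ = 0) (hv' : v f' = 0) (hv'' : v f'' = 0) (hc : c f₁ ≠ 0) (hadm : Adm f₁ f₂)
    (hOut : ∀ j, v j ≠ 0 → Out f₁ f₂ j) :
    ∃ δ : F, δ * σ δ = -1 ∧ GoodW hf K (ww f₁ f₂ δ) := by
  have P₁ := lift_single hf hstd NF Fr hM hY h1' h1'' h'' hv₁ hv' hv'' hc
  -- the second coordinate
  obtain ⟨c₀, hc₀, hc₀u, hc₀d⟩ := exists_detFix (F := F) (σ := σ) (Equiv.swap f₁ f₂) f' (fun _ => 1) (by simp) rfl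
  have hg₀ : mono (Equiv.swap f₁ f₂) c₀ ∈ K := hM _ _ (Fr.swap hadm) hc₀u hc₀d
  have hg₀i := mono_iso hstd (Equiv.swap f₁ f₂) c₀ hc₀u
  have hg₀v : ((mono (Equiv.swap f₁ f₂) c₀ : GL ι F) : Matrix ι ι F) *ᵥ v = v := by
    ext i
    rw [mono_apply, Equiv.swap_inv]
    by_cases h4 : i = f₁
    · subst h4
      simp [hv₂, hv₁]
    · by_cases h5 : i = f₂
      · subst h5
        simp [hv₁, hv₂]
      · rw [Equiv.swap_apply_of_ne_of_ne h4 h5]
        by_cases h6 : i = f'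
        · subst h6
          simp [hv']
        · rw [hc₀ i h6]
          simp
  have P₂ : ∀ τ : F, ∃ s', InY hf K v (τ • (ee f₂ : ι → F)) s' := by
    intro τ
    obtain ⟨t, ht⟩ := P₁ τ
    refine ⟨t, (InY.conj hf ht hg₀ hg₀i hg₀v).congr hf ?_ rfl⟩
    rw [Matrix.mulVec_smul, mono_single, Equiv.swap_apply_left, hc₀ _ h1']
    simp
  have hcen : ∀ α : F, α + σ α = 0 → InY hf K v 0 α := fun α hα => center_of hf hstd P₁ hα
  -- the vector `w`
  obtain ⟨δ, hδ, hδ1, -⟩ := NF.three (-1) (by simp) (by simp) 0 0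
  refine ⟨δ, hδ, ?_⟩
  set w := ww f₁ f₂ δ with hw
  have hww : f w w = 0 := ww_iso hf hstd h12 hδ
  have hw0 : w ≠ 0 := by
    intro h0
    have := congrFun h0 f₁
    rw [hw] at this
    simp only [ww, Pi.add_apply, Pi.smul_apply, smul_eq_mul, Pi.single_eq_same, Pi.single_eq_of_ne h12, Pi.zero_apply,
      mul_zero, add_zero] at this
    exact one_ne_zero this
  obtain ⟨t₁, ht₁⟩ := P₁ 1
  obtain ⟨t₂, ht₂⟩ := P₂ δ
  have h4 : InY hf K v w _ := (InY.mul hf ht₁ ht₂).congr hf (by rw [hw, ww, one_smul]) rfl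
  have h5 := InY.tr hf hKiso h4 hv0
  rw [hww, add_zero] at h5
  have h6 : InY hf K v w 0 := InY.adjust hf h4 (hcen _ (by rw [map_neg]; linear_combination -h5))
  have h7 : InY hf K w v 0 := InY.role hf hww h6
  -- a coordinate of `v`
  obtain ⟨j, hj⟩ := Function.ne_iff.1 hv0
  have hj0 : v j ≠ 0 := hj
  have hj1 : j ≠ f₁ := by
    rintro rfl
    exact hj0 hv₁
  have hj2 : j ≠ f₂ := by
    rintro rfl
    exact hj0 hv₂
  obtain ⟨j₁, hj₁⟩ := exists_notMem_finset ({f₁, f₂, j} : Finset ι) (by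
    have := Finset.card_le_three (a := f₁) (b := f₂) (c := j)
    omega)
  simp only [Finset.mem_insert, Finset.mem_singleton, not_or] at hj₁
  obtain ⟨j₂, hj₂⟩ := exists_notMem_finset ({f₁, f₂, j, j₁} : Finset ι) (by
    have := Finset.card_le_four (a := f₁) (b := f₂) (c := j) (d := j₁)
    omega)
  simp only [Finset.mem_insert, Finset.mem_singleton, not_or] at hj₂
  have hwz : ∀ i, i ≠ f₁ → i ≠ f₂ → w i = 0 := by
    intro i h8 h9
    simp [hw, ww, Pi.single_eq_of_ne h8, Pi.single_eq_of_ne h9]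
  have Q := lift_single hf hstd NF Fr hM h7 (Ne.symm hj₁.2.2) (Ne.symm hj₂.2.2.1) (Ne.symm hj₂.2.2.2) (hwz _ hj1 hj2)
    (hwz _ hj₁.1 hj₁.2.1) (hwz _ hj₂.1 hj₂.2.1) hj0
  have hcenw : ∀ α : F, α + σ α = 0 → InY hf K w 0 α := fun α hα => center_of hf hstd Q hα
  -- all outer coordinates
  have QO : ∀ j', Out f₁ f₂ j' → ∀ τ : F, ∃ s', InY hf K w (τ • (ee j' : ι → F)) s' := by
    intro j' hj' τ
    obtain ⟨π, hπ, hπ1, hπ2, hπ3⟩ := Fr.fix hadm (hOut j hj0) hj'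
    obtain ⟨c₁, hc₁, hc₁u, hc₁d⟩ := exists_detFix (F := F) (σ := σ) π j₁ (fun _ => 1) (by simp) rfl
    have hg : mono π c₁ ∈ K := hM _ _ hπ hc₁u hc₁d
    have hgi := mono_iso hstd π c₁ hc₁u
    have hgw : ((mono π c₁ : GL ι F) : Matrix ι ι F) *ᵥ w = w := by
      rw [hw, ww, Matrix.mulVec_add, Matrix.mulVec_smul, mono_single, mono_single, hπ1, hπ2,
        hc₁ _ (Ne.symm hj₁.1), hc₁ _ (Ne.symm hj₁.2.1)]
      simp
    have hcu : (c₁ j : F) ≠ 0 := (c₁ j).ne_zero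
    obtain ⟨t, ht⟩ := Q (τ / c₁ j)
    refine ⟨t, (InY.conj hf ht hg hgi hgw).congr hf ?_ rfl⟩
    rw [Matrix.mulVec_smul, mono_single, hπ3]
    ext i
    by_cases hi : i = j'
    · subst hi
      simp
    · simp [Pi.single_eq_of_ne hi]
  have QA : ∀ j', j' ≠ f₁ → j' ≠ f₂ → ∀ τ : F, ∃ s', InY hf K w (τ • (ee j' : ι → F)) s' := by
    intro j' h8 h9 τ
    by_cases hO : Out f₁ f₂ j'
    · exact QO j' hO τ
    · exact hIn hadm hδ j' hO h8 h9 τ
  -- all vectors
  refine ⟨hww, hcenw, fun e he => ?_⟩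
  have hS : ∀ S : Finset ι, (∀ i ∈ S, i ≠ f₁ ∧ i ≠ f₂) → ∃ t, InY hf K w (∑ i ∈ S, e i • (ee i : ι → F)) t := by
    intro S
    induction S using Finset.induction_on with
    | empty =>
      intro _
      exact ⟨0, (InY.triv (K := K) hf hww).congr hf (by simp) rfl⟩
    | insert a S ha ih =>
      intro hi
      obtain ⟨t, ht⟩ := ih fun i hi' => hi i (Finset.mem_insert_of_mem hi')
      obtain ⟨h8, h9⟩ := hi a (Finset.mem_insert_self _ _)
      obtain ⟨t', ht'⟩ := QA a h8 h9 (e a)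
      refine ⟨_, (InY.mul hf ht' ht).congr hf ?_ rfl⟩
      rw [Finset.sum_insert ha]
  obtain ⟨t, ht⟩ := hS (Finset.univ.filter fun i => i ≠ f₁ ∧ i ≠ f₂) (by
    intro i hi
    simpa using hi)
  have h8 := InY.self (K := K) hf hww (e f₁)
  refine ⟨_, (InY.mul hf h8 ht).congr hf ?_ rfl⟩
  have he' : e f₁ + e f₂ * σ δ = 0 := by
    rw [← f_ww hstd e f₁ f₂ δ hf]
    exact he
  have he2 : e f₁ * δ = e f₂ := by
    have : e f₁ * δ + e f₂ * (δ * σ δ) = 0 := by linear_combination δ * he'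
    rw [hδ] at this
    linear_combination this
  ext i
  rw [Pi.add_apply, Finset.sum_apply]
  by_cases h9 : i = f₁
  · subst h9
    rw [Finset.sum_eq_zero]
    · simp only [hw, ww, Pi.add_apply, Pi.smul_apply, smul_eq_mul, Pi.single_eq_same, Pi.single_eq_of_ne h12, Pi.zero_apply,
        mul_zero, add_zero, mul_one, sub_self]
    · intro k hk
      have : k ≠ i := (Finset.mem_filter.1 hk).2.1
      simp [Pi.single_eq_of_ne this.symm]
  by_cases h10 : i = f₂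
  · subst h10
    rw [Finset.sum_eq_zero]
    · simp only [hw, ww, Pi.add_apply, Pi.smul_apply, smul_eq_mul, Pi.single_eq_same, Pi.single_eq_of_ne h12.symm, Pi.zero_apply,
        mul_zero, add_zero, mul_one, zero_add]
      linear_combination he2
    · intro k hk
      have : k ≠ i := (Finset.mem_filter.1 hk).2.2
      simp [Pi.single_eq_of_ne this.symm]
  rw [Finset.sum_eq_single i]
  · simp [hw, ww, Pi.single_eq_of_ne h9, Pi.single_eq_of_ne h10]
  · intro k _ hk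
    simp [Pi.single_eq_of_ne hk.symm]
  · intro h11
    exfalso
    apply h11
    simp [h9, h10]

include hf hstd NF Fr hM in
/-- All isotropic vectors. -/
theorem all_vecs_of_good (hc12 : 12 ≤ Fintype.card ι) (hKiso : K ≤ isoGroup hf)
    {f₁ f₂ : ι} {δ : F} (hadm : Adm f₁ f₂) (hδ : δ * σ δ = -1) (hG : GoodW hf K (ww f₁ f₂ δ)) {z : ι → F}
    (hzz : f z z = 0) : z ∈ vecs hf K := by
  have h12 := Fr.ne hadm
  -- all the vectors `ww` are good
  have hall : ∀ {a b : ι} {δ' : F}, Adm a b → δ' * σ δ' = -1 → GoodW hf K (ww a b δ') := by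
    intro a b δ' hab hδ'
    obtain ⟨π, hπ, hπ1, hπ2⟩ := Fr.trans hadm hab
    obtain ⟨j₀, hj₀⟩ := exists_notMem_finset ({f₁, f₂} : Finset ι) (by
      have := Finset.card_le_two (a := f₁) (b := f₂)
      omega)
    simp only [Finset.mem_insert, Finset.mem_singleton, not_or] at hj₀
    have hδ0 : δ ≠ 0 := by
      rintro rfl
      simp at hδ
    have hδ'0 : δ' ≠ 0 := by
      rintro rfl
      simp at hδ'
    let r : Fˣ := Units.mk0 (δ' / δ) (div_ne_zero hδ'0 hδ0)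
    have hr : (r : F) * σ r = 1 := by
      change (δ' / δ) * σ (δ' / δ) = 1
      rw [map_div₀]
      have : σ δ ≠ 0 := by
        rw [Ne, map_eq_zero]
        exact hδ0
      field_simp
      linear_combination hδ' - hδ
    obtain ⟨c₁, hc₁, hc₁u, hc₁d⟩ := exists_detFix (F := F) (σ := σ) π j₀ (fun i => if i = f₂ then r else 1)
      (fun i => un_ite r hr _) (if_neg hj₀.2)
    have hg : mono π c₁ ∈ K := hM _ _ hπ hc₁u hc₁d
    have hgi := mono_iso hstd π c₁ hc₁u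
    have e : ((mono π c₁ : GL ι F) : Matrix ι ι F) *ᵥ ww f₁ f₂ δ = ww a b δ' := by
      rw [ww, Matrix.mulVec_add, Matrix.mulVec_smul, mono_single, mono_single, hπ1, hπ2, hc₁ _ (Ne.symm hj₀.1),
        hc₁ _ (Ne.symm hj₀.2)]
      simp only [if_true, if_neg h12, Units.val_one, mul_one, ww]
      congr 1
      ext i
      by_cases hi : i = b
      · subst hi
        simp [r]
        field_simp
      · simp [Pi.single_eq_of_ne hi]
    rw [← e]
    exact good_conj hf hG hg hgi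
  have hww0 : ∀ {a b : ι} (δ' : F), a ≠ b → ww a b δ' ≠ 0 := by
    intro a b δ' hab h0
    have := congrFun h0 a
    simp [ww, Pi.single_eq_of_ne hab] at this
  by_cases hz0 : z = 0
  · subst hz0
    refine ⟨hzz, fun c _ => ?_⟩
    have : T hf (c • (0 : ι → F)) 0 (by rw [hf.smul_left, hzz, mul_zero]) = 1 := by
      apply gl_ext
      intro x
      rw [T_mulVec, zero_right hf]
      simp
    rw [this]
    exact K.one_mem
  obtain ⟨a, ha⟩ := Function.ne_iff.1 hz0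
  have ha0 : z a ≠ 0 := ha
  obtain ⟨b, hab⟩ := Fr.adm a
  -- a vector not orthogonal to `z`
  obtain ⟨δ₁, hδ₁, hδ₁1, -⟩ : ∃ δ₁ : F, δ₁ * σ δ₁ = -1 ∧ z a + z b * σ δ₁ ≠ 0 ∧ True := by
    by_cases hzb : z b = 0
    · obtain ⟨x, hx, -, -⟩ := NF.three (-1) (by simp) (by simp) 0 0
      exact ⟨x, hx, by rw [hzb, zero_mul, add_zero]; exact ha0, trivial⟩
    · obtain ⟨x, hx, hx1, -⟩ := NF.three (-1) (by simp) (by simp) (σ (- z a / z b)) 0
      refine ⟨x, hx, fun h0 => hx1 ?_, trivial⟩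
      have h1 : σ x = - z a / z b := by
        field_simp
        linear_combination h0
      rw [← h1, hf.involutive]
  obtain ⟨δ₂, hδ₂, hδ₂1, -⟩ := NF.three (-1) (by simp) (by simp) δ₁ 0
  have hne := Fr.ne hab
  set w := ww a b δ₁ with hw
  have hG₁ : GoodW hf K w := hall hab hδ₁
  have hG₂ : GoodW hf K (ww a b δ₂) := hall hab hδ₂
  have hzw : f z w ≠ 0 := by
    rw [hw, f_ww hstd z a b δ₁ hf]
    exact hδ₁1
  have hxw : f (ww a b δ₂) w ≠ 0 := by
    rw [hw, f_ww hstd _ a b δ₁ hf]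
    simp only [ww, Pi.add_apply, Pi.smul_apply, smul_eq_mul, Pi.single_eq_same, Pi.single_eq_of_ne hne,
      Pi.single_eq_of_ne hne.symm, mul_zero, add_zero, mul_one, zero_add]
    intro h0
    apply hδ₂1
    have : δ₁ + δ₂ * (δ₁ * σ δ₁) = 0 := by linear_combination δ₁ * h0
    rw [hδ₁] at this
    linear_combination -this
  have hx := smul_mem_vecs hf (good_vecs hf hG₂) (f (ww a b δ₂) w)⁻¹
  have e1 : f ((f (ww a b δ₂) w)⁻¹ • ww a b δ₂) w = 1 := by
    rw [hf.smul_left, inv_mul_cancel₀ hxw]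
  have e2 : f ((f z w)⁻¹ • z) w = 1 := by
    rw [hf.smul_left, inv_mul_cancel₀ hzw]
  have e3 : f ((f z w)⁻¹ • z) ((f z w)⁻¹ • z) = 0 := iso_smul hf hzz _
  have h2 := vecs_step hf (p := w) (fun q hq h => good_E hf hKiso hG₁ (hww0 _ hne) q hq h) (good_vecs hf hG₁) hx e1 e3 e2 hc12
  have h3 := smul_mem_vecs hf h2 (f z w)
  rwa [smul_smul, mul_inv_cancel₀ hzw, one_smul] at h3

include hf hstd NF Fr hM in
/-- **The pipeline.** -/
theorem pipeline (hc12 : 12 ≤ Fintype.card ι) (hKiso : K ≤ isoGroup hf)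
    (hIn : ∀ {a b : ι} {δ : F}, Adm a b → δ * σ δ = -1 → ∀ j, ¬ Out a b j → j ≠ a → j ≠ b →
      ∀ τ : F, ∃ s, InY hf K (ww a b δ) (τ • (ee j : ι → F)) s)
    {v c : ι → F} {s : F} (hY : InY hf K v c s) (hv0 : v ≠ 0)
    {f₁ f₂ f' f'' : ι} (h12 : f₁ ≠ f₂) (h1' : f₁ ≠ f') (h1'' : f₁ ≠ f'') (h2' : f₂ ≠ f') (h'' : f' ≠ f'')
    (hv₁ : v f₁ = 0) (hv₂ : v f₂ = 0) (hv' : v f' = 0) (hv'' : v f'' = 0) (hc : c f₁ ≠ 0) (hadm : Adm f₁ f₂)
    (hOut : ∀ j, v j ≠ 0 → Out f₁ f₂ j) {z : ι → F} (hzz : f z z = 0) : z ∈ vecs hf K := by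
  obtain ⟨δ, hδ, hG⟩ := good_of_single hf hstd NF Fr hM (by omega) hKiso hIn hY hv0 h12 h1' h1'' h2' h'' hv₁ hv₂ hv' hv'' hc hadm hOut
  exact all_vecs_of_good hf hstd NF Fr hM hc12 hKiso hadm hδ hG hzz

end Main

end Cfsg.Agent.Lib.Classical.C2U.Pipe
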