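/-
Support growth, the double swap, and the pipeline for the full monomial group.
-/
import Mathlib
import Cfsg.Agent.Lib.Classical.C2U.Pipe

set_option autoImplicit false
set_option linter.unusedSectionVars false

namespace Cfsg.Agent.Lib.Classical.C2U.Grow

open scoped Matrix MatrixGroups
open Module Cfsg Cfsg.Geo
open Cfsg.Agent.Lib.Classical.Geo.Basic
open Cfsg.Agent.Lib.Classical.Geo.UForm Cfsg.Agent.Lib.Classical.Geo.UPair Cfsg.Agent.Lib.Classical.Geo.UParab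
open Cfsg.Agent.Lib.Classical.Sub.Rat Cfsg.Agent.Lib.Classical.Sub.UElts
open Cfsg.Agent.Lib.Classical.C2.Base Cfsg.Agent.Lib.Classical.C2.Finish Cfsg.Agent.Lib.Classical.C2U.Base
open Cfsg.Agent.Lib.Classical.C2U.Pipe

variable {ι : Type} [Fintype ι] [DecidableEq ι] {F : Type*} [Field F] [Fintype F]
  {σ : F ≃+* F} {f : (ι → F) → (ι → F) → F}

/-- The pigeonhole property. -/
def PigeonFact (σ : F ≃+* F) : Prop :=
  ∀ a b τ : F, a ≠ 0 → b ≠ 0 → σ τ = τ → ∀ δ₀ : F, ∃ δ₁ δ₂ : F, δ₁ * σ δ₁ = 1 ∧ δ₂ * σ δ₂ = 1 ∧ δ₁ ≠ δ₀ ∧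
    (δ₁ * a + σ (δ₁ * a)) + (δ₂ * b + σ (δ₂ * b)) = τ

/-- The support. -/
noncomputable def sp (y : ι → F) : Finset ι := by
  classical exact Finset.univ.filter fun i => y i ≠ 0

theorem mem_sp {y : ι → F} {i : ι} : i ∈ sp y ↔ y i ≠ 0 := by
  unfold sp
  simp

/-- Unit-norm monomial elements. -/
def IsUM (σ : F ≃+* F) (g : GL ι F) : Prop :=
  ∃ (π : Equiv.Perm ι) (c : ι → Fˣ), g = mono π c ∧ ∀ i, (c i : F) * σ (c i) = 1

theorem IsUM.mul {g h : GL ι F} (hg : IsUM σ g) (hh : IsUM σ h) : IsUM σ (g * h) := by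
  obtain ⟨π, c, rfl, hc⟩ := hg
  obtain ⟨π', c', rfl, hc'⟩ := hh
  refine ⟨_, _, mono_mul _ _ _ _, fun i => ?_⟩
  exact un_mul (hc _) (hc' _)

theorem IsUM.inv {g : GL ι F} (hg : IsUM σ g) : IsUM σ g⁻¹ := by
  obtain ⟨π, c, rfl, hc⟩ := hg
  refine ⟨_, _, mono_inv _ _, fun i => ?_⟩
  exact un_inv (hc _)

theorem IsUM.mem {g : GL ι F} (hg : IsUM σ g) (hd : (g : Matrix ι ι F).det = 1) : g ∈ UMono σ := by
  obtain ⟨π, c, rfl, hc⟩ := hg
  exact ⟨π, c, rfl, hc, hd⟩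

theorem UMono_isUM {g : GL ι F} (hg : g ∈ UMono σ) : IsUM σ g := by
  obtain ⟨π, c, rfl, hc, -⟩ := hg
  exact ⟨π, c, rfl, hc⟩

theorem UMono_det {g : GL ι F} (hg : g ∈ UMono σ) : (g : Matrix ι ι F).det = 1 := by
  obtain ⟨π, c, rfl, -, hd⟩ := hg
  exact hd

theorem sw_um {a b : ι} {α : Fˣ} (h : (α : F) * σ α = 1) : IsUM σ (sw a b α : GL ι F) := by
  refine ⟨_, _, rfl, fun i => ?_⟩
  split_ifs
  · exact h
  · exact un_inv h
  · simp

theorem dAt_um (a : ι) {α : Fˣ} (h : (α : F) * σ α = 1) : IsUM σ (dAt a α : GL ι F) := by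
  refine ⟨_, _, rfl, fun i => ?_⟩
  exact un_ite α h _

theorem dg_um (a b : ι) {α : Fˣ} (h : (α : F) * σ α = 1) : IsUM σ (dg a b α : GL ι F) :=
  (dAt_um a h).mul (dAt_um b (un_inv h))

theorem UMono_le_iso (hf : IsUnitaryForm σ f) (hstd : ∀ x y, f x y = ∑ i, x i * σ (y i)) : UMono σ ≤ isoGroup hf := by
  rintro g ⟨π, c, rfl, hc, hd⟩
  exact (mem_isoGroup hf).2 ⟨mono_iso hstd π c hc, (mem_specialLinear_iff _).2 hd⟩

theorem IsUM.iso (hstd : ∀ x y, f x y = ∑ i, x i * σ (y i)) {g : GL ι F} (hg : IsUM σ g) (x y : ι → F) :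
    f ((g : Matrix ι ι F) *ᵥ x) ((g : Matrix ι ι F) *ᵥ y) = f x y := by
  obtain ⟨π, c, rfl, hc⟩ := hg
  exact mono_iso hstd π c hc x y

/-- A permutation fixing a point and moving a finite set to another one. -/
theorem exists_perm_move {S T : Finset ι} {k : ι} (hk : k ∉ S) (hkT : k ∉ T) (hc : S.card = T.card) :
    ∃ π : Equiv.Perm ι, π k = k ∧ ∀ i ∈ S, π i ∈ T := by
  let e : {x // x ∈ S} ≃ {x // x ∈ T} := Finset.equivOfCardEq hc
  let π₀ : Equiv.Perm ι := e.extendSubtype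
  have h1 : ∀ i (hi : i ∈ S), π₀ i = e ⟨i, hi⟩ := fun i hi => e.extendSubtype_apply_of_mem i hi
  have h2 : ∀ i ∈ S, π₀ i ∈ T := by
    intro i hi
    rw [h1 i hi]
    exact (e ⟨i, hi⟩).2
  refine ⟨Equiv.swap k (π₀ k) * π₀, ?_, fun i hi => ?_⟩
  · simp
  · rw [Equiv.Perm.mul_apply]
    have h3 : π₀ i ≠ k := fun h => hkT (h ▸ h2 i hi)
    have h4 : π₀ i ≠ π₀ k := fun h => hk (π₀.injective h ▸ hi)
    rw [Equiv.swap_apply_of_ne_of_ne h3 h4]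
    exact h2 i hi

/-- A unit-norm monomial element of determinant one moving a vector by a permutation. -/
theorem umono_move (π : Equiv.Perm ι) (y : ι → F) {j₀ : ι} (hy : y j₀ = 0) :
    ∃ g ∈ (UMono σ : Subgroup (GL ι F)), ∀ i, ((g : Matrix ι ι F) *ᵥ y) (π i) = y i := by
  obtain ⟨c, hc, hcu, hcd⟩ := exists_detFix (F := F) (σ := σ) π j₀ (fun _ => 1) (by simp) rfl
  refine ⟨mono π c, ⟨π, c, rfl, hcu, hcd⟩, fun i => ?_⟩
  rw [mono_apply]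
  have h1 : π⁻¹ (π i) = i := π.symm_apply_apply i
  rw [h1]
  by_cases hi : i = j₀
  · subst hi
    simp [hy]
  · rw [hc i hi]
    simp

section Grow

variable (hf : IsUnitaryForm σ f) (hstd : ∀ x y, f x y = ∑ i, x i * σ (y i))

include hf hstd

/-- **The double swap.** -/
theorem double_swap' (Pg : PigeonFact σ) {y : ι → F} {l₁ l₂ l₃ l₄ : ι} (h12 : l₁ ≠ l₂) (h13 : l₁ ≠ l₃) (h14 : l₁ ≠ l₄)
    (h23 : l₂ ≠ l₃) (h24 : l₂ ≠ l₄) (h34 : l₃ ≠ l₄) (hy1 : y l₁ ≠ 0) (hy2 : y l₂ ≠ 0) (hy3 : y l₃ ≠ 0) (hy4 : y l₄ ≠ 0) :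
    ∃ g ∈ (UMono σ : Subgroup (GL ι F)), ∃ b : ι → F, (g : Matrix ι ι F) *ᵥ y = y + b ∧ b ≠ 0 ∧
      (∀ i, i ≠ l₁ → i ≠ l₂ → i ≠ l₃ → i ≠ l₄ → b i = 0) ∧ f b y = 0 ∧ f b b = 0 ∧
      ∀ v : ι → F, v l₁ = 0 → v l₂ = 0 → v l₃ = 0 → v l₄ = 0 → (g : Matrix ι ι F) *ᵥ v = v := by
  have hinv := hf.involutive
  have hne : ∀ {x : F}, x ≠ 0 → σ x ≠ 0 := fun hx => by
    rw [Ne, map_eq_zero]
    exact hx
  have ha : y l₂ * σ (y l₁) ≠ 0 := mul_ne_zero hy2 (hne hy1)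
  have hb : y l₄ * σ (y l₃) ≠ 0 := mul_ne_zero hy4 (hne hy3)
  have hτ : σ (y l₁ * σ (y l₁) + y l₂ * σ (y l₂) + y l₃ * σ (y l₃) + y l₄ * σ (y l₄)) =
      y l₁ * σ (y l₁) + y l₂ * σ (y l₂) + y l₃ * σ (y l₃) + y l₄ * σ (y l₄) := by
    simp only [map_add, map_mul, hinv]
    ring
  obtain ⟨δ₁, δ₂, hδ₁, hδ₂, hδ₁0, hδ⟩ := Pg _ _ _ ha hb hτ (y l₁ / y l₂)
  have hδ₁n : δ₁ ≠ 0 := by
    rintro rfl
    simp at hδ₁
  have hδ₂n : δ₂ ≠ 0 := by
    rintro rfl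
    simp at hδ₂
  have hσ₁ : σ δ₁ ≠ 0 := hne hδ₁n
  have hσ₂ : σ δ₂ ≠ 0 := hne hδ₂n
  let α₁ : Fˣ := Units.mk0 (σ δ₁) hσ₁
  let α₂ : Fˣ := Units.mk0 (σ δ₂) hσ₂
  have hα₁ : (α₁ : F) * σ α₁ = 1 := by
    change σ δ₁ * σ (σ δ₁) = 1
    rw [hinv]
    linear_combination hδ₁
  have hα₂ : (α₂ : F) * σ α₂ = 1 := by
    change σ δ₂ * σ (σ δ₂) = 1
    rw [hinv]
    linear_combination hδ₂
  have hi₁ : ((α₁⁻¹ : Fˣ) : F) = δ₁ := by
    rw [Units.val_inv_eq_inv_val]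
    change (σ δ₁)⁻¹ = δ₁
    field_simp
    linear_combination -hδ₁
  have hi₂ : ((α₂⁻¹ : Fˣ) : F) = δ₂ := by
    rw [Units.val_inv_eq_inv_val]
    change (σ δ₂)⁻¹ = δ₂
    field_simp
    linear_combination -hδ₂
  have hv₁ : (α₁ : F) = σ δ₁ := rfl
  have hv₂ : (α₂ : F) = σ δ₂ := rfl
  have hd : ((sw l₁ l₂ α₁ * sw l₃ l₄ α₂ : GL ι F) : Matrix ι ι F).det = 1 := by
    rw [Units.val_mul, Matrix.det_mul, sw_det h12, sw_det h34]
    ring
  have hg : sw l₁ l₂ α₁ * sw l₃ l₄ α₂ ∈ UMono σ := ((sw_um hα₁).mul (sw_um hα₂)).mem hd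
  set c₁ := δ₁ * y l₂ - y l₁ with hc₁
  set c₂ := σ δ₁ * y l₁ - y l₂ with hc₂
  set c₃ := δ₂ * y l₄ - y l₃ with hc₃
  set c₄ := σ δ₂ * y l₃ - y l₄ with hc₄
  set b : ι → F := c₁ • ee l₁ + c₂ • ee l₂ + c₃ • ee l₃ + c₄ • ee l₄ with hb'
  have hgy : ((sw l₁ l₂ α₁ * sw l₃ l₄ α₂ : GL ι F) : Matrix ι ι F) *ᵥ y = y + b := by
    rw [gl_mulVec_mul, sw_mulVec h34, sw_mulVec h12]
    simp only [Pi.add_apply, Pi.smul_apply, smul_eq_mul, Pi.single_eq_of_ne h13, Pi.single_eq_of_ne h14,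
      Pi.single_eq_of_ne h23, Pi.single_eq_of_ne h24, mul_zero, add_zero, hi₁, hi₂, hv₁, hv₂, hb', ee]
    rw [hc₁, hc₂, hc₃, hc₄]
    abel
  have hfb : f b y = 0 := by
    rw [hb']
    simp only [hf.add_left, hf.smul_left, f_single_left hstd]
    simp only [map_mul, hinv, map_add, hc₁, hc₂, hc₃, hc₄] at hδ ⊢
    linear_combination hδ
  refine ⟨_, hg, b, hgy, ?_, ?_, hfb, ?_, ?_⟩
  · intro h0
    have h1 := congrFun h0 l₁
    simp only [hb', ee, Pi.add_apply, Pi.smul_apply, smul_eq_mul, Pi.single_eq_same, Pi.single_eq_of_ne h12,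
      Pi.single_eq_of_ne h13, Pi.single_eq_of_ne h14, mul_zero, add_zero, mul_one, Pi.zero_apply] at h1
    apply hδ₁0
    rw [eq_div_iff hy2]
    linear_combination h1
  · intro i h1 h2 h3 h4
    simp [hb', ee, Pi.single_eq_of_ne h1, Pi.single_eq_of_ne h2, Pi.single_eq_of_ne h3, Pi.single_eq_of_ne h4]
  · have h1 := (UMono_isUM hg).iso hstd y y
    rw [hgy] at h1
    simp only [hf.add_left, add_right hf] at h1
    have h2 : f y b = 0 := swap_zero hf hfb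
    rw [hfb, h2] at h1
    linear_combination h1
  · intro v h1 h2 h3 h4
    rw [gl_mulVec_mul, sw_mulVec h34, sw_mulVec h12]
    simp only [Pi.add_apply, Pi.smul_apply, smul_eq_mul, Pi.single_eq_of_ne h13, Pi.single_eq_of_ne h14,
      Pi.single_eq_of_ne h23, Pi.single_eq_of_ne h24, mul_zero, add_zero, h1, h2, h3, h4, sub_zero, zero_smul,
      Pi.zero_apply]

/-- **The double swap.** -/
theorem double_swap (Pg : PigeonFact σ) {y : ι → F} {l₁ l₂ l₃ l₄ : ι} (h12 : l₁ ≠ l₂) (h13 : l₁ ≠ l₃) (h14 : l₁ ≠ l₄)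
    (h23 : l₂ ≠ l₃) (h24 : l₂ ≠ l₄) (h34 : l₃ ≠ l₄) (hy1 : y l₁ ≠ 0) (hy2 : y l₂ ≠ 0) (hy3 : y l₃ ≠ 0) (hy4 : y l₄ ≠ 0) :
    ∃ g ∈ (UMono σ : Subgroup (GL ι F)), ∃ b : ι → F, (g : Matrix ι ι F) *ᵥ y = y + b ∧ b ≠ 0 ∧
      (∀ i, i ≠ l₁ → i ≠ l₂ → i ≠ l₃ → i ≠ l₄ → b i = 0) ∧ f b y = 0 ∧ f b b = 0 := by
  obtain ⟨g, hg, b, h1, h2, h3, h4, h5, -⟩ := double_swap' hf hstd Pg h12 h13 h14 h23 h24 h34 hy1 hy2 hy3 hy4
  exact ⟨g, hg, b, h1, h2, h3, h4, h5⟩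

/-- One step of support growth. -/
theorem grow_step {Cl : (ι → F) → Prop}
    (h1 : ∀ g ∈ (UMono σ : Subgroup (GL ι F)), ∀ y, Cl y → Cl ((g : Matrix ι ι F) *ᵥ y)) {κ : F} (hκ : κ ≠ 0)
    (h2 : ∀ y y', Cl y → Cl y' → Cl (y' + (κ * f y' y) • y)) {y : ι → F} (hy : Cl y) {k : ι} (hk : y k ≠ 0)
    (hs : 2 * (sp y).card + 1 ≤ Fintype.card ι) :
    ∃ y', Cl y' ∧ y' k = (1 + κ * (y k * σ (y k))) * y k ∧ 2 * ((sp y).card - 1) ≤ ((sp y').erase k).card := by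
  set S := sp y with hS
  have hkS : k ∈ S := mem_sp.2 hk
  set S' := S.erase k with hS'
  have hcS' : S'.card = S.card - 1 := Finset.card_erase_of_mem hkS
  have hcc : S'.card ≤ (Sᶜ).card := by
    rw [Finset.card_compl]
    omega
  obtain ⟨T, hT, hcT⟩ := Finset.exists_subset_card_eq hcc
  have hkT : k ∉ T := fun h => (Finset.mem_compl.1 (hT h)) hkS
  obtain ⟨π, hπk, hπ⟩ := exists_perm_move (S := S') (T := T) (k := k) (Finset.notMem_erase _ _) hkT hcT.symm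
  obtain ⟨j₀, hj₀⟩ := exists_notMem_finset S (by omega)
  have hyj : y j₀ = 0 := by
    by_contra h
    exact hj₀ (mem_sp.2 h)
  obtain ⟨g, hg, hgy⟩ := umono_move (σ := σ) π y hyj
  set y₁ := (g : Matrix ι ι F) *ᵥ y with hy₁
  have hy₁k : y₁ k = y k := by
    have := hgy k
    rwa [hπk] at this
  have hπi : ∀ i, π (π⁻¹ i) = i := fun i => π.apply_symm_apply i
  have hzero : ∀ i ∈ S', y₁ i = 0 := by
    intro i hi
    have e : y₁ i = y (π⁻¹ i) := by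
      have := hgy (π⁻¹ i)
      rwa [hπi] at this
    rw [e]
    by_contra h0
    have h3 : π⁻¹ i ∈ S := mem_sp.2 h0
    by_cases h4 : π⁻¹ i = k
    · have : i = k := by
        have h5 := congrArg π h4
        rwa [hπi, hπk] at h5
      exact (Finset.ne_of_mem_erase hi) this
    · have h5 := hπ _ (Finset.mem_erase.2 ⟨h4, h3⟩)
      rw [hπi] at h5
      exact (Finset.mem_compl.1 (hT h5)) (Finset.mem_of_mem_erase hi)
  have hfy : f y₁ y = y k * σ (y k) := by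
    rw [hstd, Finset.sum_eq_single k]
    · rw [hy₁k]
    · intro i _ hi
      by_cases h3 : i ∈ S
      · rw [hzero i (Finset.mem_erase.2 ⟨hi, h3⟩), zero_mul]
      · have : y i = 0 := by
          by_contra h0
          exact h3 (mem_sp.2 h0)
        rw [this, map_zero, mul_zero]
    · simp
  refine ⟨y₁ + (κ * f y₁ y) • y, h2 _ _ hy (h1 g hg y hy), ?_, ?_⟩
  · rw [hfy]
    simp only [Pi.add_apply, Pi.smul_apply, smul_eq_mul, hy₁k]
    ring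
  · have hA : y k * σ (y k) ≠ 0 := mul_ne_zero hk (by
      rw [Ne, map_eq_zero]
      exact hk)
    set y' := y₁ + (κ * f y₁ y) • y with hy'
    have hsub : S' ∪ S'.image π ⊆ (sp y').erase k := by
      intro i hi
      rcases Finset.mem_union.1 hi with hi | hi
      · refine Finset.mem_erase.2 ⟨Finset.ne_of_mem_erase hi, mem_sp.2 ?_⟩
        simp only [hy', Pi.add_apply, Pi.smul_apply, smul_eq_mul, hzero i hi, zero_add, hfy]
        exact mul_ne_zero (mul_ne_zero hκ hA) (mem_sp.1 (Finset.mem_of_mem_erase hi))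
      · obtain ⟨i', hi', rfl⟩ := Finset.mem_image.1 hi
        have h3 := hπ i' hi'
        refine Finset.mem_erase.2 ⟨fun h => hkT (h ▸ h3), mem_sp.2 ?_⟩
        have h4 : y (π i') = 0 := by
          by_contra h0
          exact (Finset.mem_compl.1 (hT h3)) (mem_sp.2 h0)
        simp only [hy', Pi.add_apply, Pi.smul_apply, smul_eq_mul, h4, mul_zero, add_zero]
        rw [hgy]
        exact mem_sp.1 (Finset.mem_of_mem_erase hi')
    have hdisj : Disjoint S' (S'.image π) := by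
      rw [Finset.disjoint_left]
      intro i hi hi'
      obtain ⟨i', hi'', rfl⟩ := Finset.mem_image.1 hi'
      exact (Finset.mem_compl.1 (hT (hπ i' hi''))) (Finset.mem_of_mem_erase hi)
    have h5 := Finset.card_le_card hsub
    rw [Finset.card_union_of_disjoint hdisj, Finset.card_image_of_injective _ π.injective] at h5
    omega

/-- Support growth. -/
theorem grow {Cl : (ι → F) → Prop} (hc : 13 ≤ Fintype.card ι)
    (h1 : ∀ g ∈ (UMono σ : Subgroup (GL ι F)), ∀ y, Cl y → Cl ((g : Matrix ι ι F) *ᵥ y)) {κ : F} (hκ : κ ≠ 0)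
    (h2 : ∀ y y', Cl y → Cl y' → Cl (y' + (κ * f y' y) • y)) {y : ι → F} (hy : Cl y) (h3 : 3 ≤ (sp y).card) :
    ∃ y', Cl y' ∧ 5 ≤ (sp y').card := by
  by_cases h5 : 5 ≤ (sp y).card
  · exact ⟨y, hy, h5⟩
  have h5' : (sp y).card ≤ 4 := by omega
  have hne : (sp y).Nonempty := Finset.card_pos.1 (by omega)
  obtain ⟨k, hk⟩ := hne
  obtain ⟨y₁, hy₁, -, hc₁⟩ := grow_step hf hstd h1 hκ h2 hy (mem_sp.1 hk) (by omega)
  have hc₂ : ((sp y₁).erase k).card ≤ (sp y₁).card := Finset.card_le_card (Finset.erase_subset _ _)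
  by_cases h6 : 5 ≤ (sp y₁).card
  · exact ⟨y₁, hy₁, h6⟩
  have h4 : (sp y₁).card = 4 := by omega
  have hne' : (sp y₁).Nonempty := Finset.card_pos.1 (by omega)
  obtain ⟨k', hk'⟩ := hne'
  obtain ⟨y₂, hy₂, -, hc₃⟩ := grow_step hf hstd h1 hκ h2 hy₁ (mem_sp.1 hk') (by omega)
  have hc₄ : ((sp y₂).erase k').card ≤ (sp y₂).card := Finset.card_le_card (Finset.erase_subset _ _)
  exact ⟨y₂, hy₂, by omega⟩

/-- Support growth, from a support of size two with a good coordinate. -/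
theorem grow_two {Cl : (ι → F) → Prop} (hc : 13 ≤ Fintype.card ι)
    (h1 : ∀ g ∈ (UMono σ : Subgroup (GL ι F)), ∀ y, Cl y → Cl ((g : Matrix ι ι F) *ᵥ y)) {κ : F} (hκ : κ ≠ 0)
    (h2 : ∀ y y', Cl y → Cl y' → Cl (y' + (κ * f y' y) • y)) {y : ι → F} (hy : Cl y) (h3 : (sp y).card = 2) {k : ι}
    (hk : y k ≠ 0) (hgood : 1 + κ * (y k * σ (y k)) ≠ 0) :
    ∃ y', Cl y' ∧ 3 ≤ (sp y').card := by
  obtain ⟨y₁, hy₁, hy₁k, hc₁⟩ := grow_step hf hstd h1 hκ h2 hy hk (by omega)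
  have h4 : k ∈ sp y₁ := mem_sp.2 (by
    rw [hy₁k]
    exact mul_ne_zero hgood hk)
  have h5 := Finset.card_erase_add_one h4
  exact ⟨y₁, hy₁, by omega⟩

/-- Five coordinates of a vector of large support. -/
theorem exists_five {y : ι → F} (h : 5 ≤ (sp y).card) :
    ∃ l₁ l₂ l₃ l₄ l₅ : ι, l₁ ≠ l₂ ∧ l₁ ≠ l₃ ∧ l₁ ≠ l₄ ∧ l₁ ≠ l₅ ∧ l₂ ≠ l₃ ∧ l₂ ≠ l₄ ∧ l₂ ≠ l₅ ∧ l₃ ≠ l₄ ∧ l₃ ≠ l₅ ∧ l₄ ≠ l₅ ∧
      y l₁ ≠ 0 ∧ y l₂ ≠ 0 ∧ y l₃ ≠ 0 ∧ y l₄ ≠ 0 ∧ y l₅ ≠ 0 := by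
  obtain ⟨T, hT, hcT⟩ := Finset.exists_subset_card_eq h
  have hl : T.toList.length = 5 := by rw [Finset.length_toList, hcT]
  have hnd := T.nodup_toList
  have hm : ∀ x ∈ T.toList, y x ≠ 0 := fun x hx => mem_sp.1 (hT (Finset.mem_toList.1 hx))
  match hL : T.toList, hl, hnd, hm with
  | [a, b, c, d, e], _, hnd, hm =>
    simp only [List.nodup_cons, List.mem_cons, List.not_mem_nil, or_false, not_or, List.nodup_nil, and_true,
      not_false_eq_true] at hnd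
    refine ⟨a, b, c, d, e, hnd.1.1, hnd.1.2.1, hnd.1.2.2.1, hnd.1.2.2.2, hnd.2.1.1, hnd.2.1.2.1, hnd.2.1.2.2, hnd.2.2.1.1,
      hnd.2.2.1.2, hnd.2.2.2, hm _ (by simp), hm _ (by simp), hm _ (by simp), hm _ (by simp), hm _ (by simp)⟩

end Grow

/-- The frame of the full monomial group. -/
theorem k1_frame (h : 2 ≤ Fintype.card ι) :
    Frame (ι := ι) (fun _ => True) (fun a b => a ≠ b) (fun a b j => j ≠ a ∧ j ≠ b) where
  one := trivial
  ne h := h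
  swap _ := trivial
  trans := by
    intro a b a' b' h1 h2
    obtain ⟨π, h3, h4⟩ := exists_perm_two h1 h2
    exact ⟨π, trivial, h3, h4⟩
  fix := by
    intro a b j j' _ h1 h2
    refine ⟨Equiv.swap j j', trivial, ?_, ?_, by simp⟩
    · exact Equiv.swap_apply_of_ne_of_ne h1.1.symm h2.1.symm
    · exact Equiv.swap_apply_of_ne_of_ne h1.2.symm h2.2.symm
  adm a := by
    obtain ⟨b, hb⟩ := exists_notMem_finset ({a} : Finset ι) (by simp; omega)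
    exact ⟨b, fun h => hb (by simp [h])⟩

/-- The pipeline for the full monomial group. -/
theorem k1_vecs' (hf : IsUnitaryForm σ f) (hstd : ∀ x y, f x y = ∑ i, x i * σ (y i)) (NF : NormFacts σ)
    (hc : 13 ≤ Fintype.card ι) {K : Subgroup (GL ι F)} (hKiso : K ≤ isoGroup hf) (hM : UMono σ ≤ K) {v c : ι → F} {s : F}
    (hY : InY hf K v c s) (hv0 : v ≠ 0)
    {f₁ f₂ f' f'' : ι} (h12 : f₁ ≠ f₂) (h1' : f₁ ≠ f') (h1'' : f₁ ≠ f'') (h2' : f₂ ≠ f') (h'' : f' ≠ f'')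
    (hv₁ : v f₁ = 0) (hv₂ : v f₂ = 0) (hv' : v f' = 0) (hv'' : v f'' = 0)
    (hc₁ : c f₁ ≠ 0) {z : ι → F} (hzz : f z z = 0) : z ∈ vecs hf K := by
  have hFr := k1_frame (ι := ι) (by omega)
  refine pipeline hf hstd NF hFr (fun π c _ hc' hd => hM ⟨π, c, rfl, hc', hd⟩) (by omega) hKiso ?_ hY hv0
    (f₁ := f₁) (f₂ := f₂) (f' := f') (f'' := f'') h12 h1' h1'' h2' h'' hv₁ hv₂ hv' hv'' hc₁ h12 ?_ hzz
  · intro a b δ _ _ j h1 h2 h3 τ
    exact absurd ⟨h2, h3⟩ h1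
  · intro j hj
    constructor
    · rintro rfl
      exact hj hv₁
    · rintro rfl
      exact hj hv₂

/-- The pipeline for the full monomial group. -/
theorem k1_vecs (hf : IsUnitaryForm σ f) (hstd : ∀ x y, f x y = ∑ i, x i * σ (y i)) (NF : NormFacts σ)
    (hc : 13 ≤ Fintype.card ι) {K : Subgroup (GL ι F)} (hKiso : K ≤ isoGroup hf) (hM : UMono σ ≤ K) {v c : ι → F} {s : F}
    (hY : InY hf K v c s) (hv0 : v ≠ 0) {L : Finset ι} (hL : L.card ≤ 4) (hvL : ∀ i, i ∉ L → v i = 0) {f₁ : ι} (hf₁ : f₁ ∉ L)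
    (hc₁ : c f₁ ≠ 0) {z : ι → F} (hzz : f z z = 0) : z ∈ vecs hf K := by
  obtain ⟨f₂, hf₂⟩ := exists_notMem_finset (insert f₁ L) (by
    have := Finset.card_insert_le f₁ L
    omega)
  obtain ⟨f', hf'⟩ := exists_notMem_finset (insert f₂ (insert f₁ L)) (by
    have := Finset.card_insert_le f₁ L
    have := Finset.card_insert_le f₂ (insert f₁ L)
    omega)
  obtain ⟨f'', hf''⟩ := exists_notMem_finset (insert f' (insert f₂ (insert f₁ L))) (by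
    have := Finset.card_insert_le f₁ L
    have := Finset.card_insert_le f₂ (insert f₁ L)
    have := Finset.card_insert_le f' (insert f₂ (insert f₁ L))
    omega)
  simp only [Finset.mem_insert, not_or] at hf₂ hf' hf''
  have hFr := k1_frame (ι := ι) (by omega)
  refine pipeline hf hstd NF hFr (fun π c _ hc' hd => hM ⟨π, c, rfl, hc', hd⟩) (by omega) hKiso ?_ hY hv0
    (f₁ := f₁) (f₂ := f₂) (f' := f') (f'' := f'') (Ne.symm hf₂.1) (Ne.symm hf'.2.1) (Ne.symm hf''.2.2.1) (Ne.symm hf'.1)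
    (Ne.symm hf''.1) (hvL _ hf₁) (hvL _ hf₂.2) (hvL _ hf'.2.2) (hvL _ hf''.2.2.2) hc₁ (Ne.symm hf₂.1) ?_ hzz
  · intro a b δ _ _ j h1 h2 h3 τ
    exact absurd ⟨h2, h3⟩ h1
  · intro j hj
    constructor
    · rintro rfl
      exact hj (hvL _ hf₁)
    · rintro rfl
      exact hj (hvL _ hf₂.2)

end Cfsg.Agent.Lib.Classical.C2U.Grow
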