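/-
The unitary monomial group, in characteristic two: every larger group contains all unitary transvections.
-/
import Mathlib
import Cfsg.Agent.Lib.Classical.C2U.Grow

set_option autoImplicit false
set_option linter.unusedSectionVars false

namespace Cfsg.Agent.Lib.Classical.C2U.Even

open scoped Matrix MatrixGroups
open Module Cfsg Cfsg.Geo
open Cfsg.Agent.Lib.Classical.Geo.Basic
open Cfsg.Agent.Lib.Classical.Geo.UForm Cfsg.Agent.Lib.Classical.Geo.UPair Cfsg.Agent.Lib.Classical.Geo.UParab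
open Cfsg.Agent.Lib.Classical.Sub.Rat Cfsg.Agent.Lib.Classical.Sub.UElts
open Cfsg.Agent.Lib.Classical.C2.Base Cfsg.Agent.Lib.Classical.C2.Finish Cfsg.Agent.Lib.Classical.C2U.Base
open Cfsg.Agent.Lib.Classical.C2U.Pipe Cfsg.Agent.Lib.Classical.C2U.Grow

variable {ι : Type} [Fintype ι] [DecidableEq ι] {F : Type*} [Field F] [Fintype F]
  {σ : F ≃+* F} {f : (ι → F) → (ι → F) → F}

/-- An isometry that is monomial has unit-norm entries. -/
theorem mono_um_of_iso (hf : IsUnitaryForm σ f) (hstd : ∀ x y, f x y = ∑ i, x i * σ (y i)) {π : Equiv.Perm ι} {c : ι → Fˣ}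
    (h : ∀ x y, f (((mono π c : GL ι F) : Matrix ι ι F) *ᵥ x) (((mono π c : GL ι F) : Matrix ι ι F) *ᵥ y) = f x y) (i : ι) :
    (c i : F) * σ (c i) = 1 := by
  have h1 := h (ee i) (ee i)
  have e : (Pi.single (π i) ((c i : F) * 1) : ι → F) = (c i : F) • ee (π i) := by
    ext k
    by_cases hk : k = π i
    · subst hk
      simp
    · simp [Pi.single_eq_of_ne hk]
  rw [mono_single, e, hf.smul_left, smul_right hf, f_single_right hstd, f_single_right hstd] at h1
  simp only [Pi.single_eq_same, map_one, mul_one] at h1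
  exact h1

/-- A monomial element of the isometry group. -/
theorem not_isMono (hf : IsUnitaryForm σ f) (hstd : ∀ x y, f x y = ∑ i, x i * σ (y i)) {x : GL ι F} (hx : x ∈ isoGroup hf)
    (hm : x ∉ UMono σ) : ¬ IsMono x := by
  rintro ⟨π, c, rfl⟩
  obtain ⟨h1, h2⟩ := (mem_isoGroup hf).1 hx
  exact hm ⟨π, c, rfl, mono_um_of_iso hf hstd h1, (mem_specialLinear_iff _).1 h2⟩

theorem ne_of_ne_div {A B δ : F} (hA : A ≠ 0) (h : δ ≠ -A / B) : A + δ * B ≠ 0 := by
  intro h0
  by_cases hB : B = 0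
  · rw [hB, mul_zero, add_zero] at h0
    exact hA h0
  · apply h
    field_simp
    linear_combination h0

theorem three_le_sp {y : ι → F} {a b c : ι} (hab : a ≠ b) (hac : a ≠ c) (hbc : b ≠ c) (ha : y a ≠ 0) (hb : y b ≠ 0)
    (hc : y c ≠ 0) : 3 ≤ (sp y).card := by
  have h1 : ({a, b, c} : Finset ι) ⊆ sp y := by
    intro i hi
    simp only [Finset.mem_insert, Finset.mem_singleton] at hi
    rcases hi with rfl | rfl | rfl <;> exact mem_sp.2 ‹_›
  have h2 := Finset.card_le_card h1
  rwa [Finset.card_eq_three.2 ⟨a, b, c, hab, hac, hbc, rfl⟩] at h2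

/-- The column combinations. -/
theorem ww_apply (x : GL ι F) (p r : ι) (δ : F) (i : ι) :
    ((x : Matrix ι ι F) *ᵥ ww p r δ) i = ((x : Matrix ι ι F) *ᵥ ee p) i + δ * ((x : Matrix ι ι F) *ᵥ ee r) i := by
  rw [ww, Matrix.mulVec_add, Matrix.mulVec_smul]
  simp

/-- A row of an invertible matrix does not vanish. -/
theorem exists_row_ne (x : GL ι F) (l : ι) : ∃ r, ((x : Matrix ι ι F) *ᵥ ee r) l ≠ 0 := by
  by_contra hcon
  push Not at hcon
  have h1 : ((x : Matrix ι ι F) * ((x⁻¹ : GL ι F) : Matrix ι ι F)) l l = 1 := by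
    rw [← Units.val_mul]
    simp
  rw [Matrix.mul_apply, Finset.sum_eq_zero] at h1
  · exact zero_ne_one h1
  · intro r _
    have := hcon r
    rw [Matrix.mulVec_single_one] at this
    change (x : Matrix ι ι F) l r = 0 at this
    rw [this, zero_mul]

/-- A column combination of large support. -/
theorem exists_big_combination (NF : NormFacts σ) (hc : 13 ≤ Fintype.card ι) {x : GL ι F} (hx : ¬ IsMono x) :
    ∃ p r δ, p ≠ r ∧ δ * σ δ = 1 ∧ 3 ≤ (sp ((x : Matrix ι ι F) *ᵥ ww p r δ)).card := by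
  obtain ⟨p, a, b, hab, ha, hb⟩ := exists_column_two hx
  set u : ι → ι → F := fun j i => ((x : Matrix ι ι F) *ᵥ ee j) i with hu
  have hw : ∀ r δ i, ((x : Matrix ι ι F) *ᵥ ww p r δ) i = u p i + δ * u r i := fun r δ i => ww_apply x p r δ i
  by_cases hl : ∃ l, u p l = 0
  · obtain ⟨l, hl⟩ := hl
    obtain ⟨r, hr⟩ := exists_row_ne x l
    have hpr : p ≠ r := by
      rintro rfl
      exact hr hl
    obtain ⟨δ, hδ, h1, h2⟩ := NF.three 1 one_ne_zero (map_one σ) (- u p a / u r a) (- u p b / u r b)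
    have hδ0 : δ ≠ 0 := by
      rintro rfl
      simp at hδ
    refine ⟨p, r, δ, hpr, hδ, three_le_sp (a := a) (b := b) (c := l) hab ?_ ?_ ?_ ?_ ?_⟩
    · rintro rfl
      exact ha hl
    · rintro rfl
      exact hb hl
    · rw [hw]
      exact ne_of_ne_div ha h1
    · rw [hw]
      exact ne_of_ne_div hb h2
    · rw [hw, hl, zero_add]
      exact mul_ne_zero hδ0 hr
  · push Not at hl
    obtain ⟨r, hr⟩ := exists_notMem_finset ({p} : Finset ι) (by simp; omega)
    have hpr : p ≠ r := fun h => hr (by simp [h])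
    -- four coordinates
    obtain ⟨c₃, h3⟩ := exists_notMem_finset ({a, b} : Finset ι) (by
      have := Finset.card_le_two (a := a) (b := b)
      omega)
    obtain ⟨c₄, h4⟩ := exists_notMem_finset ({a, b, c₃} : Finset ι) (by
      have := Finset.card_le_three (a := a) (b := b) (c := c₃)
      omega)
    simp only [Finset.mem_insert, Finset.mem_singleton, not_or] at h3 h4
    have b' : ∀ c, - u p c / u r c = - u p c / u r c := fun _ => rfl
    obtain ⟨δ, hδ, h1, h2⟩ := NF.three 1 one_ne_zero (map_one σ) (- u p a / u r a) (- u p b / u r b)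
    by_cases h5 : u p c₃ + δ * u r c₃ = 0
    · by_cases h6 : u p c₄ + δ * u r c₄ = 0
      · -- the third coordinate and the fourth are killed by the same scalar
        obtain ⟨δ', hδ', h7, h8⟩ := NF.three 1 one_ne_zero (map_one σ) (- u p a / u r a) δ
        have hr3 : u r c₃ ≠ 0 := by
          intro h0
          rw [h0, mul_zero, add_zero] at h5
          exact hl _ h5
        have hr4 : u r c₄ ≠ 0 := by
          intro h0
          rw [h0, mul_zero, add_zero] at h6
          exact hl _ h6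
        refine ⟨p, r, δ', hpr, hδ', three_le_sp (a := a) (b := c₃) (c := c₄) (Ne.symm h3.1) (Ne.symm h4.1) (Ne.symm h4.2.2) ?_ ?_ ?_⟩
        · rw [hw]
          exact ne_of_ne_div ha h7
        · rw [hw]
          intro h0
          apply h8
          have : (δ' - δ) * u r c₃ = 0 := by linear_combination h0 - h5
          rcases mul_eq_zero.1 this with h9 | h9
          · exact sub_eq_zero.1 h9
          · exact absurd h9 hr3
        · rw [hw]
          intro h0
          apply h8
          have : (δ' - δ) * u r c₄ = 0 := by linear_combination h0 - h6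
          rcases mul_eq_zero.1 this with h9 | h9
          · exact sub_eq_zero.1 h9
          · exact absurd h9 hr4
      · refine ⟨p, r, δ, hpr, hδ, three_le_sp (a := a) (b := b) (c := c₄) hab (Ne.symm h4.1) (Ne.symm h4.2.1) ?_ ?_ ?_⟩
        · rw [hw]
          exact ne_of_ne_div ha h1
        · rw [hw]
          exact ne_of_ne_div hb h2
        · rw [hw]
          exact h6
    · refine ⟨p, r, δ, hpr, hδ, three_le_sp (a := a) (b := b) (c := c₃) hab (Ne.symm h3.1) (Ne.symm h3.2) ?_ ?_ ?_⟩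
      · rw [hw]
        exact ne_of_ne_div ha h1
      · rw [hw]
        exact ne_of_ne_div hb h2
      · rw [hw]
        exact h5

section Main

variable (hf : IsUnitaryForm σ f) (hstd : ∀ x y, f x y = ∑ i, x i * σ (y i)) (NF : NormFacts σ) (Pg : PigeonFact σ)
  {K : Subgroup (GL ι F)} (hKiso : K ≤ isoGroup hf) (hM : UMono σ ≤ K)

/-- The vectors of the transvections in the group. -/
def Cl (hf : IsUnitaryForm σ f) (K : Subgroup (GL ι F)) (a : ι → F) : Prop := ∃ h : f a a = 0, T hf a a h ∈ K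

include hf hKiso in
theorem Cl.conj {a : ι → F} (h : Cl hf K a) {g : GL ι F} (hg : g ∈ K) : Cl hf K ((g : Matrix ι ι F) *ᵥ a) := by
  obtain ⟨h0, h1⟩ := h
  have hi := ((mem_isoGroup hf).1 (hKiso hg)).1
  refine ⟨by rw [hi, h0], ?_⟩
  have := T_conj_iso hf g hi a a h0
  rw [← this]
  exact K.mul_mem (K.mul_mem hg h1) (K.inv_mem hg)

include hf hstd hKiso hM in
theorem Cl_of_ww (h2 : (2 : F) = 0) {p r : ι} (hpr : p ≠ r) {δ : F} (hδ : δ * σ δ = 1) : Cl hf K (ww p r δ) := by
  have h0 : f (ww p r δ) (ww p r δ) = 0 := by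
    rw [f_ww hstd _ p r δ hf]
    simp only [ww, Pi.add_apply, Pi.smul_apply, smul_eq_mul, Pi.single_eq_same, Pi.single_eq_of_ne hpr,
      Pi.single_eq_of_ne hpr.symm, mul_zero, add_zero, mul_one, zero_add]
    linear_combination hδ + h2
  refine ⟨h0, ?_⟩
  have hδ0 : δ ≠ 0 := by
    rintro rfl
    simp at hδ
  let α : Fˣ := Units.mk0 δ hδ0
  have hα : (α : F) * σ α = 1 := hδ
  have hi : ((α⁻¹ : Fˣ) : F) = σ δ := by
    rw [Units.val_inv_eq_inv_val]
    change δ⁻¹ = σ δ
    field_simp
    linear_combination -hδ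
  have e : T hf (ww p r δ) (ww p r δ) h0 = sw p r α := by
    apply gl_ext
    intro x
    rw [T_mulVec, sw_mulVec hpr, f_ww hstd _ p r δ hf, hi]
    have hv : (α : F) = δ := rfl
    rw [hv]
    ext i
    simp only [ww, ee, Pi.add_apply, Pi.smul_apply, smul_eq_mul]
    by_cases h3 : i = p
    · subst h3
      simp only [Pi.single_eq_same, Pi.single_eq_of_ne hpr]
      linear_combination (x i) * h2
    · by_cases h4 : i = r
      · subst h4
        simp only [Pi.single_eq_same, Pi.single_eq_of_ne h3]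
        linear_combination (x i) * hδ + (x i) * h2
      · simp only [Pi.single_eq_of_ne h3, Pi.single_eq_of_ne h4]
        ring
  rw [e]
  apply hM
  refine (sw_um hα).mem ?_
  rw [sw_det hpr]
  linear_combination -h2

include hf hstd NF Pg hKiso hM in
/-- **Characteristic two.** -/
theorem even_case (h2 : (2 : F) = 0) (hc : 13 ≤ Fintype.card ι) {x : GL ι F} (hx : x ∈ K) (hxm : x ∉ UMono σ) {z : ι → F}
    (hzz : f z z = 0) : z ∈ vecs hf K := by
  obtain ⟨p, r, δ, hpr, hδ, h3⟩ := exists_big_combination NF hc (not_isMono hf hstd (hKiso hx) hxm)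
  have hC₀ : Cl hf K ((x : Matrix ι ι F) *ᵥ ww p r δ) :=
    Cl.conj hf hKiso (Cl_of_ww hf hstd hKiso hM h2 hpr hδ) hx
  have hg1 : ∀ g ∈ (UMono σ : Subgroup (GL ι F)), ∀ y, Cl hf K y → Cl hf K ((g : Matrix ι ι F) *ᵥ y) :=
    fun g hg y hy => Cl.conj hf hKiso hy (hM hg)
  have hg2 : ∀ y y', Cl hf K y → Cl hf K y' → Cl hf K (y' + ((1 : F) * f y' y) • y) := by
    rintro y y' ⟨hy, hyT⟩ hy'
    have := Cl.conj hf hKiso hy' hyT
    rwa [T_mulVec, ← one_mul (f y' y)] at this
  obtain ⟨a, ⟨haa, haT⟩, h5⟩ := grow hf hstd hc hg1 one_ne_zero hg2 hC₀ h3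
  obtain ⟨l₁, l₂, l₃, l₄, l₅, h12, h13, h14, h15, h23, h24, h25, h34, h35, h45, y1, y2, y3, y4, y5⟩ := exists_five hf hstd h5
  obtain ⟨g, hg, b, hgb, hb0, hbL, hba, hbb⟩ := double_swap hf hstd Pg h12 h13 h14 h23 h24 h34 y1 y2 y3 y4
  have hga : Cl hf K (a + b) := by
    rw [← hgb]
    exact hg1 g hg a ⟨haa, haT⟩
  obtain ⟨h6, h7⟩ := hga
  have hab : f a b = 0 := swap_zero hf hba
  have hY : InY hf K b a 1 := by
    refine ⟨hbb, hab, ?_⟩
    have e : Hh hf b a 1 hbb hab = T hf (a + b) (a + b) h6 * T hf a a haa := by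
      apply gl_ext
      intro w
      rw [gl_mulVec_mul, T_mulVec, T_mulVec, Hh_mulVec hf hbb]
      simp only [hf.add_left, add_right hf, hf.smul_left, smul_right hf, haa, hab, mul_zero, add_zero]
      ext i
      simp only [Pi.add_apply, Pi.sub_apply, Pi.smul_apply, smul_eq_mul]
      linear_combination (-(f w a * a i) - f w a * b i) * h2
    rw [e]
    exact K.mul_mem h7 haT
  refine k1_vecs hf hstd NF hc hKiso hM hY hb0 (L := {l₁, l₂, l₃, l₄}) (f₁ := l₅) Finset.card_le_four ?_ ?_ y5 hzz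
  · intro i hi
    simp only [Finset.mem_insert, Finset.mem_singleton, not_or] at hi
    exact hbL i hi.1 hi.2.1 hi.2.2.1 hi.2.2.2
  · simp only [Finset.mem_insert, Finset.mem_singleton, not_or]
    exact ⟨Ne.symm h15, Ne.symm h25, Ne.symm h35, Ne.symm h45⟩

end Main

end Cfsg.Agent.Lib.Classical.C2U.Even
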