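/-
The unitary monomial group: the case of a group normalised by a diagonal reflection.
-/
import Mathlib
import Cfsg.Agent.Lib.Classical.C2U.Even

set_option autoImplicit false
set_option linter.unusedSectionVars false

namespace Cfsg.Agent.Lib.Classical.C2U.ModeA

open scoped Matrix MatrixGroups
open Module Cfsg Cfsg.Geo
open Cfsg.Agent.Lib.Classical.Geo.Basic
open Cfsg.Agent.Lib.Classical.Geo.UForm Cfsg.Agent.Lib.Classical.Geo.UPair Cfsg.Agent.Lib.Classical.Geo.UParab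
open Cfsg.Agent.Lib.Classical.Sub.Rat Cfsg.Agent.Lib.Classical.Sub.UElts
open Cfsg.Agent.Lib.Classical.C2.Base Cfsg.Agent.Lib.Classical.C2.Finish Cfsg.Agent.Lib.Classical.C2U.Base
open Cfsg.Agent.Lib.Classical.C2U.Pipe Cfsg.Agent.Lib.Classical.C2U.Grow Cfsg.Agent.Lib.Classical.C2U.Even

variable {ι : Type} [Fintype ι] [DecidableEq ι] {F : Type*} [Field F] [Fintype F]
  {σ : F ≃+* F} {f : (ι → F) → (ι → F) → F}

/-- The reflections in the coset of `R`. -/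
def Refl (f : (ι → F) → (ι → F) → F) (K : Subgroup (GL ι F)) (R : GL ι F) (κ : F) (y : ι → F) : Prop :=
  f y y = 1 ∧ ∃ g : GL ι F, (∀ z, (g : Matrix ι ι F) *ᵥ z = z + (κ * f z y) • y) ∧ g * R⁻¹ ∈ K

section Main

variable (hf : IsUnitaryForm σ f) (hstd : ∀ x y, f x y = ∑ i, x i * σ (y i)) (NF : NormFacts σ) (Pg : PigeonFact σ)
  {K : Subgroup (GL ι F)} (hKiso : K ≤ isoGroup hf) (hM : UMono σ ≤ K) {R : GL ι F} {κ : F}

include hf in
/-- Conjugation of a reflection. -/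
theorem refl_conj_act {g k : GL ι F} {y : ι → F} (hk : ∀ x z, f ((k : Matrix ι ι F) *ᵥ x) ((k : Matrix ι ι F) *ᵥ z) = f x z)
    (hg : ∀ z, (g : Matrix ι ι F) *ᵥ z = z + (κ * f z y) • y) (z : ι → F) :
    ((k * g * k⁻¹ : GL ι F) : Matrix ι ι F) *ᵥ z =
      z + (κ * f z ((k : Matrix ι ι F) *ᵥ y)) • ((k : Matrix ι ι F) *ᵥ y) := by
  rw [gl_mulVec_mul, gl_mulVec_mul, hg, Matrix.mulVec_add, Matrix.mulVec_smul, mulVec_inv_mulVec]
  have e := hk (((k⁻¹ : GL ι F) : Matrix ι ι F) *ᵥ z) y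
  rw [mulVec_inv_mulVec] at e
  rw [e]

include hf in
/-- The inverse of a reflection. -/
theorem refl_inv {g : GL ι F} {y : ι → F} (hyy : f y y = 1) (hg : ∀ z, (g : Matrix ι ι F) *ᵥ z = z + (κ * f z y) • y)
    (hkk : κ + σ κ + κ * σ κ = 0) (w : ι → F) : ((g⁻¹ : GL ι F) : Matrix ι ι F) *ᵥ w = w + (σ κ * f w y) • y := by
  apply mulVec_injective g
  beta_reduce
  rw [mulVec_inv_mulVec, hg]
  simp only [hf.add_left, hf.smul_left, hyy]
  ext i
  simp only [Pi.add_apply, Pi.smul_apply, smul_eq_mul]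
  linear_combination (-(f w y * y i)) * hkk

include hf hKiso in
theorem Refl.conj (hN : ∀ k ∈ K, R * k * R⁻¹ ∈ K) {y : ι → F} (hy : Refl f K R κ y) {k : GL ι F} (hk : k ∈ K) :
    Refl f K R κ ((k : Matrix ι ι F) *ᵥ y) := by
  obtain ⟨h1, g, hg, hgR⟩ := hy
  have hi := ((mem_isoGroup hf).1 (hKiso hk)).1
  refine ⟨by rw [hi, h1], k * g * k⁻¹, refl_conj_act hf hi hg, ?_⟩
  have e : k * g * k⁻¹ * R⁻¹ = k * (g * R⁻¹) * (R * k⁻¹ * R⁻¹) := by group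
  rw [e]
  exact K.mul_mem (K.mul_mem hk hgR) (hN _ (K.inv_mem hk))

include hf hKiso in
theorem Refl.step (hRi : ∀ x z, f ((R : Matrix ι ι F) *ᵥ x) ((R : Matrix ι ι F) *ᵥ z) = f x z)
    (hN : ∀ k ∈ K, R * k * R⁻¹ ∈ K) {y y' : ι → F} (hy : Refl f K R κ y) (hy' : Refl f K R κ y') :
    Refl f K R κ (y' + (κ * f y' y) • y) := by
  obtain ⟨h1, g, hg, hgR⟩ := hy
  obtain ⟨h1', g', hg', hgR'⟩ := hy'
  have hi : ∀ x z, f ((g : Matrix ι ι F) *ᵥ x) ((g : Matrix ι ι F) *ᵥ z) = f x z := by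
    intro x z
    have e : ∀ w, (g : Matrix ι ι F) *ᵥ w = ((g * R⁻¹ : GL ι F) : Matrix ι ι F) *ᵥ ((R : Matrix ι ι F) *ᵥ w) := by
      intro w
      rw [gl_mulVec_mul, inv_mulVec_mulVec]
    have h3 := ((mem_isoGroup hf).1 (hKiso hgR)).1
    rw [e x, e z, h3, hRi]
  have hgy : (g : Matrix ι ι F) *ᵥ y' = y' + (κ * f y' y) • y := hg y'
  rw [← hgy]
  refine ⟨by rw [hi, h1'], g * g' * g⁻¹, refl_conj_act hf hi hg', ?_⟩
  have e : g * g' * g⁻¹ * R⁻¹ = (g * R⁻¹) * (R * ((g' * R⁻¹) * (g * R⁻¹)⁻¹) * R⁻¹) := by group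
  rw [e]
  exact K.mul_mem hgR (hN _ (K.mul_mem hgR' (K.inv_mem hgR)))

include hf hstd in
theorem Refl_base (a₀ : ι) (ε : Fˣ) : Refl f K (dAt a₀ ε) ((ε : F) - 1) (ee a₀) := by
  refine ⟨?_, dAt a₀ ε, fun z => ?_, ?_⟩
  · rw [f_single_right hstd]
    simp
  · rw [dAt_mulVec, f_single_right hstd, mul_comm]
  · rw [mul_inv_cancel]
    exact K.one_mem

include hf hstd NF Pg hKiso hM in
/-- **Mode A.** -/
theorem modeA (hc : 13 ≤ Fintype.card ι) {a₀ : ι} {ε : Fˣ} (hε : (ε : F) * σ ε = 1) (hε1 : ε ≠ 1)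
    (hN : ∀ k ∈ K, dAt a₀ ε * k * (dAt a₀ ε)⁻¹ ∈ K) {x : GL ι F} (hx : x ∈ K) {j : ι}
    (hs : 3 ≤ (sp ((x : Matrix ι ι F) *ᵥ ee j)).card) {z : ι → F} (hzz : f z z = 0) : z ∈ vecs hf K := by
  set R : GL ι F := dAt a₀ ε with hR
  set κ : F := (ε : F) - 1 with hκ
  have hκ0 : κ ≠ 0 := sub_one_ne hε1
  have hRi : ∀ x z, f ((R : Matrix ι ι F) *ᵥ x) ((R : Matrix ι ι F) *ᵥ z) = f x z := (dAt_um a₀ hε).iso hstd
  have hkk : κ + σ κ + κ * σ κ = 0 := by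
    rw [hκ, map_sub, map_one]
    linear_combination hε
  -- all the coordinate vectors
  have hbase : Refl f K R κ (ee a₀) := Refl_base hf hstd a₀ ε
  have hallc : ∀ j, Refl f K R κ (ee j) := by
    intro j
    obtain ⟨j₀, hj₀⟩ := exists_notMem_finset ({a₀} : Finset ι) (by simp; omega)
    have hj₀' : j₀ ≠ a₀ := fun h => hj₀ (by simp [h])
    obtain ⟨g, hg, hgy⟩ := umono_move (σ := σ) (Equiv.swap a₀ j) (ee a₀ : ι → F) (j₀ := j₀) (by simp [Pi.single_eq_of_ne hj₀'])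
    have e : (g : Matrix ι ι F) *ᵥ (ee a₀ : ι → F) = ee j := by
      ext i
      have h1 := hgy (Equiv.swap a₀ j i)
      rw [Equiv.swap_apply_self] at h1
      rw [h1]
      by_cases hi : i = j
      · subst hi
        simp
      · have : Equiv.swap a₀ j i ≠ a₀ := by
          intro h
          apply hi
          have := congrArg (Equiv.swap a₀ j) h
          simpa using this
        simp [Pi.single_eq_of_ne hi, Pi.single_eq_of_ne this]
    rw [← e]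
    exact Refl.conj hf hKiso hN hbase (hM hg)
  have hg1 : ∀ g ∈ (UMono σ : Subgroup (GL ι F)), ∀ y, Refl f K R κ y → Refl f K R κ ((g : Matrix ι ι F) *ᵥ y) :=
    fun g hg y hy => Refl.conj hf hKiso hN hy (hM hg)
  have hg2 : ∀ y y', Refl f K R κ y → Refl f K R κ y' → Refl f K R κ (y' + (κ * f y' y) • y) :=
    fun y y' hy hy' => Refl.step hf hKiso hRi hN hy hy'
  obtain ⟨y, hy, h5⟩ := grow hf hstd hc hg1 hκ0 hg2 (Refl.conj hf hKiso hN (hallc j) hx) hs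
  obtain ⟨l₁, l₂, l₃, l₄, l₅, h12, h13, h14, h15, h23, h24, h25, h34, h35, h45, y1, y2, y3, y4, y5⟩ := exists_five hf hstd h5
  obtain ⟨g, hg, b, hgb, hb0, hbL, hby, hbb⟩ := double_swap hf hstd Pg h12 h13 h14 h23 h24 h34 y1 y2 y3 y4
  have hy₂ : Refl f K R κ (y + b) := by
    rw [← hgb]
    exact hg1 g hg y hy
  obtain ⟨hyy, g₁, hg₁, hg₁R⟩ := hy
  obtain ⟨hyy₂, g₂, hg₂, hg₂R⟩ := hy₂
  have hyb : f y b = 0 := swap_zero hf hby
  have hinv : ∀ w, ((g₂⁻¹ : GL ι F) : Matrix ι ι F) *ᵥ w = w + (σ κ * f w (y + b)) • (y + b) :=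
    refl_inv hf hyy₂ hg₂ hkk
  have hr : g₁ * g₂⁻¹ ∈ K := by
    have e : g₁ * g₂⁻¹ = (g₁ * R⁻¹) * (g₂ * R⁻¹)⁻¹ := by group
    rw [e]
    exact K.mul_mem hg₁R (K.inv_mem hg₂R)
  have h0 : f ((-κ) • y) b = 0 := by rw [hf.smul_left, hyb, mul_zero]
  have hY : InY hf K b ((-κ) • y) (σ κ) := by
    refine ⟨hbb, h0, ?_⟩
    have e : Hh hf b ((-κ) • y) (σ κ) hbb h0 = g₁ * g₂⁻¹ := by
      apply gl_ext
      intro w
      rw [gl_mulVec_mul, hg₁, hinv, Hh_mulVec hf hbb]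
      simp only [hf.add_left, add_right hf, hf.smul_left, smul_right hf, hyy, hby, map_neg]
      ext i
      simp only [Pi.add_apply, Pi.sub_apply, Pi.smul_apply, smul_eq_mul]
      linear_combination (-(f w y + f w b) * y i) * hkk
    rw [e]
    exact hr
  refine k1_vecs hf hstd NF hc hKiso hM hY hb0 (L := {l₁, l₂, l₃, l₄}) (f₁ := l₅) Finset.card_le_four ?_ ?_ ?_ hzz
  · intro i hi
    simp only [Finset.mem_insert, Finset.mem_singleton, not_or] at hi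
    exact hbL i hi.1 hi.2.1 hi.2.2.1 hi.2.2.2
  · simp only [Finset.mem_insert, Finset.mem_singleton, not_or]
    exact ⟨Ne.symm h15, Ne.symm h25, Ne.symm h35, Ne.symm h45⟩
  · simp only [Pi.smul_apply, smul_eq_mul]
    exact mul_ne_zero (neg_ne_zero.2 hκ0) y5

end Main

end Cfsg.Agent.Lib.Classical.C2U.ModeA
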