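/-
The unitary monomial group in odd characteristic: involutions attached to non-degenerate planes.
-/
import Mathlib
import Cfsg.Agent.Lib.Classical.C2U.ModeA

set_option autoImplicit false
set_option linter.unusedSectionVars false

namespace Cfsg.Agent.Lib.Classical.C2U.Plane

open scoped Matrix MatrixGroups
open Module Cfsg Cfsg.Geo
open Cfsg.Agent.Lib.Classical.Geo.Basic
open Cfsg.Agent.Lib.Classical.Geo.UForm Cfsg.Agent.Lib.Classical.Geo.UPair Cfsg.Agent.Lib.Classical.Geo.UParab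
open Cfsg.Agent.Lib.Classical.Sub.Rat Cfsg.Agent.Lib.Classical.Sub.UElts
open Cfsg.Agent.Lib.Classical.C2.Base Cfsg.Agent.Lib.Classical.C2.Finish Cfsg.Agent.Lib.Classical.C2U.Base
open Cfsg.Agent.Lib.Classical.C2U.Pipe Cfsg.Agent.Lib.Classical.C2U.Grow Cfsg.Agent.Lib.Classical.C2U.Even
open Cfsg.Agent.Lib.Classical.C2U.ModeA

variable {ι : Type} [Fintype ι] [DecidableEq ι] {F : Type*} [Field F] [Fintype F]
  {σ : F ≃+* F} {f : (ι → F) → (ι → F) → F}

/-- The involution attached to an orthonormal pair. -/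
structure IsPlane (f : (ι → F) → (ι → F) → F) (K : Subgroup (GL ι F)) (u u' : ι → F) (t : GL ι F) : Prop where
  uu : f u u = 1
  uu' : f u' u' = 1
  ort : f u u' = 0
  mem : t ∈ K
  act : ∀ z, (t : Matrix ι ι F) *ᵥ z = z - (2 * f z u) • u - (2 * f z u') • u'

theorem mono_two {g : GL ι F} (h : IsMono g) {j a b : ι} (hab : a ≠ b)
    (ha : ((g : Matrix ι ι F) *ᵥ (Pi.single j 1)) a ≠ 0) (hb : ((g : Matrix ι ι F) *ᵥ (Pi.single j 1)) b ≠ 0) : False := by
  obtain ⟨i, κ, -, hi⟩ := h.single j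
  rw [hi] at ha hb
  simp only [Pi.smul_apply, smul_eq_mul] at ha hb
  by_cases h1 : a = i
  · subst h1
    exact hb (by simp [Pi.single_eq_of_ne hab.symm])
  · exact ha (by simp [Pi.single_eq_of_ne h1])

/-- The unit `-1`. -/
theorem neg_one_un : (((-1 : Fˣ) : F)) * σ ((-1 : Fˣ) : F) = 1 := by
  simp

section Main

variable (hf : IsUnitaryForm σ f) (hstd : ∀ x y, f x y = ∑ i, x i * σ (y i))
  {K : Subgroup (GL ι F)} (hKiso : K ≤ isoGroup hf) (hM : UMono σ ≤ K)

include hf hstd hKiso hM in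
/-- The involution attached to two columns. -/
theorem exists_plane {x : GL ι F} (hx : x ∈ K) {j j' : ι} (hjj : j ≠ j') :
    ∃ t, IsPlane f K ((x : Matrix ι ι F) *ᵥ ee j) ((x : Matrix ι ι F) *ᵥ ee j') t := by
  have hi := ((mem_isoGroup hf).1 (hKiso hx)).1
  have hd : dg j j' (-1 : Fˣ) ∈ K := by
    apply hM
    exact (dg_um j j' neg_one_un).mem (dg_det _ _ _)
  refine ⟨x * dg j j' (-1) * x⁻¹, ?_, ?_, ?_, K.mul_mem (K.mul_mem hx hd) (K.inv_mem hx), fun z => ?_⟩
  · rw [hi, f_single_right hstd]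
    simp
  · rw [hi, f_single_right hstd]
    simp
  · rw [hi, f_single_right hstd]
    simp [Pi.single_eq_of_ne hjj.symm]
  · rw [gl_mulVec_mul, gl_mulVec_mul, dg_mulVec hjj, Matrix.mulVec_add, Matrix.mulVec_add, Matrix.mulVec_smul,
      Matrix.mulVec_smul, mulVec_inv_mulVec]
    have e : ∀ k, (((x⁻¹ : GL ι F) : Matrix ι ι F) *ᵥ z) k = f z ((x : Matrix ι ι F) *ᵥ ee k) := by
      intro k
      have := hi (((x⁻¹ : GL ι F) : Matrix ι ι F) *ᵥ z) (ee k)
      rw [mulVec_inv_mulVec, f_single_right hstd] at this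
      exact this.symm
    rw [e, e]
    simp only [inv_neg, inv_one, Units.val_neg, Units.val_one]
    ext i
    simp only [Pi.add_apply, Pi.sub_apply, Pi.smul_apply, smul_eq_mul, ee]
    ring

include hf in
theorem IsPlane.sq {u u' : ι → F} {t : GL ι F} (hP : IsPlane f K u u' t) : t * t = 1 := by
  apply gl_ext
  intro z
  rw [gl_mulVec_mul, hP.act, hP.act]
  have h' : f u' u = 0 := swap_zero hf hP.ort
  simp only [sub_left hf, hf.smul_left, hP.uu, hP.uu', hP.ort, h']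
  simp only [Units.val_one, Matrix.one_mulVec]
  ext i
  simp only [Pi.sub_apply, Pi.smul_apply, smul_eq_mul]
  ring

theorem IsPlane.fix {u u' : ι → F} {t : GL ι F} (hP : IsPlane f K u u' t) {z : ι → F} (h : f z u = 0) (h' : f z u' = 0) :
    (t : Matrix ι ι F) *ᵥ z = z := by
  rw [hP.act, h, h']
  simp

include hf hKiso in
theorem IsPlane.conj {u u' : ι → F} {t : GL ι F} (hP : IsPlane f K u u' t) {g : GL ι F} (hg : g ∈ K) :
    IsPlane f K ((g : Matrix ι ι F) *ᵥ u) ((g : Matrix ι ι F) *ᵥ u') (g * t * g⁻¹) := by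
  have hi := ((mem_isoGroup hf).1 (hKiso hg)).1
  refine ⟨by rw [hi, hP.uu], by rw [hi, hP.uu'], by rw [hi, hP.ort], K.mul_mem (K.mul_mem hg hP.mem) (K.inv_mem hg),
    fun z => ?_⟩
  rw [gl_mulVec_mul, gl_mulVec_mul, hP.act, Matrix.mulVec_sub, Matrix.mulVec_sub, Matrix.mulVec_smul, Matrix.mulVec_smul,
    mulVec_inv_mulVec]
  have e1 := hi (((g⁻¹ : GL ι F) : Matrix ι ι F) *ᵥ z) u
  have e2 := hi (((g⁻¹ : GL ι F) : Matrix ι ι F) *ᵥ z) u'
  rw [mulVec_inv_mulVec] at e1 e2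
  rw [e1, e2]

include hf in
/-- A product of two planes sharing a line. -/
theorem plane_prod {y y' b : ι → F} {t t' : GL ι F} (hP : IsPlane f K y y' t) (hP' : IsPlane f K (y + b) y' t')
    (hby : f b y = 0) (hbb : f b b = 0) (hby' : f b y' = 0) : InY hf K b ((2 : F) • y) (-2) := by
  have hyb : f y b = 0 := swap_zero hf hby
  have hy'y : f y' y = 0 := swap_zero hf hP.ort
  have hy'b : f y' b = 0 := swap_zero hf hby'
  have h0 : f ((2 : F) • y) b = 0 := by rw [hf.smul_left, hyb, mul_zero]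
  refine ⟨hbb, h0, ?_⟩
  have e : Hh hf b ((2 : F) • y) (-2) hbb h0 = t * t' := by
    apply gl_ext
    intro w
    rw [gl_mulVec_mul, hP.act, hP'.act, Hh_mulVec hf hbb]
    simp only [sub_left hf, hf.add_left, add_right hf, hf.smul_left, smul_right hf, hP.uu, hP.uu', hP.ort, hby, hby', hy'y,
      hyb, hy'b, map_ofNat]
    ext i
    simp only [Pi.add_apply, Pi.sub_apply, Pi.smul_apply, smul_eq_mul]
    ring
  rw [e]
  exact K.mul_mem hP.mem hP'.mem

/-- A change of orthonormal basis. -/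
theorem IsPlane.rebase {u u' y y' : ι → F} {t : GL ι F} (hP : IsPlane f K u u' t) (h1 : f y y = 1) (h2 : f y' y' = 1)
    (h3 : f y y' = 0) (h4 : ∀ z, (f z u) • u + (f z u') • u' = (f z y) • y + (f z y') • y') : IsPlane f K y y' t := by
  refine ⟨h1, h2, h3, hP.mem, fun z => ?_⟩
  rw [hP.act]
  have := h4 z
  ext i
  have h5 := congrFun this i
  simp only [Pi.add_apply, Pi.sub_apply, Pi.smul_apply, smul_eq_mul] at h5 ⊢
  linear_combination (-2) * h5

end Main

section Steps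

variable (hf : IsUnitaryForm σ f) (hstd : ∀ x y, f x y = ∑ i, x i * σ (y i)) (NF : NormFacts σ) (Pg : PigeonFact σ)
  {K : Subgroup (GL ι F)} (hKiso : K ≤ isoGroup hf) (hM : UMono σ ≤ K)

include hf hstd hKiso hM in
/-- **Step one**: a column of support at least three. -/
theorem exists_three (hc : 13 ≤ Fintype.card ι) {x : GL ι F} (hx : x ∈ K) (hxm : x ∉ UMono σ) :
    ∃ x' ∈ K, ∃ j, 3 ≤ (sp ((x' : Matrix ι ι F) *ᵥ (ee j : ι → F))).card := by
  by_contra hcon
  push Not at hcon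
  have hhi := ((mem_isoGroup hf).1 (hKiso hx)).1
  obtain ⟨a, l₁, l₂, hl, ha₁, ha₂⟩ := exists_column_two (not_isMono hf hstd (hKiso hx) hxm)
  set u : ι → ι → F := fun j => (x : Matrix ι ι F) *ᵥ (ee j : ι → F) with hu
  have hxs : ∀ j, (sp (u j)).card < 3 := hcon x hx
  have ha₁' : u a l₁ ≠ 0 := ha₁
  have ha₂' : u a l₂ ≠ 0 := ha₂
  have hσ : ∀ {A : F}, A ≠ 0 → σ A ≠ 0 := fun {A} hA => by
    rw [Ne, map_eq_zero]
    exact hA
  -- the support of `u a`
  have hother : ∀ i, i ≠ l₁ → i ≠ l₂ → u a i = 0 := by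
    intro i h1 h2
    by_contra h0
    have := three_le_sp hl h1.symm h2.symm ha₁' ha₂' h0
    have h3 := hxs a
    omega
  have hort : ∀ d, d ≠ a → u d l₁ * σ (u a l₁) + u d l₂ * σ (u a l₂) = 0 := by
    intro d hd
    have h1 := hhi (ee d) (ee a)
    rw [f_single_right hstd] at h1
    simp only [Pi.single_eq_of_ne hd.symm] at h1
    rw [hstd, ← Finset.add_sum_erase _ _ (Finset.mem_univ l₁), ← Finset.add_sum_erase _ _ (Finset.mem_erase.2 ⟨hl.symm, Finset.mem_univ l₂⟩),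
      Finset.sum_eq_zero] at h1
    · linear_combination h1
    · intro i hi
      have h3 := Finset.ne_of_mem_erase hi
      have h4 := Finset.ne_of_mem_erase (Finset.mem_of_mem_erase hi)
      have h5 : u a i = 0 := hother i h4 h3
      change u d i * σ (u a i) = 0
      rw [h5, map_zero, mul_zero]
  -- a disjoint column
  obtain ⟨d, hda, hd₁, hd₂⟩ : ∃ d, d ≠ a ∧ u d l₁ = 0 ∧ u d l₂ = 0 := by
    by_contra hno
    push Not at hno
    -- any other column overlaps, and then it is supported exactly on `l₁, l₂`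
    have hsupp : ∀ d, d ≠ a → u d l₁ ≠ 0 ∧ u d l₂ ≠ 0 ∧ ∀ i, i ≠ l₁ → i ≠ l₂ → u d i = 0 := by
      intro d hd
      have h1 : u d l₁ ≠ 0 := by
        intro h0
        have h2 := hno d hd h0
        have h3 := hort d hd
        rw [h0, zero_mul, zero_add] at h3
        exact (mul_ne_zero h2 (hσ ha₂')) h3
      have h2 : u d l₂ ≠ 0 := by
        intro h0
        have h3 := hort d hd
        rw [h0, zero_mul, add_zero] at h3
        exact (mul_ne_zero h1 (hσ ha₁')) h3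
      refine ⟨h1, h2, fun i h3 h4 => ?_⟩
      by_contra h0
      have := three_le_sp hl h3.symm h4.symm h1 h2 h0
      have h5 := hxs d
      omega
    obtain ⟨d₁, hd₁⟩ := exists_notMem_finset ({a} : Finset ι) (by simp; omega)
    obtain ⟨d₂, hd₂⟩ := exists_notMem_finset ({a, d₁} : Finset ι) (by
      have := Finset.card_le_two (a := a) (b := d₁)
      omega)
    simp only [Finset.mem_insert, Finset.mem_singleton, not_or] at hd₁ hd₂
    obtain ⟨h1, h2, h3⟩ := hsupp d₁ hd₁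
    obtain ⟨h4, h5, h6⟩ := hsupp d₂ hd₂.1
    have h7 : u d₁ l₁ * u d₂ l₂ - u d₁ l₂ * u d₂ l₁ = 0 := by
      have : (u d₁ l₁ * u d₂ l₂ - u d₁ l₂ * u d₂ l₁) * σ (u a l₁) = 0 := by
        linear_combination u d₂ l₂ * hort d₁ hd₁ - u d₁ l₂ * hort d₂ hd₂.1
      rcases mul_eq_zero.1 this with h | h
      · exact h
      · exact absurd h (hσ ha₁')
    have h8 : (x : Matrix ι ι F) *ᵥ (u d₂ l₂ • (ee d₁ : ι → F) - u d₁ l₂ • (ee d₂ : ι → F)) = (x : Matrix ι ι F) *ᵥ 0 := by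
      rw [Matrix.mulVec_sub, Matrix.mulVec_smul, Matrix.mulVec_smul, Matrix.mulVec_zero]
      ext i
      change u d₂ l₂ * u d₁ i - u d₁ l₂ * u d₂ i = 0
      by_cases h9 : i = l₁
      · subst h9
        linear_combination h7
      · by_cases h10 : i = l₂
        · subst h10
          ring
        · rw [h3 i h9 h10, h6 i h9 h10]
          ring
    have h9 := congrFun (mulVec_injective x h8) d₁
    simp only [ee, Pi.sub_apply, Pi.smul_apply, smul_eq_mul, Pi.single_eq_same, Pi.single_eq_of_ne (Ne.symm hd₂.2), Pi.zero_apply,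
      mul_zero, sub_zero, mul_one] at h9
    exact h5 h9
  -- the new element
  obtain ⟨π, hπ₁, hπ₂⟩ := exists_perm_two hl hda.symm
  obtain ⟨j₀, hj₀⟩ := exists_notMem_finset ({l₁, l₂} : Finset ι) (by
    have := Finset.card_le_two (a := l₁) (b := l₂)
    omega)
  simp only [Finset.mem_insert, Finset.mem_singleton, not_or] at hj₀
  obtain ⟨c, hc₁, hcu, hcd⟩ := exists_detFix (F := F) (σ := σ) π j₀ (fun _ => 1) (by simp) rfl
  have hh : mono π c ∈ K := hM ⟨π, c, rfl, hcu, hcd⟩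
  have e₁ : ((mono π c : GL ι F) : Matrix ι ι F) *ᵥ (ee l₁ : ι → F) = ee a := by
    rw [mono_single, hc₁ _ (Ne.symm hj₀.1), hπ₁]
    simp
  have e₂ : ((mono π c : GL ι F) : Matrix ι ι F) *ᵥ (ee l₂ : ι → F) = ee d := by
    rw [mono_single, hc₁ _ (Ne.symm hj₀.2), hπ₂]
    simp
  have e₃ : u a = u a l₁ • (ee l₁ : ι → F) + u a l₂ • (ee l₂ : ι → F) := by
    ext i
    simp only [ee, Pi.add_apply, Pi.smul_apply, smul_eq_mul]
    by_cases h1 : i = l₁
    · subst h1
      simp [Pi.single_eq_of_ne hl]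
    · by_cases h2 : i = l₂
      · subst h2
        simp [Pi.single_eq_of_ne h1]
      · simp [Pi.single_eq_of_ne h1, Pi.single_eq_of_ne h2, hother i h1 h2]
  have e₄ : ((x * mono π c * x : GL ι F) : Matrix ι ι F) *ᵥ (ee a : ι → F) = u a l₁ • u a + u a l₂ • u d := by
    rw [gl_mulVec_mul, gl_mulVec_mul]
    change (x : Matrix ι ι F) *ᵥ (((mono π c : GL ι F) : Matrix ι ι F) *ᵥ u a) = _
    conv_lhs => rw [e₃]
    rw [Matrix.mulVec_add, Matrix.mulVec_smul, Matrix.mulVec_smul, e₁, e₂, Matrix.mulVec_add, Matrix.mulVec_smul,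
      Matrix.mulVec_smul]
  have hd0 : u d ≠ 0 := by
    intro h0
    have h8 : (x : Matrix ι ι F) *ᵥ (ee d : ι → F) = (x : Matrix ι ι F) *ᵥ 0 := by
      rw [Matrix.mulVec_zero]
      exact h0
    have h9 := congrFun (mulVec_injective x h8) d
    simp at h9
  obtain ⟨i, hi⟩ := Function.ne_iff.1 hd0
  have hi' : u d i ≠ 0 := hi
  have hi₁ : i ≠ l₁ := by
    rintro rfl
    exact hi' hd₁
  have hi₂ : i ≠ l₂ := by
    rintro rfl
    exact hi' hd₂
  have := hcon (x * mono π c * x) (K.mul_mem (K.mul_mem hx hh) hx) a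
  rw [e₄] at this
  have h3 : 3 ≤ (sp (u a l₁ • u a + u a l₂ • u d)).card := by
    refine three_le_sp (a := l₁) (b := l₂) (c := i) hl hi₁.symm hi₂.symm ?_ ?_ ?_
    · simp only [Pi.add_apply, Pi.smul_apply, smul_eq_mul, hd₁, mul_zero, add_zero]
      exact mul_ne_zero ha₁' ha₁'
    · simp only [Pi.add_apply, Pi.smul_apply, smul_eq_mul, hd₂, mul_zero, add_zero]
      exact mul_ne_zero ha₁' ha₂'
    · simp only [Pi.add_apply, Pi.smul_apply, smul_eq_mul, hother i hi₁ hi₂, mul_zero, zero_add]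
      exact mul_ne_zero ha₂' hi'
  omega

/-- The conjugate of a monomial element. -/
theorem UMono_conj {R g : GL ι F} (hR : IsUM σ R) (hg : g ∈ UMono σ) : R * g * R⁻¹ ∈ UMono σ := by
  refine ((hR.mul (UMono_isUM hg)).mul hR.inv).mem ?_
  rw [Units.val_mul, Units.val_mul, Matrix.det_mul, Matrix.det_mul, UMono_det hg, mul_one, ← Matrix.det_mul, ← Units.val_mul,
    mul_inv_cancel]
  simp

/-- A unit-norm monomial element commuting with an element outside the monomial group normalises the group. -/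
theorem normalize_of_commute (hM : UMono σ ≤ K) (hmin : ∀ L : Subgroup (GL ι F), UMono σ ≤ L → L ≤ K → L = UMono σ ∨ L = K)
    {R s : GL ι F} (hR : IsUM σ R) (hs : s ∈ K) (hs' : s ∉ UMono σ) (hc : R * s = s * R) (k : GL ι F) (hk : k ∈ K) :
    R * k * R⁻¹ ∈ K := by
  let L : Subgroup (GL ι F) := K ⊓ K.comap (MulAut.conj R).toMonoidHom
  have hL : ∀ g, g ∈ L ↔ g ∈ K ∧ R * g * R⁻¹ ∈ K := fun g => Iff.rfl
  have h1 : UMono σ ≤ L := fun g hg => (hL g).2 ⟨hM hg, hM (UMono_conj hR hg)⟩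
  have h2 : s ∈ L := by
    refine (hL s).2 ⟨hs, ?_⟩
    rw [hc, mul_assoc, mul_inv_cancel, mul_one]
    exact hs
  rcases hmin L h1 inf_le_left with h3 | h3
  · rw [h3] at h2
    exact absurd h2 hs'
  · have : k ∈ L := h3 ▸ hk
    exact ((hL k).1 this).2

include hf hstd in
/-- The involution is not monomial, when a coordinate separates the two vectors. -/
theorem plane_not_mono {u u' : ι → F} {t : GL ι F} (hP : IsPlane f K u u' t) (h2 : (2 : F) ≠ 0) (h3 : 3 ≤ (sp u).card) {l₀ : ι}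
    (hl : u l₀ = 0) (hl' : u' l₀ ≠ 0) : t ∉ UMono σ := by
  intro hm
  have hmono : IsMono t := by
    obtain ⟨π, c, h, -⟩ := UMono_isUM hm
    exact ⟨π, c, h⟩
  have hσ : ∀ {A : F}, A ≠ 0 → σ A ≠ 0 := fun {A} hA => by
    rw [Ne, map_eq_zero]
    exact hA
  have hact : ∀ k, (t : Matrix ι ι F) *ᵥ (ee k : ι → F) = ee k - (2 * σ (u k)) • u - (2 * σ (u' k)) • u' := by
    intro k
    rw [hP.act, f_single_left hstd, f_single_left hstd]
  -- two coordinates of a finset of size at least three, different from a given one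
  have htwo : ∀ (S : Finset ι) (k : ι), 3 ≤ S.card → ∃ a b, a ∈ S ∧ b ∈ S ∧ a ≠ b ∧ a ≠ k ∧ b ≠ k := by
    intro S k hS
    have h4 := Finset.pred_card_le_card_erase (s := S) (a := k)
    obtain ⟨a, ha, b, hb, hab⟩ := Finset.one_lt_card.1 (show 1 < (S.erase k).card by omega)
    exact ⟨a, b, Finset.mem_of_mem_erase ha, Finset.mem_of_mem_erase hb, hab, Finset.ne_of_mem_erase ha,
      Finset.ne_of_mem_erase hb⟩
  by_cases hsub : ∃ k, u k ≠ 0 ∧ u' k = 0
  · obtain ⟨k, h4, h5⟩ := hsub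
    obtain ⟨a, b, ha, hb, hab, hak, hbk⟩ := htwo _ k h3
    refine mono_two hmono (j := k) hab ?_ ?_
    · change ((t : Matrix ι ι F) *ᵥ (ee k : ι → F)) a ≠ 0
      rw [hact, h5]
      simp only [map_zero, mul_zero, zero_smul, sub_zero, ee, Pi.sub_apply, Pi.zero_apply, Pi.single_eq_of_ne hak, zero_sub, Pi.smul_apply,
        smul_eq_mul, neg_ne_zero]
      exact mul_ne_zero (mul_ne_zero h2 (hσ h4)) (mem_sp.1 ha)
    · change ((t : Matrix ι ι F) *ᵥ (ee k : ι → F)) b ≠ 0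
      rw [hact, h5]
      simp only [map_zero, mul_zero, zero_smul, sub_zero, ee, Pi.sub_apply, Pi.zero_apply, Pi.single_eq_of_ne hbk, zero_sub, Pi.smul_apply,
        smul_eq_mul, neg_ne_zero]
      exact mul_ne_zero (mul_ne_zero h2 (hσ h4)) (mem_sp.1 hb)
  · push Not at hsub
    obtain ⟨a, b, ha, hb, hab, hak, hbk⟩ := htwo _ l₀ h3
    refine mono_two hmono (j := l₀) hab ?_ ?_
    · change ((t : Matrix ι ι F) *ᵥ (ee l₀ : ι → F)) a ≠ 0
      rw [hact, hl]
      simp only [map_zero, mul_zero, zero_smul, sub_zero, ee, Pi.sub_apply, Pi.zero_apply, Pi.single_eq_of_ne hak, zero_sub, Pi.smul_apply,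
        smul_eq_mul, neg_ne_zero]
      exact mul_ne_zero (mul_ne_zero h2 (hσ hl')) (by
        intro h0
        exact (mem_sp.1 ha) (by_contra fun h5 => (hsub a h5) h0))
    · change ((t : Matrix ι ι F) *ᵥ (ee l₀ : ι → F)) b ≠ 0
      rw [hact, hl]
      simp only [map_zero, mul_zero, zero_smul, sub_zero, ee, Pi.sub_apply, Pi.zero_apply, Pi.single_eq_of_ne hbk, zero_sub, Pi.smul_apply,
        smul_eq_mul, neg_ne_zero]
      exact mul_ne_zero (mul_ne_zero h2 (hσ hl')) (by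
        intro h0
        exact (mem_sp.1 hb) (by_contra fun h5 => (hsub b h5) h0))

include hf hstd in
/-- **Case Z**: a zero row gives a normalising reflection. -/
theorem case_Z {u u' : ι → F} {t : GL ι F} (hP : IsPlane f K u u' t) (hM : UMono σ ≤ K)
    (hmin : ∀ L : Subgroup (GL ι F), UMono σ ≤ L → L ≤ K → L = UMono σ ∨ L = K) (ht : t ∉ UMono σ) {l : ι} (hl : u l = 0)
    (hl' : u' l = 0) (k : GL ι F) (hk : k ∈ K) : dAt l (-1) * k * (dAt l (-1))⁻¹ ∈ K := by
  refine normalize_of_commute hM hmin (dAt_um l neg_one_un) hP.mem ht ?_ k hk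
  apply gl_ext
  intro z
  rw [gl_mulVec_mul, gl_mulVec_mul, dAt_mulVec, dAt_mulVec, hP.act, hP.act]
  simp only [sub_left hf, hf.add_left, hf.smul_left, f_single_left hstd, hl, hl', map_zero, mul_zero, add_zero]
  ext i
  simp only [Pi.add_apply, Pi.sub_apply, Pi.smul_apply, smul_eq_mul, hl, hl', mul_zero, sub_zero]
  ring

include hf hstd NF Pg hKiso hM in
/-- **Case S**, with a non-isotropic row. -/
theorem case_S_pos (hc : 13 ≤ Fintype.card ι) (h2 : (2 : F) ≠ 0) {u u' : ι → F} {t : GL ι F} (hP : IsPlane f K u u' t) {A B : F}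
    (hν : A * σ A + B * σ B ≠ 0) {l₁ l₂ l₃ l₄ l₅ : ι} (h12 : l₁ ≠ l₂) (h13 : l₁ ≠ l₃) (h14 : l₁ ≠ l₄) (h15 : l₁ ≠ l₅)
    (h23 : l₂ ≠ l₃) (h24 : l₂ ≠ l₄) (h25 : l₂ ≠ l₅) (h34 : l₃ ≠ l₄) (h35 : l₃ ≠ l₅) (h45 : l₄ ≠ l₅)
    (hQ : ∀ l, (l = l₁ ∨ l = l₂ ∨ l = l₃ ∨ l = l₄ ∨ l = l₅) → u l * B = u' l * A ∧ (u l ≠ 0 ∨ u' l ≠ 0))
    {z : ι → F} (hzz : f z z = 0) : z ∈ vecs hf K := by
  have hinv := hf.involutive
  have hu'u : f u' u = 0 := swap_zero hf hP.ort
  set ν : F := A * σ A + B * σ B with hνd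
  have hνσ : σ ν = ν := by
    rw [hνd]
    simp only [map_add, map_mul, hinv]
    ring
  obtain ⟨c, hcc, -, -⟩ := NF.three ν⁻¹ (inv_ne_zero hν) (by rw [map_inv₀, hνσ]) 0 0
  have hcc' : c * σ c * ν = 1 := by
    rw [hcc, inv_mul_cancel₀ hν]
  have hc0 : c ≠ 0 := by
    rintro rfl
    simp at hcc'
  set p : ι → F := σ A • u + σ B • u' with hp
  set w : ι → F := B • u - A • u' with hw
  set y : ι → F := c • p with hy
  set y' : ι → F := c • w with hy'
  have hyy : f y y = 1 := by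
    simp only [hy, hp, hf.add_left, add_right hf, hf.smul_left, smul_right hf, hP.uu, hP.uu', hP.ort, hu'u, hinv]
    linear_combination hcc'
  have hy'y' : f y' y' = 1 := by
    simp only [hy', hw, sub_left hf, sub_right hf, hf.smul_left, smul_right hf, hP.uu, hP.uu', hP.ort, hu'u]
    linear_combination hcc'
  have hyy' : f y y' = 0 := by
    simp only [hy, hy', hp, hw, hf.add_left, sub_right hf, hf.smul_left, smul_right hf, hP.uu, hP.uu', hP.ort, hu'u, hinv]
    ring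
  have hP₂ : IsPlane f K y y' t := by
    refine hP.rebase hyy hy'y' hyy' fun w' => ?_
    simp only [hy, hy', hp, hw, add_right hf, sub_right hf, smul_right hf, hinv, map_mul]
    ext i
    simp only [Pi.add_apply, Pi.sub_apply, Pi.smul_apply, smul_eq_mul]
    linear_combination (-(f w' u * u i + f w' u' * u' i)) * hcc'
  have hy'Q : ∀ l, (l = l₁ ∨ l = l₂ ∨ l = l₃ ∨ l = l₄ ∨ l = l₅) → y' l = 0 := by
    intro l hl
    simp only [hy', hw, Pi.smul_apply, Pi.sub_apply, smul_eq_mul]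
    linear_combination c * (hQ l hl).1
  have hyQ : ∀ l, (l = l₁ ∨ l = l₂ ∨ l = l₃ ∨ l = l₄ ∨ l = l₅) → y l ≠ 0 := by
    intro l hl h0
    simp only [hy, hp, Pi.smul_apply, Pi.add_apply, smul_eq_mul] at h0
    have h1 : σ A * u l + σ B * u' l = 0 := by
      rcases mul_eq_zero.1 h0 with h | h
      · exact absurd h hc0
      · exact h
    obtain ⟨h3, h4⟩ := hQ l hl
    have h5 : ν * u l = 0 := by
      rw [hνd]
      linear_combination A * h1 + σ B * h3
    have h6 : ν * u' l = 0 := by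
      rw [hνd]
      linear_combination B * h1 - σ A * h3
    rcases h4 with h4 | h4
    · exact h4 ((mul_eq_zero.1 h5).resolve_left hν)
    · exact h4 ((mul_eq_zero.1 h6).resolve_left hν)
  have y1 := hyQ l₁ (by simp)
  have y2 := hyQ l₂ (by simp)
  have y3 := hyQ l₃ (by simp)
  have y4 := hyQ l₄ (by simp)
  have y5 := hyQ l₅ (by simp)
  obtain ⟨g, hg, b, hgb, hb0, hbL, hby, hbb, hfix⟩ := double_swap' hf hstd Pg h12 h13 h14 h23 h24 h34 y1 y2 y3 y4
  have hgy' : (g : Matrix ι ι F) *ᵥ y' = y' := hfix y' (hy'Q _ (by simp)) (hy'Q _ (by simp)) (hy'Q _ (by simp)) (hy'Q _ (by simp))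
  have hP₃ := IsPlane.conj hf hKiso hP₂ (hM hg)
  rw [hgb, hgy'] at hP₃
  have hby' : f b y' = 0 := by
    rw [hstd]
    refine Finset.sum_eq_zero fun i _ => ?_
    by_cases h : i = l₁ ∨ i = l₂ ∨ i = l₃ ∨ i = l₄ ∨ i = l₅
    · rw [hy'Q i h, map_zero, mul_zero]
    · simp only [not_or] at h
      rw [hbL i h.1 h.2.1 h.2.2.1 h.2.2.2.1, zero_mul]
  have hY := plane_prod hf hP₂ hP₃ hby hbb hby'
  refine k1_vecs hf hstd NF hc hKiso hM hY hb0 (L := {l₁, l₂, l₃, l₄}) (f₁ := l₅) Finset.card_le_four ?_ ?_ ?_ hzz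
  · intro i hi
    simp only [Finset.mem_insert, Finset.mem_singleton, not_or] at hi
    exact hbL i hi.1 hi.2.1 hi.2.2.1 hi.2.2.2
  · simp only [Finset.mem_insert, Finset.mem_singleton, not_or]
    exact ⟨Ne.symm h15, Ne.symm h25, Ne.symm h35, Ne.symm h45⟩
  · simp only [Pi.smul_apply, smul_eq_mul]
    exact mul_ne_zero h2 y5

include hf hstd NF hKiso hM in
/-- **Case S**, with an isotropic row. -/
theorem case_S_zero (hc : 13 ≤ Fintype.card ι) (h2 : (2 : F) ≠ 0) {u u' : ι → F} {t : GL ι F} (hP : IsPlane f K u u' t) {A B : F}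
    (hν : A * σ A + B * σ B = 0) (hB : B ≠ 0) {l₁ l₂ l₃ l₄ : ι} (h12 : l₁ ≠ l₂) (h13 : l₁ ≠ l₃) (h14 : l₁ ≠ l₄)
    (h23 : l₂ ≠ l₃) (h34 : l₃ ≠ l₄)
    (hQ : ∀ l, (l = l₁ ∨ l = l₂ ∨ l = l₃ ∨ l = l₄) → u l * B = u' l * A ∧ (u l ≠ 0 ∨ u' l ≠ 0))
    {z : ι → F} (hzz : f z z = 0) : z ∈ vecs hf K := by
  have hinv := hf.involutive
  have hu'u : f u' u = 0 := swap_zero hf hP.ort
  have hσ : ∀ {A : F}, A ≠ 0 → σ A ≠ 0 := fun {A} hA => by
    rw [Ne, map_eq_zero]
    exact hA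
  have hN : B * σ B ≠ 0 := mul_ne_zero hB (hσ hB)
  have hA : A ≠ 0 := by
    rintro rfl
    simp only [zero_mul, zero_add] at hν
    exact hN hν
  have hNσ : σ (B * σ B) = B * σ B := by
    rw [map_mul, hinv]
    ring
  have h2σ : σ (2 : F) = 2 := map_ofNat σ 2
  obtain ⟨θ, hθσ, hθN⟩ : ∃ θ : F, σ θ = θ ∧ θ * (2 * (B * σ B)) = 1 :=
    ⟨(2 * (B * σ B))⁻¹, by rw [map_inv₀, map_mul, hNσ, h2σ], inv_mul_cancel₀ (mul_ne_zero h2 hN)⟩
  have hθ0 : θ ≠ 0 := by
    intro h0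
    rw [h0, zero_mul] at hθN
    exact zero_ne_one hθN
  set w : ι → F := B • u - A • u' with hw
  set w₂ : ι → F := θ • (B • u + A • u') with hw₂
  have hww : f w w = 0 := by
    simp only [hw, sub_left hf, sub_right hf, hf.smul_left, smul_right hf, hP.uu, hP.uu', hP.ort, hu'u]
    linear_combination hν
  have hw₂w₂ : f w₂ w₂ = 0 := by
    simp only [hw₂, hf.add_left, add_right hf, hf.smul_left, smul_right hf, hP.uu, hP.uu', hP.ort, hu'u]
    linear_combination (θ * σ θ) * hν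
  have hw₂w : f w₂ w = 1 := by
    simp only [hw₂, hw, hf.add_left, hf.smul_left, sub_right hf, smul_right hf, hP.uu, hP.uu', hP.ort, hu'u]
    linear_combination hθN - θ * hν
  have hww₂ : f w w₂ = 1 := by
    rw [hf.herm, hw₂w, map_one]
  have hact : ∀ z, (t : Matrix ι ι F) *ᵥ z = z - (2 * f z w₂) • w - (2 * f z w) • w₂ := by
    intro z
    rw [hP.act]
    simp only [hw₂, hw, add_right hf, sub_right hf, smul_right hf, hθσ]
    ext i
    simp only [Pi.add_apply, Pi.sub_apply, Pi.smul_apply, smul_eq_mul]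
    have e1 : θ * (B * σ B) * 2 = 1 := by linear_combination hθN
    linear_combination (2 * f z u * u i + 2 * f z u' * u' i) * e1 - (4 * θ * f z u' * u' i) * hν
  have hwQ : ∀ l, (l = l₁ ∨ l = l₂ ∨ l = l₃ ∨ l = l₄) → w l = 0 := by
    intro l hl
    simp only [hw, Pi.sub_apply, Pi.smul_apply, smul_eq_mul]
    linear_combination (hQ l hl).1
  have hw₂l : w₂ l₁ ≠ 0 := by
    intro h0
    simp only [hw₂, Pi.smul_apply, Pi.add_apply, smul_eq_mul] at h0
    have h1 : B * u l₁ + A * u' l₁ = 0 := (mul_eq_zero.1 h0).resolve_left hθ0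
    obtain ⟨h3, h4⟩ := hQ l₁ (by simp)
    have h5 : (2 * B) * u l₁ = 0 := by linear_combination h1 + h3
    have h6 : (2 * A) * u' l₁ = 0 := by linear_combination h1 - h3
    rcases h4 with h4 | h4
    · exact h4 ((mul_eq_zero.1 h5).resolve_left (mul_ne_zero h2 hB))
    · exact h4 ((mul_eq_zero.1 h6).resolve_left (mul_ne_zero h2 hA))
  -- the diagonal element
  obtain ⟨δ, hδ, hδ1⟩ := exists_un NF
  have hdg : dg l₁ l₂ δ ∈ K := hM ((dg_um l₁ l₂ hδ).mem (dg_det _ _ _))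
  have hgi := ((mem_isoGroup hf).1 (hKiso hdg)).1
  set g : GL ι F := dg l₁ l₂ δ with hg
  have hgw : (g : Matrix ι ι F) *ᵥ w = w := dg_fix h12 δ (hwQ _ (by simp)) (hwQ _ (by simp))
  set v : ι → F := (((δ : F) - 1) * w₂ l₁) • (ee l₁ : ι → F) + ((((δ⁻¹ : Fˣ) : F) - 1) * w₂ l₂) • (ee l₂ : ι → F) with hv
  have hgw₂ : (g : Matrix ι ι F) *ᵥ w₂ = w₂ + v := by
    rw [hg, dg_mulVec h12, hv, add_assoc]
  have hvw : f v w = 0 := by
    have := hgi w₂ w
    rw [hgw₂, hgw, hf.add_left, hw₂w] at this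
    linear_combination this
  have hwv : f w v = 0 := swap_zero hf hvw
  have hact' : ∀ z, ((g * t * g⁻¹ : GL ι F) : Matrix ι ι F) *ᵥ z = z - (2 * f z (w₂ + v)) • w - (2 * f z w) • (w₂ + v) := by
    intro z
    rw [gl_mulVec_mul, gl_mulVec_mul, hact, Matrix.mulVec_sub, Matrix.mulVec_sub, Matrix.mulVec_smul, Matrix.mulVec_smul,
      mulVec_inv_mulVec, hgw, hgw₂]
    have e1 := hgi (((g⁻¹ : GL ι F) : Matrix ι ι F) *ᵥ z) w₂
    have e2 := hgi (((g⁻¹ : GL ι F) : Matrix ι ι F) *ᵥ z) w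
    rw [mulVec_inv_mulVec, hgw₂] at e1
    rw [mulVec_inv_mulVec, hgw] at e2
    rw [e1, e2]
  have h0 : f ((-2 : F) • v) w = 0 := by rw [hf.smul_left, hvw, mul_zero]
  have hY : InY hf K w ((-2 : F) • v) (4 * f v w₂) := by
    refine ⟨hww, h0, ?_⟩
    have e : Hh hf w ((-2 : F) • v) (4 * f v w₂) hww h0 = t * (g * t * g⁻¹) := by
      apply gl_ext
      intro x
      rw [gl_mulVec_mul, hact, hact', Hh_mulVec hf hww]
      simp only [sub_left hf, hf.add_left, add_right hf, hf.smul_left, smul_right hf, hww, hw₂w, hww₂, hvw, hwv, hw₂w₂, map_neg,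
        map_ofNat]
      ext i
      simp only [Pi.add_apply, Pi.sub_apply, Pi.smul_apply, smul_eq_mul]
      ring
    rw [e]
    exact K.mul_mem hP.mem (K.mul_mem (K.mul_mem hdg hP.mem) (K.inv_mem hdg))
  have hw0 : w ≠ 0 := by
    rintro h
    rw [h, zero_right hf] at hw₂w
    exact zero_ne_one hw₂w
  refine k1_vecs' hf hstd NF hc hKiso hM hY hw0 (f₁ := l₁) (f₂ := l₂) (f' := l₃) (f'' := l₄) h12 h13 h14 h23 h34
    (hwQ _ (by simp)) (hwQ _ (by simp)) (hwQ _ (by simp)) (hwQ _ (by simp)) ?_ hzz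
  simp only [hv, ee, Pi.smul_apply, Pi.add_apply, smul_eq_mul, Pi.single_eq_same, Pi.single_eq_of_ne h12, mul_zero, add_zero,
    mul_one]
  exact mul_ne_zero (neg_ne_zero.2 h2) (mul_ne_zero (sub_one_ne hδ1) hw₂l)

end Steps

end Cfsg.Agent.Lib.Classical.C2U.Plane
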