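/-
The unitary monomial group in odd characteristic: the dihedral argument, when the rows of the plane are in general position.
-/
import Mathlib
import Cfsg.Agent.Lib.Classical.C2U.Plane

set_option autoImplicit false
set_option linter.unusedSectionVars false

namespace Cfsg.Agent.Lib.Classical.C2U.Dihedral

open scoped Matrix MatrixGroups
open Module Cfsg Cfsg.Geo
open Cfsg.Agent.Lib.Classical.Geo.Basic
open Cfsg.Agent.Lib.Classical.Geo.UForm Cfsg.Agent.Lib.Classical.Geo.UPair Cfsg.Agent.Lib.Classical.Geo.UParab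
open Cfsg.Agent.Lib.Classical.Sub.Rat Cfsg.Agent.Lib.Classical.Sub.UElts
open Cfsg.Agent.Lib.Classical.C2.Base Cfsg.Agent.Lib.Classical.C2.Finish Cfsg.Agent.Lib.Classical.C2U.Base
open Cfsg.Agent.Lib.Classical.C2U.Pipe Cfsg.Agent.Lib.Classical.C2U.Grow Cfsg.Agent.Lib.Classical.C2U.Even
open Cfsg.Agent.Lib.Classical.C2U.ModeA Cfsg.Agent.Lib.Classical.C2U.Plane

variable {ι : Type} [Fintype ι] [DecidableEq ι] {F : Type*} [Field F] [Fintype F]
  {σ : F ≃+* F} {f : (ι → F) → (ι → F) → F}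

/-- The diagonal element with a scalar on a subset of the coordinates. -/
noncomputable def dS (S : Finset ι) (l : Fˣ) : GL ι F := mono 1 (fun i => if i ∈ S then l else 1)

theorem dS_apply (S : Finset ι) (l : Fˣ) (x : ι → F) (i : ι) :
    (((dS S l : GL ι F) : Matrix ι ι F) *ᵥ x) i = (if i ∈ S then (l : F) else 1) * x i := by
  rw [dS, mono_apply]
  simp only [inv_one, Equiv.Perm.coe_one, id_eq]
  split_ifs <;> simp

theorem dS_um (S : Finset ι) {l : Fˣ} (h : (l : F) * σ l = 1) : IsUM σ (dS S l : GL ι F) :=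
  ⟨_, _, rfl, fun _ => un_ite l h _⟩

theorem dS_det (S : Finset ι) (l : Fˣ) : ((dS S l : GL ι F) : Matrix ι ι F).det = (l : F) ^ S.card := by
  rw [dS, mono_det]
  simp only [Equiv.Perm.sign_one, Units.val_one, Int.cast_one, one_mul]
  have h1 : ∀ i, (((if i ∈ S then l else 1 : Fˣ)) : F) = if i ∈ S then (l : F) else 1 := fun i => by split_ifs <;> simp
  simp only [h1]
  rw [Finset.prod_ite_mem, Finset.univ_inter, Finset.prod_const]

theorem exists_notMem_of_card_lt (S T : Finset ι) (h : T.card < S.card) : ∃ j, j ∈ S ∧ j ∉ T := by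
  obtain ⟨j, h1, h2⟩ := Finset.exists_mem_notMem_of_card_lt_card h
  exact ⟨j, h1, h2⟩

/-- A linear equation in three unknowns. -/
theorem exists_ker (a₁ a₂ a₃ b₁ b₂ b₃ : F) : ∃ ξ₁ ξ₂ ξ₃ : F, (ξ₁ ≠ 0 ∨ ξ₂ ≠ 0 ∨ ξ₃ ≠ 0) ∧
    ξ₁ * a₁ + ξ₂ * a₂ + ξ₃ * a₃ = 0 ∧ ξ₁ * b₁ + ξ₂ * b₂ + ξ₃ * b₃ = 0 := by
  by_cases h1 : a₂ * b₃ - a₃ * b₂ = 0
  · by_cases h2 : a₃ * b₁ - a₁ * b₃ = 0
    · by_cases h3 : a₁ * b₂ - a₂ * b₁ = 0
      · by_cases h4 : a₁ = 0
        · subst h4
          by_cases h5 : a₂ = 0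
          · subst h5
            by_cases h6 : a₃ = 0
            · subst h6
              by_cases h7 : b₁ = 0
              · exact ⟨1, 0, 0, by simp, by simp, by simp [h7]⟩
              · exact ⟨-b₂, b₁, 0, by simp [h7], by simp, by ring⟩
            · exact ⟨a₃, 0, 0, by simp [h6], by simp, by linear_combination h2⟩
          · exact ⟨a₂, 0, 0, by simp [h5], by simp, by linear_combination -h3⟩
        · exact ⟨-a₂, a₁, 0, by simp [h4], by ring, by linear_combination h3⟩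
      · exact ⟨a₂ * b₃ - a₃ * b₂, a₃ * b₁ - a₁ * b₃, a₁ * b₂ - a₂ * b₁, Or.inr (Or.inr h3), by ring, by ring⟩
    · exact ⟨a₂ * b₃ - a₃ * b₂, a₃ * b₁ - a₁ * b₃, a₁ * b₂ - a₂ * b₁, Or.inr (Or.inl h2), by ring, by ring⟩
  · exact ⟨a₂ * b₃ - a₃ * b₂, a₃ * b₁ - a₁ * b₃, a₁ * b₂ - a₂ * b₁, Or.inl h1, by ring, by ring⟩

/-- A solution of two linear equations in two unknowns. -/
theorem solve2 (a b c a' b' c' : F) (hD : b * c' - c * b' ≠ 0) : ∃ α β : F, a + α * b + β * c = 0 ∧ a' + α * b' + β * c' = 0 := by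
  obtain ⟨Di, hDi⟩ : ∃ Di, (b * c' - c * b') * Di = 1 := ⟨_, mul_inv_cancel₀ hD⟩
  refine ⟨-(a * c' - c * a') * Di, -(b * a' - a * b') * Di, ?_, ?_⟩
  · linear_combination (-a) * hDi
  · linear_combination (-a') * hDi

theorem mono_ee (π : Equiv.Perm ι) (c : ι → Fˣ) (j : ι) :
    ((mono π c : GL ι F) : Matrix ι ι F) *ᵥ (ee j : ι → F) = (c j : F) • (ee (π j) : ι → F) := by
  rw [mono_single]
  ext k
  by_cases hk : k = π j
  · subst hk
    simp
  · simp [Pi.single_eq_of_ne hk]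

/-- The rows dependent on a given row. -/
noncomputable def depClass (u u' : ι → F) (l : ι) : Finset ι := by
  classical exact Finset.univ.filter fun l' => u l * u' l' - u' l * u l' = 0

theorem mem_depClass {u u' : ι → F} {l l' : ι} : l' ∈ depClass u u' l ↔ u l * u' l' - u' l * u l' = 0 := by
  unfold depClass
  simp

/-- Four rows in general position. -/
theorem exists_indep (Q : ι → Finset ι) (hQ : ∀ l, (Q l).card ≤ 4) (hself : ∀ l, l ∈ Q l) (hsymm : ∀ l l', l' ∈ Q l → l ∈ Q l')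
    (hc : 13 ≤ Fintype.card ι) : ∃ J : Finset ι, J.card = 4 ∧ ∀ l ∈ J, ∀ l' ∈ J, l ≠ l' → l' ∉ Q l := by
  obtain ⟨l₁⟩ : Nonempty ι := Fintype.card_pos_iff.1 (by omega)
  obtain ⟨l₂, h2⟩ := exists_notMem_finset (Q l₁) (by
    have := hQ l₁
    omega)
  obtain ⟨l₃, h3⟩ := exists_notMem_finset (Q l₁ ∪ Q l₂) (by
    have := hQ l₁
    have := hQ l₂
    have := Finset.card_union_le (Q l₁) (Q l₂)
    omega)
  obtain ⟨l₄, h4⟩ := exists_notMem_finset (Q l₁ ∪ Q l₂ ∪ Q l₃) (by
    have := hQ l₁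
    have := hQ l₂
    have := hQ l₃
    have := Finset.card_union_le (Q l₁) (Q l₂)
    have := Finset.card_union_le (Q l₁ ∪ Q l₂) (Q l₃)
    omega)
  simp only [Finset.mem_union, not_or] at h3 h4
  have ne : ∀ {a b : ι}, b ∉ Q a → a ≠ b := by
    rintro a b h rfl
    exact h (hself a)
  have n12 := ne h2
  have n13 := ne h3.1
  have n23 := ne h3.2
  have n14 := ne h4.1.1
  have n24 := ne h4.1.2
  have n34 := ne h4.2
  refine ⟨{l₁, l₂, l₃, l₄}, ?_, ?_⟩
  · rw [Finset.card_insert_of_notMem (by simp [n12, n13, n14]), Finset.card_insert_of_notMem (by simp [n23, n24]),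
      Finset.card_insert_of_notMem (by simp [n34]), Finset.card_singleton]
  · have s : ∀ {a b : ι}, b ∉ Q a → a ∉ Q b := fun h h' => h (hsymm _ _ h')
    intro l hl l' hl' hne
    simp only [Finset.mem_insert, Finset.mem_singleton] at hl hl'
    rcases hl with rfl | rfl | rfl | rfl <;> rcases hl' with rfl | rfl | rfl | rfl <;>
      first
        | exact absurd rfl hne
        | exact h2
        | exact h3.1
        | exact h3.2
        | exact h4.1.1
        | exact h4.1.2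
        | exact h4.2
        | exact s h2
        | exact s h3.1
        | exact s h3.2
        | exact s h4.1.1
        | exact s h4.1.2
        | exact s h4.2

section Main

variable (hf : IsUnitaryForm σ f) (hstd : ∀ x y, f x y = ∑ i, x i * σ (y i))
  {K : Subgroup (GL ι F)} (hKiso : K ≤ isoGroup hf)

include hf hstd in
/-- The central involution is not monomial. -/
theorem s_not_mono (h2 : (2 : F) ≠ 0) {u u' : ι → F} {t s : GL ι F} (hP : IsPlane f K u u' t) (hnz : ∀ l, u l ≠ 0 ∨ u' l ≠ 0)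
    {S J : Finset ι} (hS5 : 5 ≤ S.card) (hJ4 : J.card = 4) (hJS : ∀ l ∈ J, l ∉ S)
    (hJ : ∀ l ∈ J, ∀ l' ∈ J, l ≠ l' → u l * u' l' - u' l * u l' ≠ 0)
    (hs2 : s * s = 1) (hs1 : s ≠ 1) (hst : s * t = t * s)
    (hsi : ∀ x y, f ((s : Matrix ι ι F) *ᵥ x) ((s : Matrix ι ι F) *ᵥ y) = f x y)
    (hfixR : ∀ z, (∀ i ∈ S, z i = 0) → f z u = 0 → f z u' = 0 → (s : Matrix ι ι F) *ᵥ z = z)
    {τ : F} (hτ : τ = 1 ∨ τ = -1)
    (hfixS : ∀ y, (∀ i, i ∉ S → y i = 0) → f y u = 0 → f y u' = 0 → (s : Matrix ι ι F) *ᵥ y = τ • y) :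
    s ∉ UMono σ := by
  rintro ⟨π, c, hs, hcu, -⟩
  have hinv := hf.involutive
  have hse : ∀ j, (s : Matrix ι ι F) *ᵥ (ee j : ι → F) = (c j : F) • (ee (π j) : ι → F) := by
    intro j
    rw [hs, mono_ee]
  have hsa : ∀ (x : ι → F) i, ((s : Matrix ι ι F) *ᵥ x) i = (c (π⁻¹ i) : F) * x (π⁻¹ i) := by
    intro x i
    rw [hs, mono_apply]
  have hss : ∀ x : ι → F, (s : Matrix ι ι F) *ᵥ ((s : Matrix ι ι F) *ᵥ x) = x := by
    intro x
    rw [← gl_mulVec_mul, hs2]
    simp
  have hσ : ∀ {A : F}, A ≠ 0 → σ A ≠ 0 := fun {A} hA => by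
    rw [Ne, map_eq_zero]
    exact hA
  -- (2) on the complement of `S`, `s` is trivial
  have hR : ∀ j, j ∉ S → π j = j ∧ (c j : F) = 1 := by
    intro j hj
    have hc2 : 1 < ((J.erase j).erase (π j)).card := by
      have h3 := Finset.pred_card_le_card_erase (s := J) (a := j)
      have h4 := Finset.pred_card_le_card_erase (s := J.erase j) (a := π j)
      omega
    obtain ⟨l, hl, l', hl', hll⟩ := Finset.one_lt_card.1 hc2
    have hlπ := Finset.ne_of_mem_erase hl
    have hl'π := Finset.ne_of_mem_erase hl'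
    have hl1 := Finset.mem_of_mem_erase hl
    have hl'1 := Finset.mem_of_mem_erase hl'
    have hlj := Finset.ne_of_mem_erase hl1
    have hl'j := Finset.ne_of_mem_erase hl'1
    have hlJ := Finset.mem_of_mem_erase hl1
    have hl'J := Finset.mem_of_mem_erase hl'1
    obtain ⟨α, β, h3, h4⟩ := solve2 (σ (u j)) (σ (u l)) (σ (u l')) (σ (u' j)) (σ (u' l)) (σ (u' l')) (by
      have := hσ (hJ l hlJ l' hl'J hll)
      rw [map_sub, map_mul, map_mul] at this
      intro h0
      apply this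
      linear_combination h0)
    set z : ι → F := ee j + α • ee l + β • ee l' with hz
    have hz_u : f z u = 0 := by
      simp only [hz, hf.add_left, hf.smul_left, f_single_left hstd]
      exact h3
    have hz_u' : f z u' = 0 := by
      simp only [hz, hf.add_left, hf.smul_left, f_single_left hstd]
      exact h4
    have hzS : ∀ i ∈ S, z i = 0 := by
      intro i hi
      have h5 : i ≠ j := fun h => hj (h ▸ hi)
      have h6 : i ≠ l := fun h => hJS l hlJ (h ▸ hi)
      have h7 : i ≠ l' := fun h => hJS l' hl'J (h ▸ hi)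
      simp [hz, ee, Pi.single_eq_of_ne h5, Pi.single_eq_of_ne h6, Pi.single_eq_of_ne h7]
    have hzfix := hfixR z hzS hz_u hz_u'
    have hzj : z j = 1 := by
      simp [hz, ee, Pi.single_eq_of_ne hlj.symm, Pi.single_eq_of_ne hl'j.symm]
    have h5 := hsi (ee j) z
    rw [hzfix, hse, hf.smul_left, f_single_left hstd, f_single_left hstd, hzj, map_one] at h5
    have hπz : z (π j) ≠ 0 := by
      intro h0
      rw [h0, map_zero, mul_zero] at h5
      exact zero_ne_one h5
    have hπj : π j = j := by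
      by_contra h6
      apply hπz
      simp [hz, ee, Pi.single_eq_of_ne h6, Pi.single_eq_of_ne hlπ.symm, Pi.single_eq_of_ne hl'π.symm]
    refine ⟨hπj, ?_⟩
    rw [hπj, hzj, map_one, mul_one] at h5
    exact h5
  have hRi : ∀ i, i ∉ S → π⁻¹ i = i := by
    intro i hi
    have := (hR i hi).1
    rw [Equiv.Perm.inv_eq_iff_eq]
    exact this.symm
  have hRy : ∀ (x : ι → F) i, i ∉ S → ((s : Matrix ι ι F) *ᵥ x) i = x i := by
    intro x i hi
    rw [hsa, hRi i hi, (hR i hi).2, one_mul]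
  -- (4) the `-1`-eigenvectors
  have h4 : ∀ y : ι → F, (s : Matrix ι ι F) *ᵥ y = -y → (∀ i, i ∉ S → y i = 0) ∧ f y u = 0 ∧ f y u' = 0 := by
    intro y hy
    have hvan : ∀ y : ι → F, (s : Matrix ι ι F) *ᵥ y = -y → ∀ i, i ∉ S → y i = 0 := by
      intro y hy i hi
      have h3 := hRy y i hi
      rw [hy, Pi.neg_apply] at h3
      have : 2 * y i = 0 := by linear_combination -h3
      exact (mul_eq_zero.1 this).resolve_left h2
    have hty : (s : Matrix ι ι F) *ᵥ ((t : Matrix ι ι F) *ᵥ y) = - ((t : Matrix ι ι F) *ᵥ y) := by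
      rw [← gl_mulVec_mul, hst, gl_mulVec_mul, hy, Matrix.mulVec_neg]
    have h3 := hvan _ hty
    have h5 := hvan y hy
    refine ⟨h5, ?_⟩
    have hcomb : ∀ i, i ∉ S → f y u * u i + f y u' * u' i = 0 := by
      intro i hi
      have h6 := h3 i hi
      rw [hP.act] at h6
      simp only [Pi.sub_apply, Pi.smul_apply, smul_eq_mul, h5 i hi, zero_sub] at h6
      have : 2 * (f y u * u i + f y u' * u' i) = 0 := by linear_combination -h6
      exact (mul_eq_zero.1 this).resolve_left h2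
    obtain ⟨l, hl, l', hl', hll⟩ := Finset.one_lt_card.1 (show 1 < J.card by omega)
    have hD := hJ l hl l' hl' hll
    have e1 := hcomb l (hJS l hl)
    have e2 := hcomb l' (hJS l' hl')
    constructor
    · have : f y u * (u l * u' l' - u' l * u l') = 0 := by linear_combination u' l' * e1 - u' l * e2
      exact (mul_eq_zero.1 this).resolve_right hD
    · have : f y u' * (u l * u' l' - u' l * u l') = 0 := by linear_combination u l * e2 - u l' * e1
      exact (mul_eq_zero.1 this).resolve_right hD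
  -- (3) a moved coordinate
  obtain ⟨j₀, hj₀S, hj₀⟩ : ∃ j ∈ S, (s : Matrix ι ι F) *ᵥ (ee j : ι → F) ≠ ee j := by
    by_contra hno
    push Not at hno
    apply hs1
    apply gl_ext
    intro x
    simp only [Units.val_one, Matrix.one_mulVec]
    have hall : ∀ j, π j = j ∧ (c j : F) = 1 := by
      intro j
      by_cases hj : j ∈ S
      · have h3 := hno j hj
        rw [hse] at h3
        have h5 := congrFun h3 (π j)
        simp only [ee, Pi.smul_apply, smul_eq_mul, Pi.single_eq_same, mul_one] at h5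
        by_cases h6 : π j = j
        · refine ⟨h6, ?_⟩
          rw [h6] at h5
          simpa using h5
        · rw [Pi.single_eq_of_ne h6] at h5
          exact absurd h5 (c j).ne_zero
      · exact hR j hj
    ext i
    have hi : π⁻¹ i = i := by
      rw [Equiv.Perm.inv_eq_iff_eq]
      exact (hall i).1.symm
    rw [hsa, hi, (hall i).2, one_mul]
  -- (5) `τ = -1`
  have hτ' : τ = -1 := by
    rcases hτ with h3 | h3
    · exfalso
      set f₀ : ι → F := ee j₀ - (s : Matrix ι ι F) *ᵥ ee j₀ with hf₀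
      have h5 : (s : Matrix ι ι F) *ᵥ f₀ = -f₀ := by
        rw [hf₀, Matrix.mulVec_sub, hss]
        abel
      obtain ⟨h6, h7, h8⟩ := h4 f₀ h5
      have h9 := hfixS f₀ h6 h7 h8
      rw [h3, one_smul, h5] at h9
      have h10 : f₀ = 0 := by
        ext i
        have := congrFun h9 i
        rw [Pi.neg_apply] at this
        have h11 : 2 * f₀ i = 0 := by linear_combination -this
        exact (mul_eq_zero.1 h11).resolve_left h2
      apply hj₀
      rw [hf₀] at h10
      exact (sub_eq_zero.1 h10).symm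
    · exact h3
  -- (6) three orbits
  have hππ : ∀ j, π (π j) = j := by
    intro j
    have h3 := hss (ee j)
    rw [hse, Matrix.mulVec_smul, hse, smul_smul] at h3
    have h5 := congrFun h3 j
    simp only [ee, Pi.smul_apply, smul_eq_mul, Pi.single_eq_same] at h5
    by_contra h6
    rw [Pi.single_eq_of_ne (Ne.symm h6), mul_zero] at h5
    exact zero_ne_one h5
  have hπS : ∀ j, j ∈ S → π j ∈ S := by
    intro j hj
    by_contra h3
    have h5 := (hR _ h3).1
    rw [hππ] at h5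
    rw [← h5] at h3
    exact h3 hj
  obtain ⟨j₁, hj₁⟩ : S.Nonempty := Finset.card_pos.1 (by omega)
  have c₁ : ∃ j₂, j₂ ∈ S ∧ j₂ ≠ j₁ ∧ j₂ ≠ π j₁ := by
    have h3 : 0 < ((S.erase j₁).erase (π j₁)).card := by
      have h5 := Finset.pred_card_le_card_erase (s := S) (a := j₁)
      have h6 := Finset.pred_card_le_card_erase (s := S.erase j₁) (a := π j₁)
      omega
    obtain ⟨j, hj⟩ := Finset.card_pos.1 h3
    exact ⟨j, Finset.mem_of_mem_erase (Finset.mem_of_mem_erase hj), Finset.ne_of_mem_erase (Finset.mem_of_mem_erase hj),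
      Finset.ne_of_mem_erase hj⟩
  obtain ⟨j₂, hj₂, n21, n21'⟩ := c₁
  have c₂ : ∃ j₃, j₃ ∈ S ∧ j₃ ≠ j₁ ∧ j₃ ≠ π j₁ ∧ j₃ ≠ j₂ ∧ j₃ ≠ π j₂ := by
    obtain ⟨j, hj⟩ := exists_notMem_of_card_lt S ({j₁, π j₁, j₂, π j₂} : Finset ι) (by
      have := Finset.card_le_four (a := j₁) (b := π j₁) (c := j₂) (d := π j₂)
      omega)
    obtain ⟨hj1, hj2⟩ := hj
    simp only [Finset.mem_insert, Finset.mem_singleton, not_or] at hj2
    exact ⟨j, hj1, hj2.1, hj2.2.1, hj2.2.2.1, hj2.2.2.2⟩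
  obtain ⟨j₃, hj₃, n31, n31', n32, n32'⟩ := c₂
  -- the fixed vectors
  set w : ι → (ι → F) := fun j => (ee j : ι → F) + (s : Matrix ι ι F) *ᵥ (ee j : ι → F) with hw
  have hwfix : ∀ j, (s : Matrix ι ι F) *ᵥ w j = w j := by
    intro j
    simp only [hw]
    rw [Matrix.mulVec_add, hss, add_comm]
  have hwS : ∀ j, j ∈ S → ∀ i, i ∉ S → w j i = 0 := by
    intro j hj i hi
    simp only [hw, Pi.add_apply]
    rw [hse]
    have h3 : i ≠ j := fun h => hi (h ▸ hj)
    have h5 : i ≠ π j := fun h => hi (h ▸ hπS j hj)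
    simp [ee, Pi.single_eq_of_ne h3, Pi.single_eq_of_ne h5]
  have hwoff : ∀ j i, i ≠ j → i ≠ π j → w j i = 0 := by
    intro j i h3 h5
    simp only [hw, Pi.add_apply]
    rw [hse]
    simp [ee, Pi.single_eq_of_ne h3, Pi.single_eq_of_ne h5]
  have hwon : ∀ j, w j j ≠ 0 := by
    intro j h0
    simp only [hw, Pi.add_apply] at h0
    rw [hse] at h0
    by_cases h3 : π j = j
    · rw [h3] at h0
      simp only [ee, Pi.single_eq_same, Pi.smul_apply, smul_eq_mul, mul_one] at h0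
      -- `e j` is an eigenvector
      have h5 : (s : Matrix ι ι F) *ᵥ (ee j : ι → F) = - (ee j : ι → F) := by
        rw [hse, h3]
        have : (c j : F) = -1 := by linear_combination h0
        rw [this]
        simp
      obtain ⟨-, h6, h7⟩ := h4 _ h5
      rw [f_single_left hstd, map_eq_zero] at h6 h7
      rcases hnz j with h8 | h8
      · exact h8 h6
      · exact h8 h7
    · simp only [ee, Pi.single_eq_same, Pi.smul_apply, smul_eq_mul, Pi.single_eq_of_ne (Ne.symm h3), mul_zero, add_zero] at h0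
      exact one_ne_zero h0
  obtain ⟨ξ₁, ξ₂, ξ₃, hξ, e1, e2⟩ := exists_ker (f (w j₁) u) (f (w j₂) u) (f (w j₃) u) (f (w j₁) u') (f (w j₂) u') (f (w j₃) u')
  set y : ι → F := ξ₁ • w j₁ + ξ₂ • w j₂ + ξ₃ • w j₃ with hy
  have hyS : ∀ i, i ∉ S → y i = 0 := by
    intro i hi
    simp [hy, hwS j₁ hj₁ i hi, hwS j₂ hj₂ i hi, hwS j₃ hj₃ i hi]
  have hyu : f y u = 0 := by
    simp only [hy, hf.add_left, hf.smul_left]
    exact e1
  have hyu' : f y u' = 0 := by
    simp only [hy, hf.add_left, hf.smul_left]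
    exact e2
  have hsy : (s : Matrix ι ι F) *ᵥ y = y := by
    simp only [hy, Matrix.mulVec_add, Matrix.mulVec_smul, hwfix]
  have hsy' := hfixS y hyS hyu hyu'
  rw [hsy, hτ'] at hsy'
  have hy0 : y = 0 := by
    ext i
    have := congrFun hsy' i
    simp only [Pi.smul_apply, smul_eq_mul] at this
    have h11 : 2 * y i = 0 := by linear_combination this
    exact (mul_eq_zero.1 h11).resolve_left h2
  -- the coordinates
  have hne : ∀ {a b : ι}, b ≠ a → b ≠ π a → a ≠ b ∧ a ≠ π b := by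
    intro a b h3 h5
    refine ⟨h3.symm, fun h => h5 ?_⟩
    rw [h, hππ]
  have c1 := congrFun hy0 j₁
  have c2 := congrFun hy0 j₂
  have c3 := congrFun hy0 j₃
  obtain ⟨a1, a2⟩ := hne n21 n21'
  obtain ⟨a3, a4⟩ := hne n31 n31'
  obtain ⟨a5, a6⟩ := hne n32 n32'
  simp only [hy, Pi.add_apply, Pi.smul_apply, smul_eq_mul, Pi.zero_apply] at c1 c2 c3
  rw [hwoff j₂ j₁ a1 a2, hwoff j₃ j₁ a3 a4] at c1
  rw [hwoff j₁ j₂ n21 n21', hwoff j₃ j₂ a5 a6] at c2
  rw [hwoff j₁ j₃ n31 n31', hwoff j₂ j₃ n32 n32'] at c3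
  simp only [mul_zero, add_zero, zero_add] at c1 c2 c3
  rcases hξ with h3 | h3 | h3
  · exact h3 ((mul_eq_zero.1 c1).resolve_right (hwon j₁))
  · exact h3 ((mul_eq_zero.1 c2).resolve_right (hwon j₂))
  · exact h3 ((mul_eq_zero.1 c3).resolve_right (hwon j₃))

theorem pow_eig (g : GL ι F) (y : ι → F) (τ₀ : F) (h : (g : Matrix ι ι F) *ᵥ y = τ₀ • y) (k : ℕ) :
    ((g ^ k : GL ι F) : Matrix ι ι F) *ᵥ y = τ₀ ^ k • y := by
  induction k with
  | zero => simp
  | succ k ih =>
    rw [pow_succ, gl_mulVec_mul, h, Matrix.mulVec_smul, ih, smul_smul, pow_succ]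
    congr 1
    ring

include hf hstd hKiso in
/-- **Case G**: rows in general position give a normalising reflection. -/
theorem case_G (hc : 13 ≤ Fintype.card ι) (h2 : (2 : F) ≠ 0) (NF : NormFacts σ) (hM : UMono σ ≤ K)
    (hmin : ∀ L : Subgroup (GL ι F), UMono σ ≤ L → L ≤ K → L = UMono σ ∨ L = K) {u u' : ι → F} {t : GL ι F}
    (hP : IsPlane f K u u' t) (hnz : ∀ l, u l ≠ 0 ∨ u' l ≠ 0)
    (hcl : ∀ l, (depClass u u' l).card ≤ 4) :
    ∃ (a₀ : ι) (ε : Fˣ), (ε : F) * σ ε = 1 ∧ ε ≠ 1 ∧ ∀ k ∈ K, dAt a₀ ε * k * (dAt a₀ ε)⁻¹ ∈ K := by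
  obtain ⟨J, hJ4, hJ'⟩ := exists_indep (depClass u u') hcl
    (fun l => mem_depClass.2 (by ring)) (fun l l' h => by
      rw [mem_depClass] at h ⊢
      linear_combination -h) hc
  have hJ : ∀ l ∈ J, ∀ l' ∈ J, l ≠ l' → u l * u' l' - u' l * u l' ≠ 0 := by
    intro l hl l' hl' hll h0
    exact hJ' l hl l' hl' hll (mem_depClass.2 h0)
  obtain ⟨δ, hδ, hδ1, hδ2⟩ := NF.three 1 one_ne_zero (map_one σ) 1 (-1)
  have hδ0 : δ ≠ 0 := by
    rintro rfl
    simp at hδ
  have hδsq : δ ^ 2 ≠ 1 := by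
    intro h0
    have : (δ - 1) * (δ + 1) = 0 := by linear_combination h0
    rcases mul_eq_zero.1 this with h3 | h3
    · exact hδ1 (sub_eq_zero.1 h3)
    · exact hδ2 (by linear_combination h3)
  obtain ⟨n₀, hn6, hn8, hne, hδn⟩ : ∃ n₀ : ℕ, 6 ≤ n₀ ∧ n₀ ≤ 8 ∧ Even n₀ ∧ δ ^ n₀ ≠ 1 := by
    by_cases h6 : δ ^ 6 = 1
    · refine ⟨8, by omega, by omega, by decide, fun h8 => hδsq ?_⟩
      have : δ ^ 8 = δ ^ 6 * δ ^ 2 := by ring
      rw [this, h6, one_mul] at h8
      exact h8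
    · exact ⟨6, by omega, by omega, by decide, h6⟩
  obtain ⟨S, hS, hSc⟩ := Finset.exists_subset_card_eq (s := Jᶜ) (n := n₀) (by
    rw [Finset.card_compl]
    omega)
  have hJS : ∀ l ∈ J, l ∉ S := fun l hl h => (Finset.mem_compl.1 (hS h)) hl
  -- the involution `e`
  set e : GL ι F := dS S (-1) with he
  have he_app : ∀ (x : ι → F) i, ((e : Matrix ι ι F) *ᵥ x) i = (if i ∈ S then -1 else 1) * x i := by
    intro x i
    rw [he, dS_apply]
    simp
  have heM : e ∈ UMono σ := by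
    refine (dS_um S neg_one_un).mem ?_
    rw [dS_det, hSc]
    simp [hne.neg_one_pow]
  have heK : e ∈ K := hM heM
  have hee : e * e = 1 := by
    apply gl_ext
    intro z
    ext i
    rw [gl_mulVec_mul, he_app, he_app]
    simp only [Units.val_one, Matrix.one_mulVec]
    split_ifs <;> ring
  have htt : t * t = 1 := hP.sq hf
  have hei : e⁻¹ = e := (eq_inv_of_mul_eq_one_left hee).symm
  have hti : t⁻¹ = t := (eq_inv_of_mul_eq_one_left htt).symm
  set g : GL ι F := e * t with hg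
  have hgK : g ∈ K := K.mul_mem heK hP.mem
  have hginv : g⁻¹ = t * e := by
    rw [hg, mul_inv_rev, hei, hti]
  -- the eigenvectors of `g`
  have hgZ : ∀ z : ι → F, (∀ i ∈ S, z i = 0) → f z u = 0 → f z u' = 0 → (g : Matrix ι ι F) *ᵥ z = (1 : F) • z := by
    intro z h3 h4 h5
    rw [hg, gl_mulVec_mul, hP.fix h4 h5, one_smul]
    ext i
    rw [he_app]
    by_cases hi : i ∈ S
    · simp [hi, h3 i hi]
    · simp [hi]
  have hgY : ∀ y : ι → F, (∀ i, i ∉ S → y i = 0) → f y u = 0 → f y u' = 0 → (g : Matrix ι ι F) *ᵥ y = (-1 : F) • y := by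
    intro y h3 h4 h5
    rw [hg, gl_mulVec_mul, hP.fix h4 h5]
    ext i
    rw [he_app]
    by_cases hi : i ∈ S
    · simp [hi]
    · simp [hi, h3 i hi]
  -- the order of `g` is even
  have hm0 : 0 < orderOf g := orderOf_pos g
  have hgm : g ^ orderOf g = 1 := pow_orderOf_eq_one g
  have hmeven : Even (orderOf g) := by
    by_contra hodd
    obtain ⟨a₁, ha₁, a₂, ha₂, a₃, ha₃, h12, h13, h23⟩ := Finset.two_lt_card.1 (show 2 < S.card by omega)
    obtain ⟨ξ₁, ξ₂, ξ₃, hξ, e1, e2⟩ := exists_ker (σ (u a₁)) (σ (u a₂)) (σ (u a₃)) (σ (u' a₁)) (σ (u' a₂)) (σ (u' a₃))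
    set y : ι → F := ξ₁ • (ee a₁ : ι → F) + ξ₂ • (ee a₂ : ι → F) + ξ₃ • (ee a₃ : ι → F) with hy
    have hyS : ∀ i, i ∉ S → y i = 0 := by
      intro i hi
      have h3 : i ≠ a₁ := fun h => hi (h ▸ ha₁)
      have h4 : i ≠ a₂ := fun h => hi (h ▸ ha₂)
      have h5 : i ≠ a₃ := fun h => hi (h ▸ ha₃)
      simp [hy, ee, Pi.single_eq_of_ne h3, Pi.single_eq_of_ne h4, Pi.single_eq_of_ne h5]
    have hyu : f y u = 0 := by
      simp only [hy, hf.add_left, hf.smul_left, f_single_left hstd]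
      exact e1
    have hyu' : f y u' = 0 := by
      simp only [hy, hf.add_left, hf.smul_left, f_single_left hstd]
      exact e2
    have h3 := pow_eig g y (-1) (hgY y hyS hyu hyu') (orderOf g)
    rw [hgm, (Nat.not_even_iff_odd.1 hodd).neg_one_pow] at h3
    simp only [Units.val_one, Matrix.one_mulVec] at h3
    have hy0 : y = 0 := by
      ext i
      have := congrFun h3 i
      simp only [Pi.smul_apply, smul_eq_mul] at this
      have h11 : 2 * y i = 0 := by linear_combination this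
      exact (mul_eq_zero.1 h11).resolve_left h2
    have c1 := congrFun hy0 a₁
    have c2 := congrFun hy0 a₂
    have c3 := congrFun hy0 a₃
    simp only [hy, ee, Pi.add_apply, Pi.smul_apply, smul_eq_mul, Pi.zero_apply, Pi.single_eq_same, Pi.single_eq_of_ne h12,
      Pi.single_eq_of_ne h13, Pi.single_eq_of_ne h23, Pi.single_eq_of_ne h12.symm, Pi.single_eq_of_ne h13.symm,
      Pi.single_eq_of_ne h23.symm, mul_zero, add_zero, zero_add, mul_one] at c1 c2 c3
    rcases hξ with h4 | h4 | h4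
    · exact h4 c1
    · exact h4 c2
    · exact h4 c3
  obtain ⟨r, hr⟩ := hmeven
  have hr0 : r ≠ 0 := by
    rintro rfl
    omega
  set s : GL ι F := g ^ r with hs
  have hs2 : s * s = 1 := by
    rw [hs, ← pow_add, ← hr, hgm]
  have hs1 : s ≠ 1 := pow_ne_one_of_lt_orderOf hr0 (by omega)
  have hsK : s ∈ K := K.pow_mem hgK r
  have hsinv : s⁻¹ = s := (eq_inv_of_mul_eq_one_left hs2).symm
  have hcomm : ∀ a : GL ι F, a * g * a⁻¹ = g⁻¹ → a * s = s * a := by
    intro a ha
    have h3 : a * s * a⁻¹ = s := by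
      rw [hs, ← conj_pow, ha, inv_pow, ← hs, hsinv]
    calc a * s = (a * s * a⁻¹) * a := by group
      _ = s * a := by rw [h3]
  have hes : e * s = s * e := by
    apply hcomm
    rw [hginv, hei, hg]
    calc e * (e * t) * e = (e * e) * t * e := by group
      _ = t * e := by rw [hee, one_mul]
  have hts : t * s = s * t := by
    apply hcomm
    rw [hginv, hti, hg]
    calc t * (e * t) * t = t * e * (t * t) := by group
      _ = t * e := by rw [htt, mul_one]
  have hτ : ((-1 : F) ^ r = 1) ∨ ((-1 : F) ^ r = -1) := neg_one_pow_eq_or F r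
  have hsn : s ∉ UMono σ := by
    refine s_not_mono hf hstd h2 hP hnz (S := S) (J := J) (by omega) hJ4 hJS hJ hs2 hs1 hts.symm
      ((mem_isoGroup hf).1 (hKiso hsK)).1 (fun z h3 h4 h5 => ?_) hτ (fun y h3 h4 h5 => ?_)
    · have := pow_eig g z 1 (hgZ z h3 h4 h5) r
      rwa [one_pow, one_smul] at this
    · exact pow_eig g y (-1) (hgY y h3 h4 h5) r
  -- the diagonal element commutes
  let d : Fˣ := Units.mk0 δ hδ0
  have hd : (d : F) * σ d = 1 := hδ
  have hdv : (d : F) = δ := rfl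
  have hdform : ∀ x : ι → F, ((dS S d : GL ι F) : Matrix ι ι F) *ᵥ x = (2⁻¹ * (1 + δ)) • x + (2⁻¹ * (1 - δ)) • ((e : Matrix ι ι F) *ᵥ x) := by
    intro x
    ext i
    rw [dS_apply, Pi.add_apply, Pi.smul_apply, Pi.smul_apply, he_app, hdv]
    simp only [smul_eq_mul]
    split_ifs
    · field_simp
      ring
    · field_simp
      ring
  have hdc : dS S d * s = s * dS S d := by
    apply gl_ext
    intro z
    rw [gl_mulVec_mul, gl_mulVec_mul, hdform, hdform, Matrix.mulVec_add, Matrix.mulVec_smul, Matrix.mulVec_smul,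
      ← gl_mulVec_mul e s, ← gl_mulVec_mul s e, hes]
  have hnorm := normalize_of_commute hM hmin (dS_um S hd) hsK hsn hdc
  -- the reflection
  obtain ⟨a₀⟩ : Nonempty ι := Fintype.card_pos_iff.1 (by omega)
  have hε : (((d ^ n₀ : Fˣ)) : F) * σ ((d ^ n₀ : Fˣ) : F) = 1 := by
    rw [Units.val_pow_eq_pow_val, map_pow, ← mul_pow, hd, one_pow]
  have hε1 : d ^ n₀ ≠ 1 := by
    intro h0
    apply hδn
    have := congrArg Units.val h0
    rwa [Units.val_pow_eq_pow_val, hdv, Units.val_one] at this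
  refine ⟨a₀, d ^ n₀, hε, hε1, fun k hk => ?_⟩
  have hh : dAt a₀ (d ^ n₀) * (dS S d)⁻¹ ∈ UMono σ := by
    refine ((dAt_um a₀ hε).mul (dS_um S hd).inv).mem ?_
    have h3 : ((dS S d : GL ι F) : Matrix ι ι F).det * (((dS S d)⁻¹ : GL ι F) : Matrix ι ι F).det = 1 := by
      rw [← Matrix.det_mul, ← Units.val_mul, mul_inv_cancel]
      simp
    rw [Units.val_mul, Matrix.det_mul, dAt_det]
    rw [dS_det, hSc, ← Units.val_pow_eq_pow_val] at h3
    exact h3
  have e3 : dAt a₀ (d ^ n₀) * k * (dAt a₀ (d ^ n₀))⁻¹ =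
      (dAt a₀ (d ^ n₀) * (dS S d)⁻¹) * (dS S d * k * (dS S d)⁻¹) * (dAt a₀ (d ^ n₀) * (dS S d)⁻¹)⁻¹ := by
    group
  rw [e3]
  exact K.mul_mem (K.mul_mem (hM hh) (hnorm k hk)) (K.inv_mem (hM hh))

end Main

end Cfsg.Agent.Lib.Classical.C2U.Dihedral
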