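/-
The unitary monomial group: every larger group of isometries contains all unitary transvections.
-/
import Mathlib
import Cfsg.Agent.Lib.Classical.C2U.Dihedral

set_option autoImplicit false
set_option linter.unusedSectionVars false

namespace Cfsg.Agent.Lib.Classical.C2U.Odd

open scoped Matrix MatrixGroups
open Module Cfsg Cfsg.Geo
open Cfsg.Agent.Lib.Classical.Geo.Basic
open Cfsg.Agent.Lib.Classical.Geo.UForm Cfsg.Agent.Lib.Classical.Geo.UPair Cfsg.Agent.Lib.Classical.Geo.UParab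
open Cfsg.Agent.Lib.Classical.Sub.Rat Cfsg.Agent.Lib.Classical.Sub.UElts
open Cfsg.Agent.Lib.Classical.C2.Base Cfsg.Agent.Lib.Classical.C2.Finish Cfsg.Agent.Lib.Classical.C2U.Base
open Cfsg.Agent.Lib.Classical.C2U.Pipe Cfsg.Agent.Lib.Classical.C2U.Grow Cfsg.Agent.Lib.Classical.C2U.Even
open Cfsg.Agent.Lib.Classical.C2U.ModeA Cfsg.Agent.Lib.Classical.C2U.Plane Cfsg.Agent.Lib.Classical.C2U.Dihedral

variable {ι : Type} [Fintype ι] [DecidableEq ι] {F : Type*} [Field F] [Fintype F]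
  {σ : F ≃+* F} {f : (ι → F) → (ι → F) → F}

/-- Five distinct elements of a finite set. -/
theorem five_in {T : Finset ι} (h : 5 ≤ T.card) :
    ∃ l₁ l₂ l₃ l₄ l₅ : ι, l₁ ≠ l₂ ∧ l₁ ≠ l₃ ∧ l₁ ≠ l₄ ∧ l₁ ≠ l₅ ∧ l₂ ≠ l₃ ∧ l₂ ≠ l₄ ∧ l₂ ≠ l₅ ∧ l₃ ≠ l₄ ∧ l₃ ≠ l₅ ∧ l₄ ≠ l₅ ∧
      l₁ ∈ T ∧ l₂ ∈ T ∧ l₃ ∈ T ∧ l₄ ∈ T ∧ l₅ ∈ T := by
  obtain ⟨T', hT, hcT⟩ := Finset.exists_subset_card_eq h
  have hl : T'.toList.length = 5 := by rw [Finset.length_toList, hcT]
  have hnd := T'.nodup_toList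
  have hm : ∀ x ∈ T'.toList, x ∈ T := fun x hx => hT (Finset.mem_toList.1 hx)
  match hL : T'.toList, hl, hnd, hm with
  | [a, b, c, d, e], _, hnd, hm =>
    simp only [List.nodup_cons, List.mem_cons, List.not_mem_nil, or_false, not_or, List.nodup_nil, and_true,
      not_false_eq_true] at hnd
    refine ⟨a, b, c, d, e, hnd.1.1, hnd.1.2.1, hnd.1.2.2.1, hnd.1.2.2.2, hnd.2.1.1, hnd.2.1.2.1, hnd.2.1.2.2, hnd.2.2.1.1,
      hnd.2.2.1.2, hnd.2.2.2, hm _ (by simp), hm _ (by simp), hm _ (by simp), hm _ (by simp), hm _ (by simp)⟩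

section Main

variable (hf : IsUnitaryForm σ f) (hstd : ∀ x y, f x y = ∑ i, x i * σ (y i)) (NF : NormFacts σ) (Pg : PigeonFact σ)
  {K : Subgroup (GL ι F)} (hKiso : K ≤ isoGroup hf) (hM : UMono σ ≤ K)

include hf hstd NF Pg hKiso hM in
/-- **Odd characteristic**, for a minimal overgroup. -/
theorem odd_case (hc : 13 ≤ Fintype.card ι) (h2 : (2 : F) ≠ 0)
    (hmin : ∀ L : Subgroup (GL ι F), UMono σ ≤ L → L ≤ K → L = UMono σ ∨ L = K) {x : GL ι F} (hx : x ∈ K) (hxm : x ∉ UMono σ)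
    {z : ι → F} (hzz : f z z = 0) : z ∈ vecs hf K := by
  obtain ⟨x', hx', j, hs⟩ := exists_three hf hstd hKiso hM hc hx hxm
  set u : ι → F := (x' : Matrix ι ι F) *ᵥ (ee j : ι → F) with hu
  have mainS : ∀ (u' : ι → F) (t : GL ι F), IsPlane f K u u' t → (∀ l, u l ≠ 0 ∨ u' l ≠ 0) → z ∈ vecs hf K := by
    intro u' t hP hnz
    by_cases hcl : ∀ l, (depClass u u' l).card ≤ 4
    · obtain ⟨a₀, ε, hε, hε1, hN⟩ := case_G hf hstd hKiso hc h2 NF hM hmin hP hnz hcl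
      exact modeA hf hstd NF Pg hKiso hM hc hε hε1 hN hx' hs hzz
    · push Not at hcl
      obtain ⟨l₀, hl₀⟩ := hcl
      obtain ⟨l₁, l₂, l₃, l₄, l₅, h12, h13, h14, h15, h23, h24, h25, h34, h35, h45, m1, m2, m3, m4, m5⟩ :=
        five_in (T := depClass u u' l₀) (by omega)
      have hQ5 : ∀ l, (l = l₁ ∨ l = l₂ ∨ l = l₃ ∨ l = l₄ ∨ l = l₅) → u l * u' l₀ = u' l * u l₀ ∧ (u l ≠ 0 ∨ u' l ≠ 0) := by
        intro l hl
        refine ⟨?_, hnz l⟩
        have : l ∈ depClass u u' l₀ := by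
          rcases hl with rfl | rfl | rfl | rfl | rfl <;> assumption
        have h3 := mem_depClass.1 this
        linear_combination -h3
      by_cases hν : u l₀ * σ (u l₀) + u' l₀ * σ (u' l₀) = 0
      · have hB : u' l₀ ≠ 0 := by
          intro h0
          rw [h0, zero_mul, add_zero] at hν
          rcases hnz l₀ with h3 | h3
          · rcases mul_eq_zero.1 hν with h4 | h4
            · exact h3 h4
            · exact h3 ((map_eq_zero σ).1 h4)
          · exact h3 h0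
        refine case_S_zero hf hstd NF hKiso hM hc h2 hP hν hB h12 h13 h14 h23 h34 (fun l hl => hQ5 l ?_) hzz
        rcases hl with h | h | h | h <;> simp [h]
      · exact case_S_pos hf hstd NF Pg hKiso hM hc h2 hP hν h12 h13 h14 h15 h23 h24 h25 h34 h35 h45 hQ5 hzz
  by_cases hd : ∃ l₀, u l₀ = 0
  · obtain ⟨l₀, hl₀⟩ := hd
    obtain ⟨j', hj'⟩ := exists_row_ne x' l₀
    have hjj : j ≠ j' := by
      rintro rfl
      exact hj' hl₀
    obtain ⟨t, hP⟩ := exists_plane hf hstd hKiso hM hx' hjj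
    set u' : ι → F := (x' : Matrix ι ι F) *ᵥ (ee j' : ι → F) with hu'
    by_cases hz : ∃ l, u l = 0 ∧ u' l = 0
    · obtain ⟨l, h3, h4⟩ := hz
      have ht := plane_not_mono hf hstd (σ := σ) hP h2 hs hl₀ hj'
      have hN := case_Z hf hstd hP hM hmin ht h3 h4
      refine modeA hf hstd NF Pg hKiso hM hc neg_one_un ?_ hN hx' hs hzz
      intro h0
      have := congrArg Units.val h0
      simp only [Units.val_neg, Units.val_one] at this
      apply h2
      linear_combination -this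
    · push Not at hz
      refine mainS u' t hP fun l => ?_
      by_cases h3 : u l = 0
      · exact Or.inr (hz l h3)
      · exact Or.inl h3
  · push Not at hd
    obtain ⟨j', hj'⟩ := exists_notMem_finset ({j} : Finset ι) (by simp; omega)
    have hjj : j ≠ j' := fun h => hj' (by simp [h])
    obtain ⟨t, hP⟩ := exists_plane hf hstd hKiso hM hx' hjj
    exact mainS _ t hP fun l => Or.inl (hd l)

include hf hstd NF Pg in
/-- **The monomial group**: every larger group of isometries contains all unitary transvections. -/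
theorem monomial_vecs (hc : 13 ≤ Fintype.card ι) {K₀ : Subgroup (GL ι F)} (hK₀ : K₀ ≤ isoGroup hf) (hM₀ : UMono σ ≤ K₀)
    {x : GL ι F} (hx : x ∈ K₀) (hxm : x ∉ UMono σ) {z : ι → F} (hzz : f z z = 0) : z ∈ vecs hf K₀ := by
  by_cases h2 : (2 : F) = 0
  · exact even_case hf hstd NF Pg hK₀ hM₀ h2 hc hx hxm hzz
  -- a minimal overgroup
  let 𝒮 : Set (Subgroup (GL ι F)) := {L | UMono σ < L ∧ L ≤ K₀}
  have hne : 𝒮.Nonempty := ⟨K₀, lt_of_le_of_ne hM₀ (fun h => hxm (h ▸ hx)), le_rfl⟩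
  obtain ⟨K, hK⟩ := (Set.toFinite 𝒮).exists_minimal hne
  have hK1 : UMono σ < K := hK.1.1
  have hK2 : K ≤ K₀ := hK.1.2
  have hmin : ∀ L : Subgroup (GL ι F), UMono σ ≤ L → L ≤ K → L = UMono σ ∨ L = K := by
    intro L h3 h4
    by_cases h5 : L = UMono σ
    · exact Or.inl h5
    · right
      have h6 : L ∈ 𝒮 := ⟨lt_of_le_of_ne h3 (Ne.symm h5), h4.trans hK2⟩
      exact le_antisymm h4 (hK.2 h6 h4)
  obtain ⟨x₁, hx₁, hx₁m⟩ := SetLike.exists_of_lt hK1
  have hz := odd_case hf hstd NF Pg (hK2.trans hK₀) hK1.le hc h2 hmin hx₁ hx₁m hzz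
  exact ⟨hz.1, fun c hc' => hK2 (hz.2 c hc')⟩

end Main

end Cfsg.Agent.Lib.Classical.C2U.Odd
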