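/-
The stabiliser of a decomposition into coordinate blocks, in the unitary group: its elements and the frame of the pipeline.
-/
import Mathlib
import Cfsg.Agent.Lib.Classical.C2U.Odd
import Cfsg.Agent.Lib.Classical.C2.Blocks
import Cfsg.Agent.Lib.Classical.Geo.UNondeg

set_option autoImplicit false
set_option linter.unusedSectionVars false

namespace Cfsg.Agent.Lib.Classical.C2U.BlockEl

open scoped Matrix MatrixGroups
open Module Cfsg Cfsg.Geo
open Cfsg.Agent.Lib.Classical.Geo.Basic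
open Cfsg.Agent.Lib.Classical.Geo.UForm Cfsg.Agent.Lib.Classical.Geo.UPair Cfsg.Agent.Lib.Classical.Geo.UParab
open Cfsg.Agent.Lib.Classical.Sub.Rat Cfsg.Agent.Lib.Classical.Sub.UElts
open Cfsg.Agent.Lib.Classical.C2.Base Cfsg.Agent.Lib.Classical.C2.Finish Cfsg.Agent.Lib.Classical.C2.Blocks
open Cfsg.Agent.Lib.Classical.C2U.Base Cfsg.Agent.Lib.Classical.C2U.Pipe Cfsg.Agent.Lib.Classical.C2U.Grow
open Cfsg.Agent.Lib.Classical.Geo.UNondeg

variable {τ κ : Type} [Fintype τ] [DecidableEq τ] [Fintype κ] [DecidableEq κ] {F : Type*} [Field F] [Fintype F]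
  {σ : F ≃+* F} {f : (τ × κ → F) → (τ × κ → F) → F}

/-- The overgroup condition. -/
def HasBlocksU (hf : IsUnitaryForm σ f) (K : Subgroup (GL (τ × κ) F)) : Prop :=
  ∀ g ∈ isoGroup hf, (∃ π : Equiv.Perm τ, ∀ l v, InB l v → InB (π l) ((g : Matrix (τ × κ) (τ × κ) F) *ᵥ v)) → g ∈ K

/-- The block as a submodule. -/
def Vb (F : Type*) [Field F] (κ : Type) [Fintype κ] [DecidableEq κ] (l : τ) : Submodule F (τ × κ → F) where
  carrier := {v | InB l v}
  add_mem' {a b} ha hb i hi := by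
    rw [Pi.add_apply, ha i hi, hb i hi, add_zero]
  zero_mem' i _ := rfl
  smul_mem' c a ha i hi := by
    rw [Pi.smul_apply, ha i hi, smul_zero]

theorem mem_Vb {l : τ} {v : τ × κ → F} : v ∈ Vb F κ l ↔ InB l v := Iff.rfl

theorem inB_ee (i : τ × κ) : InB i.1 (ee i : τ × κ → F) := inB_one i

theorem inB_smul {l : τ} {v : τ × κ → F} (h : InB l v) (c : F) : InB l (c • v) := (Vb F κ l).smul_mem c h

theorem inB_add {l : τ} {v w : τ × κ → F} (h : InB l v) (h' : InB l w) : InB l (v + w) := (Vb F κ l).add_mem h h'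

theorem inB_ww {a b : τ × κ} (h : a.1 = b.1) (δ : F) : InB a.1 (ww a b δ) :=
  inB_add (inB_ee a) (inB_smul (h ▸ inB_ee b) δ)

section Main

variable (hf : IsUnitaryForm σ f) (hstd : ∀ x y, f x y = ∑ i, x i * σ (y i))

include hstd

theorem orth_of_inB {l m : τ} (hlm : l ≠ m) {x y : τ × κ → F} (hx : InB l x) (hy : InB m y) : f x y = 0 := by
  rw [hstd]
  refine Finset.sum_eq_zero fun i _ => ?_
  by_cases hi : i.1 = l
  · rw [hy i (by rw [hi]; exact hlm), map_zero, mul_zero]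
  · rw [hx i hi, zero_mul]

theorem f_bp_right {l : τ} {y : τ × κ → F} (hy : InB l y) (a : τ × κ → F) : f a y = f (bp l a) y := by
  rw [hstd, hstd]
  refine Finset.sum_congr rfl fun i _ => ?_
  by_cases hi : i.1 = l
  · rw [bp_apply_same _ hi]
  · rw [hy i hi, map_zero, mul_zero, mul_zero]

theorem nd_Vb (hf : IsUnitaryForm σ f) (l : τ) : Nd f (Vb F κ l) := by
  intro x hx hx0
  obtain ⟨i, hi⟩ := Function.ne_iff.1 hx0
  have hil : i.1 = l := by
    by_contra h
    exact hi (hx i h)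
  refine ⟨ee i, hil ▸ inB_ee i, ?_⟩
  rw [f_single_left hstd]
  intro h0
  exact hi ((map_eq_zero σ).1 h0)

omit hstd

variable {K : Subgroup (GL (τ × κ) F)}

include hf hstd

/-- Heisenberg elements in a block are in the group. -/
theorem block_Hh_mem (hK : HasBlocksU hf K) {l : τ} {z w : τ × κ → F} (hzl : InB l z) (hwl : InB l w) (hz : f z z = 0)
    (h : f w z = 0) {s : F} (hs : s + σ s + f w w = 0) : Hh hf z w s hz h ∈ K := by
  refine hK _ ((mem_isoGroup hf).2 ⟨Hh_iso hf hz h hs, Hh_mem_SL hf hz h⟩) ⟨1, fun m v hv => ?_⟩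
  rw [Hh_mulVec hf hz]
  by_cases hm : m = l
  · subst hm
    exact (Vb F κ m).add_mem ((Vb F κ m).sub_mem ((Vb F κ m).add_mem hv ((Vb F κ m).smul_mem _ hwl)) ((Vb F κ m).smul_mem _ hzl))
      ((Vb F κ m).smul_mem _ hzl)
  · rw [orth_of_inB hstd hm hv hzl, orth_of_inB hstd hm hv hwl]
    simpa using hv

/-- Isotropic vectors in a block are good. -/
theorem block_vecs (hK : HasBlocksU hf K) {l : τ} {u : τ × κ → F} (hu : InB l u) (huu : f u u = 0) : u ∈ vecs hf K := by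
  refine ⟨huu, fun c hc => hK _ (T_mem_isoGroup hf u c huu hc) ⟨1, fun m v hv => ?_⟩⟩
  rw [T_mulVec]
  by_cases hm : m = l
  · subst hm
    exact (Vb F κ m).add_mem hv ((Vb F κ m).smul_mem _ ((Vb F κ m).smul_mem _ hu))
  · rw [orth_of_inB hstd hm hv hu]
    simpa using hv

/-- Block-compatible monomial elements are in the group. -/
theorem mono_block_mem (hK : HasBlocksU hf K) {ρ : Equiv.Perm τ} {π : Equiv.Perm (τ × κ)} (hπ : ∀ i, (π i).1 = ρ i.1) {c : τ × κ → Fˣ}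
    (hc : ∀ i, (c i : F) * σ (c i) = 1) (hd : ((mono π c : GL (τ × κ) F) : Matrix (τ × κ) (τ × κ) F).det = 1) : mono π c ∈ K := by
  refine hK _ ((mem_isoGroup hf).2 ⟨mono_iso hstd π c hc, (mem_specialLinear_iff _).2 hd⟩) ⟨ρ, fun l v hv i hi => ?_⟩
  rw [mono_apply]
  have h1 : (π⁻¹ i).1 ≠ l := by
    intro h
    apply hi
    have h2 := hπ (π⁻¹ i)
    have h3 : π (π⁻¹ i) = i := π.apply_symm_apply i
    rw [h3] at h2
    rw [h2, h]
  rw [hv _ h1, mul_zero]

end Main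

/-- The frame of the block-compatible permutations. -/
theorem block_frame (hk : 2 ≤ Fintype.card κ) :
    Frame (ι := τ × κ) (fun π => ∃ ρ : Equiv.Perm τ, ∀ i, (π i).1 = ρ i.1) (fun a b => a ≠ b ∧ a.1 = b.1)
      (fun a _ j => j.1 ≠ a.1) where
  one := ⟨1, fun _ => rfl⟩
  ne h := h.1
  swap := by
    rintro a b ⟨h1, h2⟩
    refine ⟨1, fun i => ?_⟩
    by_cases h3 : i = a
    · subst h3
      simp [h2]
    · by_cases h4 : i = b
      · subst h4
        simp [h2]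
      · rw [Equiv.swap_apply_of_ne_of_ne h3 h4]
        rfl
  trans := by
    rintro ⟨i, p⟩ ⟨i₂, p'⟩ ⟨i', r⟩ ⟨i'₂, r'⟩ ⟨h1, h2⟩ ⟨h3, h4⟩
    simp only at h2 h4
    subst h2
    subst h4
    have hp : p ≠ p' := fun h => h1 (by rw [h])
    have hr : r ≠ r' := fun h => h3 (by rw [h])
    obtain ⟨θ, h5, h6⟩ := exists_perm_two hp hr
    refine ⟨Equiv.prodCongr (Equiv.swap i i') θ, ⟨Equiv.swap i i', fun _ => rfl⟩, ?_, ?_⟩
    · simp [h5]
    · simp [h6]
  fix := by
    rintro ⟨i, p⟩ ⟨i₂, p'⟩ ⟨m, x⟩ ⟨m', x'⟩ ⟨h1, h2⟩ h3 h4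
    simp only at h2 h3 h4
    subst h2
    refine ⟨Equiv.prodShear (Equiv.swap m m') (fun c => if c = i then 1 else Equiv.swap x x'),
      ⟨Equiv.swap m m', fun _ => rfl⟩, ?_, ?_, ?_⟩
    · simp [Equiv.prodShear, Equiv.swap_apply_of_ne_of_ne h3.symm h4.symm]
    · simp [Equiv.prodShear, Equiv.swap_apply_of_ne_of_ne h3.symm h4.symm]
    · simp [Equiv.prodShear, h3]
  adm a := by
    obtain ⟨q, h1, h2⟩ := exists_other hk a
    exact ⟨q, h2.symm, h1.symm⟩

section T1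

variable (hf : IsUnitaryForm σ f) (hstd : ∀ x y, f x y = ∑ i, x i * σ (y i)) (NF : NormFacts σ) {K : Subgroup (GL (τ × κ) F)}

include hf hstd NF

/-- The pipeline for the blocks. -/
theorem block_T1 (hk : 2 ≤ Fintype.card κ) (hc12 : 12 ≤ Fintype.card (τ × κ)) (hKiso : K ≤ isoGroup hf) (hK : HasBlocksU hf K) {v c : τ × κ → F}
    {s : F} (hY : InY hf K v c s) (hv0 : v ≠ 0) {m : τ} (hvm : ∀ i : τ × κ, i.1 = m → v i = 0) {f₁ : τ × κ} (hf₁ : f₁.1 = m) (hc : c f₁ ≠ 0)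
    {Z : Finset (τ × κ)} (hZ : ∀ i ∈ Z, v i = 0) (hZ4 : 4 ≤ Z.card) {z : τ × κ → F} (hzz : f z z = 0) : z ∈ vecs hf K := by
  obtain ⟨f₂, h2a, h2b⟩ := exists_other hk f₁
  have hc2 : 1 < ((Z.erase f₁).erase f₂).card := by
    have h3 := Finset.pred_card_le_card_erase (s := Z) (a := f₁)
    have h4 := Finset.pred_card_le_card_erase (s := Z.erase f₁) (a := f₂)
    omega
  obtain ⟨f', hf', f'', hf'', hne⟩ := Finset.one_lt_card.1 hc2
  have h5 := Finset.ne_of_mem_erase hf'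
  have h6 := Finset.ne_of_mem_erase hf''
  have h7 := Finset.ne_of_mem_erase (Finset.mem_of_mem_erase hf')
  have h8 := Finset.ne_of_mem_erase (Finset.mem_of_mem_erase hf'')
  have h9 := Finset.mem_of_mem_erase (Finset.mem_of_mem_erase hf')
  have h10 := Finset.mem_of_mem_erase (Finset.mem_of_mem_erase hf'')
  have hFr := block_frame (τ := τ) (κ := κ) hk
  refine pipeline hf hstd NF hFr (fun π c ⟨ρ, hρ⟩ hc' hd => mono_block_mem hf hstd hK hρ hc' hd) hc12 hKiso ?_ hY hv0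
    (f₁ := f₁) (f₂ := f₂) (f' := f') (f'' := f'') h2b.symm h7.symm h8.symm h5.symm hne (hvm _ hf₁) (hvm _ (h2a.trans hf₁))
    (hZ _ h9) (hZ _ h10) hc ⟨h2b.symm, h2a.symm⟩ ?_ hzz
  · rintro a b δ ⟨hab, hab'⟩ hδ j hj hja hjb t
    push Not at hj
    have hw : InB a.1 (ww a b δ) := inB_ww hab' δ
    have hzz' : f (ww a b δ) (ww a b δ) = 0 := ww_iso hf hstd hab hδ
    have hc' : InB a.1 (t • (ee j : τ × κ → F)) := inB_smul (hj ▸ inB_ee j) t
    have h0 : f (t • (ee j : τ × κ → F)) (ww a b δ) = 0 := by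
      rw [hf.smul_left, f_single_left hstd]
      have : ww a b δ j = 0 := by
        simp [ww, ee, Pi.single_eq_of_ne hja, Pi.single_eq_of_ne hjb]
      rw [this, map_zero, mul_zero]
    obtain ⟨s', hs'⟩ := exists_trace hf.ne_refl hf.involutive (- f (t • (ee j : τ × κ → F)) (t • (ee j : τ × κ → F)))
      (by rw [map_neg, sigma_self hf])
    exact ⟨s', hzz', h0, block_Hh_mem hf hstd hK hw hc' hzz' h0 (by linear_combination hs')⟩
  · intro j hj h0
    exact hj (hvm j (h0.trans hf₁))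

end T1

end Cfsg.Agent.Lib.Classical.C2U.BlockEl
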