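/-
The stabiliser of a decomposition into coordinate blocks of dimension at least two, in the unitary group:
every larger group of isometries contains all unitary transvections.
-/
import Mathlib
import Cfsg.Agent.Lib.Classical.C2U.BlockEl

set_option autoImplicit false
set_option linter.unusedSectionVars false

namespace Cfsg.Agent.Lib.Classical.C2U.BlockMain

open scoped Matrix MatrixGroups
open Module Cfsg Cfsg.Geo
open Cfsg.Agent.Lib.Classical.Geo.Basic
open Cfsg.Agent.Lib.Classical.Geo.UForm Cfsg.Agent.Lib.Classical.Geo.UPair Cfsg.Agent.Lib.Classical.Geo.UParab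
open Cfsg.Agent.Lib.Classical.Sub.Rat Cfsg.Agent.Lib.Classical.Sub.UElts
open Cfsg.Agent.Lib.Classical.C2.Base Cfsg.Agent.Lib.Classical.C2.Finish Cfsg.Agent.Lib.Classical.C2.Blocks
open Cfsg.Agent.Lib.Classical.C2U.Base Cfsg.Agent.Lib.Classical.C2U.Pipe Cfsg.Agent.Lib.Classical.C2U.Grow
open Cfsg.Agent.Lib.Classical.Geo.UNondeg Cfsg.Agent.Lib.Classical.C2U.BlockEl

variable {τ κ : Type} [Fintype τ] [DecidableEq τ] [Fintype κ] [DecidableEq κ] {F : Type*} [Field F] [Fintype F]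
  {σ : F ≃+* F} {f : (τ × κ → F) → (τ × κ → F) → F}

/-- The coordinates outside two blocks. -/
def Zoff (τ κ : Type) [Fintype τ] [DecidableEq τ] [Fintype κ] [DecidableEq κ] (l m : τ) : Finset (τ × κ) :=
  Finset.univ.filter fun i => i.1 ≠ l ∧ i.1 ≠ m

theorem mem_Zoff {l m : τ} {i : τ × κ} : i ∈ Zoff τ κ l m ↔ i.1 ≠ l ∧ i.1 ≠ m := by
  simp [Zoff]

theorem card_Zoff (hc : 13 ≤ Fintype.card (τ × κ)) (hk : 2 ≤ Fintype.card κ) {l m r : τ} (hlm : l ≠ m) (h1 : r ≠ l) (h2 : r ≠ m) :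
    4 ≤ (Zoff τ κ l m).card := by
  have e : Zoff τ κ l m = ((Finset.univ.erase l).erase m) ×ˢ Finset.univ := by
    ext i
    simp [Zoff, and_comm]
  rw [e, Finset.card_product, Finset.card_univ]
  have h3 : 2 < Fintype.card τ := by
    have : ({l, m, r} : Finset τ).card = 3 := Finset.card_eq_three.2 ⟨l, m, r, hlm, h1.symm, h2.symm, rfl⟩
    have h4 := Finset.card_le_univ ({l, m, r} : Finset τ)
    omega
  rw [Finset.card_erase_of_mem (by simp [hlm.symm]), Finset.card_erase_of_mem (by simp), Finset.card_univ]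
  rw [Fintype.card_prod] at hc
  obtain ⟨s, hs⟩ : ∃ s, Fintype.card τ = s + 3 := ⟨Fintype.card τ - 3, by omega⟩
  rw [hs] at hc ⊢
  simp only [Nat.add_sub_cancel, show s + 3 - 1 - 1 = s + 1 by omega]
  by_contra hcon
  push Not at hcon
  have h4 : (s + 3) * Fintype.card κ = (s + 1) * Fintype.card κ + 2 * Fintype.card κ := by ring
  have h5 : 5 ≤ Fintype.card κ := by omega
  have h6 : 1 * 5 ≤ (s + 1) * Fintype.card κ := Nat.mul_le_mul (by omega) h5
  omega

section Main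

variable (hf : IsUnitaryForm σ f) (hstd : ∀ x y, f x y = ∑ i, x i * σ (y i)) (NF : NormFacts σ) {K : Subgroup (GL (τ × κ) F)}

include hf in
/-- The Heisenberg element from two good vectors. -/
theorem heis_of_vecs {a v : τ × κ → F} (ha : a ∈ vecs hf K) (hav : a + v ∈ vecs hf K) (hva : f v a = 0) (hvv : f v v = 0) {α : F}
    (hα : α + σ α = 0) : InY hf K v (α • a) α := by
  obtain ⟨haa, hTa⟩ := ha
  obtain ⟨h1, hT⟩ := hav
  have hav' : f a v = 0 := swap_zero hf hva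
  have h0 : f (α • a) v = 0 := by rw [hf.smul_left, hav', mul_zero]
  have hσα : σ α = -α := by linear_combination hα
  refine ⟨hvv, h0, ?_⟩
  have e : Hh hf v (α • a) α hvv h0 = T hf (α • (a + v)) (a + v) (by rw [hf.smul_left, h1, mul_zero]) *
      T hf ((-α) • a) a (by rw [hf.smul_left, haa, mul_zero]) := by
    apply gl_ext
    intro z
    rw [gl_mulVec_mul, T_mulVec, T_mulVec, Hh_mulVec hf hvv]
    simp only [hf.add_left, add_right hf, hf.smul_left, smul_right hf, haa, hav', hσα]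
    ext i
    simp only [Pi.add_apply, Pi.sub_apply, Pi.smul_apply, smul_eq_mul]
    ring
  rw [e]
  exact K.mul_mem (hT α hα) (hTa (-α) (by rw [map_neg]; linear_combination -hα))

include hf hstd NF in
/-- An isotropic vector of a block not orthogonal to a vector. -/
theorem exists_y {a : τ × κ → F} {p q : τ × κ} (hap : a p ≠ 0) :
    ∃ δ : F, δ * σ δ = -1 ∧ f a (ww p q δ) ≠ 0 := by
  by_cases hzb : a q = 0
  · obtain ⟨x, hx, -, -⟩ := NF.three (-1) (by simp) (by simp) 0 0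
    refine ⟨x, hx, ?_⟩
    rw [f_ww hstd a p q x hf, hzb, zero_mul, add_zero]
    exact hap
  · obtain ⟨x, hx, hx1, -⟩ := NF.three (-1) (by simp) (by simp) (σ (- a p / a q)) 0
    refine ⟨x, hx, fun h0 => hx1 ?_⟩
    rw [f_ww hstd a p q x hf] at h0
    have h1 : σ x = - a p / a q := by
      field_simp
      linear_combination h0
    rw [← h1, hf.involutive]

include hf hstd NF in
/-- **Three blocks.** -/
theorem three_blocks (hk : 2 ≤ Fintype.card κ) (hc : 13 ≤ Fintype.card (τ × κ)) (hKiso : K ≤ isoGroup hf) (hK : HasBlocksU hf K) {a : τ × κ → F}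
    (ha : a ∈ vecs hf K) {p₁ p₂ p₃ : τ × κ} (h12 : p₁.1 ≠ p₂.1) (h13 : p₁.1 ≠ p₃.1) (h23 : p₂.1 ≠ p₃.1) (a1 : a p₁ ≠ 0) (a2 : a p₂ ≠ 0)
    (a3 : a p₃ ≠ 0) {z : τ × κ → F} (hzz : f z z = 0) : z ∈ vecs hf K := by
  have hinv := hf.involutive
  obtain ⟨q₁, hq₁, hq₁'⟩ := exists_other hk p₁
  obtain ⟨q₂, hq₂, hq₂'⟩ := exists_other hk p₂
  obtain ⟨δ₁, hδ₁, hb₁⟩ := exists_y hf hstd NF (q := q₁) a1
  obtain ⟨δ₂, hδ₂, hb₂⟩ := exists_y hf hstd NF (q := q₂) a2
  set y₁ := ww p₁ q₁ δ₁ with hy₁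
  set y₂ := ww p₂ q₂ δ₂ with hy₂
  have hy₁B : InB p₁.1 y₁ := inB_ww hq₁.symm δ₁
  have hy₂B : InB p₂.1 y₂ := inB_ww hq₂.symm δ₂
  have hy₁y₁ : f y₁ y₁ = 0 := ww_iso hf hstd hq₁'.symm hδ₁
  have hy₂y₂ : f y₂ y₂ = 0 := ww_iso hf hstd hq₂'.symm hδ₂
  have hy₁y₂ : f y₁ y₂ = 0 := orth_of_inB hstd h12 hy₁B hy₂B
  have hy₂y₁ : f y₂ y₁ = 0 := swap_zero hf hy₁y₂
  set b₁ := f a y₁ with hb₁d
  set b₂ := f a y₂ with hb₂d
  have hσ : ∀ {A : F}, A ≠ 0 → σ A ≠ 0 := fun {A} hA => by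
    rw [Ne, map_eq_zero]
    exact hA
  have hN₁ : b₁ * σ b₁ ≠ 0 := mul_ne_zero hb₁ (hσ hb₁)
  have hN₂ : b₂ * σ b₂ ≠ 0 := mul_ne_zero hb₂ (hσ hb₂)
  obtain ⟨α₀, hα0, hα⟩ := exists_tr0 hf.ne_refl hf.involutive
  have hσα : σ α₀ = -α₀ := by linear_combination hα
  obtain ⟨β', hβ', hβ'e⟩ : ∃ β' : F, β' + σ β' = 0 ∧ β' * (b₂ * σ b₂) = - (α₀ * (b₁ * σ b₁)) := by
    refine ⟨-α₀ * (b₁ * σ b₁) * (b₂ * σ b₂)⁻¹, ?_, ?_⟩
    · simp only [map_mul, map_neg, map_inv₀, hinv, hσα]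
      ring
    · rw [mul_assoc, inv_mul_cancel₀ hN₂, mul_one]
      ring
  have hT₁ := (block_vecs hf hstd hK hy₁B hy₁y₁).2 α₀ hα
  have hT₂ := (block_vecs hf hstd hK hy₂B hy₂y₂).2 β' hβ'
  set g : GL (τ × κ) F := T hf (α₀ • y₁) y₁ (by rw [hf.smul_left, hy₁y₁, mul_zero]) * T hf (β' • y₂) y₂ (by rw [hf.smul_left, hy₂y₂, mul_zero]) with hg
  have hgK : g ∈ K := K.mul_mem hT₁ hT₂
  set v : τ × κ → F := (b₂ * β') • y₂ + (b₁ * α₀) • y₁ with hv
  have hgv : (g : Matrix (τ × κ) (τ × κ) F) *ᵥ a = a + v := by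
    rw [hg, gl_mulVec_mul, T_mulVec, T_mulVec]
    simp only [hf.add_left, hf.smul_left, hy₂y₁, mul_zero, add_zero]
    rw [hv, ← hb₁d, ← hb₂d]
    ext i
    simp only [Pi.add_apply, Pi.smul_apply, smul_eq_mul]
    ring
  have hav : a + v ∈ vecs hf K := by
    rw [← hgv]
    exact mulVec_mem_vecs hf ha hgK ((mem_isoGroup hf).1 (hKiso hgK)).1
  have hfa : ∀ y, f y a = σ (f a y) := fun y => hf.herm _ _
  have hva : f v a = 0 := by
    simp only [hv, hf.add_left, hf.smul_left, hfa, ← hb₁d, ← hb₂d]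
    linear_combination hβ'e
  have hvv : f v v = 0 := by
    simp only [hv, hf.add_left, add_right hf, hf.smul_left, smul_right hf, hy₁y₁, hy₂y₂, hy₁y₂, hy₂y₁]
    ring
  have hv0 : v ≠ 0 := by
    intro h0
    have h1 := congrFun h0 p₁
    simp only [hv, Pi.add_apply, Pi.smul_apply, smul_eq_mul, Pi.zero_apply, hy₂B p₁ h12, mul_zero, zero_add] at h1
    have h2 : y₁ p₁ = 1 := by
      simp [hy₁, ww, ee, Pi.single_eq_of_ne hq₁'.symm]
    rw [h2, mul_one] at h1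
    exact (mul_ne_zero hb₁ hα0) h1
  have hY := heis_of_vecs hf ha hav hva hvv hα
  have hZ : ∀ i ∈ Zoff τ κ p₁.1 p₂.1, v i = 0 := by
    intro i hi
    obtain ⟨h1, h2⟩ := mem_Zoff.1 hi
    simp [hv, hy₁B i h1, hy₂B i h2]
  refine block_T1 hf hstd NF hk (by omega) hKiso hK hY hv0 (m := p₃.1) ?_ (f₁ := p₃) rfl ?_ hZ
    (card_Zoff hc hk h12 h13.symm h23.symm) hzz
  · intro i hi
    exact hZ i (mem_Zoff.2 ⟨hi ▸ h13.symm, hi ▸ h23.symm⟩)
  · simp only [Pi.smul_apply, smul_eq_mul]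
    exact mul_ne_zero hα0 a3

include hf hstd in
/-- An isotropic vector of a block orthogonal to a vector. -/
theorem exists_perp_iso (hk : 3 ≤ Fintype.card κ) {a : τ × κ → F} {p : τ × κ} (hap : a p ≠ 0) :
    ∃ v, InB p.1 v ∧ v ≠ 0 ∧ f v v = 0 ∧ f v a = 0 := by
  obtain ⟨l, x₁⟩ := p
  obtain ⟨x₂, h2⟩ := exists_notMem_finset ({x₁} : Finset κ) (by simp; omega)
  obtain ⟨x₃, h3⟩ := exists_notMem_finset ({x₁, x₂} : Finset κ) (by
    have := Finset.card_le_two (a := x₁) (b := x₂)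
    omega)
  simp only [Finset.mem_singleton, Finset.mem_insert, not_or] at h2 h3
  set A₁ := a (l, x₁) with hA₁
  have hσA : σ A₁ ≠ 0 := by
    rw [Ne, map_eq_zero]
    exact hap
  have h2' : ((l, x₂) : τ × κ) ≠ (l, x₁) := fun h => h2 (congrArg Prod.snd h)
  have h3' : ((l, x₃) : τ × κ) ≠ (l, x₁) := fun h => h3.1 (congrArg Prod.snd h)
  have h3'' : ((l, x₃) : τ × κ) ≠ (l, x₂) := fun h => h3.2 (congrArg Prod.snd h)
  let S : Submodule F (τ × κ → F) := Vb F κ l ⊓ LinearMap.ker (fLin hf a)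
  have hmemS : ∀ y, y ∈ S ↔ InB l y ∧ f y a = 0 := fun y => Iff.rfl
  set w₁ : τ × κ → F := (ee (l, x₂) : τ × κ → F) - (σ (a (l, x₂)) / σ A₁) • (ee (l, x₁) : τ × κ → F) with hw₁
  set w₂ : τ × κ → F := (ee (l, x₃) : τ × κ → F) - (σ (a (l, x₃)) / σ A₁) • (ee (l, x₁) : τ × κ → F) with hw₂
  have hB : ∀ x : κ, InB l (ee (l, x) : τ × κ → F) := fun x => inB_ee (l, x)
  have hw₁S : w₁ ∈ S := by
    refine (hmemS _).2 ⟨(Vb F κ l).sub_mem (hB _) ((Vb F κ l).smul_mem _ (hB _)), ?_⟩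
    rw [hw₁, sub_left hf, hf.smul_left, f_single_left hstd, f_single_left hstd, ← hA₁]
    field_simp
    ring
  have hw₂S : w₂ ∈ S := by
    refine (hmemS _).2 ⟨(Vb F κ l).sub_mem (hB _) ((Vb F κ l).smul_mem _ (hB _)), ?_⟩
    rw [hw₂, sub_left hf, hf.smul_left, f_single_left hstd, f_single_left hstd, ← hA₁]
    field_simp
    ring
  have hw₁0 : w₁ ≠ 0 := by
    intro h0
    have := congrFun h0 (l, x₂)
    simp [hw₁, ee, Pi.single_eq_of_ne h2'] at this
  by_cases h11 : f w₁ w₁ = 0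
  · exact ⟨w₁, ((hmemS _).1 hw₁S).1, hw₁0, h11, ((hmemS _).1 hw₁S).2⟩
  set u₂ : τ × κ → F := w₂ - (f w₂ w₁ / f w₁ w₁) • w₁ with hu₂
  have hu₂S : u₂ ∈ S := S.sub_mem hw₂S (S.smul_mem _ hw₁S)
  have hu₂0 : u₂ ≠ 0 := by
    intro h0
    have := congrFun h0 (l, x₃)
    simp [hu₂, hw₁, hw₂, ee, Pi.single_eq_of_ne h3', Pi.single_eq_of_ne h3''] at this
  have hu₂w : f u₂ w₁ = 0 := by
    rw [hu₂, sub_left hf, hf.smul_left]
    field_simp
    ring
  obtain ⟨v, hv, hv0, hvv⟩ := iso_of_orth hf hw₁S hu₂S hw₁0 hu₂0 hu₂w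
  exact ⟨v, ((hmemS _).1 hv).1, hv0, hvv, ((hmemS _).1 hv).2⟩

include hf hstd NF in
/-- **Two blocks.** -/
theorem two_blocks (hk : 2 ≤ Fintype.card κ) (hc : 13 ≤ Fintype.card (τ × κ))
    (hT : Fintype.card κ = 2 → ∀ b : F, ∃ β : F, β ≠ 0 ∧ β + σ β = 0 ∧ β ≠ b) (hKiso : K ≤ isoGroup hf) (hK : HasBlocksU hf K) {a : τ × κ → F}
    (ha : a ∈ vecs hf K) {p₁ p₂ : τ × κ} (h12 : p₁.1 ≠ p₂.1) (a1 : a p₁ ≠ 0) (a2 : a p₂ ≠ 0) {r : τ} (hr1 : r ≠ p₁.1) (hr2 : r ≠ p₂.1)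
    (hvan : ∀ i : τ × κ, i.1 ≠ p₁.1 → i.1 ≠ p₂.1 → a i = 0) {z : τ × κ → F} (hzz : f z z = 0) : z ∈ vecs hf K := by
  have hinv := hf.involutive
  set l := p₁.1 with hl
  set m := p₂.1 with hm
  set N := f (bp l a) (bp l a) with hN
  have hNσ : σ N = N := sigma_self hf _
  obtain ⟨α₀, hα0, hα⟩ := exists_tr0 hf.ne_refl hf.involutive
  have hσα : σ α₀ = -α₀ := by linear_combination hα
  -- the block swap
  let π : Equiv.Perm (τ × κ) := Equiv.prodCongr (Equiv.swap m r) 1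
  have hπ : ∀ i : τ × κ, (π i).1 = Equiv.swap m r i.1 := fun i => rfl
  have hπi : ∀ i : τ × κ, π⁻¹ i = π i := by
    intro i
    rw [Equiv.Perm.inv_eq_iff_eq]
    ext <;> simp [π]
  set j₀ : τ × κ := (r, p₂.2) with hj₀
  have haj₀ : a j₀ = 0 := hvan _ hr1 hr2
  obtain ⟨c, hc₁, hcu, hcd⟩ := exists_detFix (F := F) (σ := σ) π j₀ (fun _ => 1) (by simp) rfl
  have hs₀K : mono π c ∈ K := mono_block_mem hf hstd hK hπ hcu hcd
  set s₀ : GL (τ × κ) F := mono π c with hs₀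
  have hs₀i := ((mem_isoGroup hf).1 (hKiso hs₀K)).1
  set b₀ : τ × κ → F := (s₀ : Matrix (τ × κ) (τ × κ) F) *ᵥ a with hb₀
  have hb₀v : b₀ ∈ vecs hf K := mulVec_mem_vecs hf ha hs₀K hs₀i
  have hb₀a : ∀ i, b₀ i = a (π i) := by
    intro i
    rw [hb₀, hs₀, mono_apply, hπi]
    by_cases hi : π i = j₀
    · rw [hi, haj₀, mul_zero]
    · rw [hc₁ _ hi]
      simp
  have hb₀l : ∀ i : τ × κ, i.1 ≠ m → i.1 ≠ r → b₀ i = a i := by
    intro i h1 h2
    rw [hb₀a]
    congr 1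
    ext
    · exact Equiv.swap_apply_of_ne_of_ne h1 h2
    · rfl
  have hb₀m : ∀ i : τ × κ, i.1 = m → b₀ i = 0 := by
    intro i h1
    rw [hb₀a]
    apply hvan
    · rw [hπ, h1, Equiv.swap_apply_left]
      exact hr1
    · rw [hπ, h1, Equiv.swap_apply_left]
      exact hr2
  have hb₀r : b₀ j₀ = a p₂ := by
    rw [hb₀a]
    congr 1
    ext
    · change Equiv.swap m r r = p₂.1
      rw [Equiv.swap_apply_right]
    · rfl
  have hlm : l ≠ m := h12
  have hj₀l : j₀.1 ≠ l := hr1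
  have hj₀m : j₀.1 ≠ m := hr2
  -- the product with `a`
  have hb₀aN : f b₀ a = N := by
    rw [hN, hstd, hstd]
    refine Finset.sum_congr rfl fun i _ => ?_
    by_cases h1 : i.1 = l
    · rw [bp_apply_same _ h1, hb₀l i (h1 ▸ hlm) (h1 ▸ hr1.symm)]
    · rw [bp_apply_ne _ h1]
      simp only [zero_mul]
      by_cases h2 : i.1 = m
      · rw [hb₀m i h2, zero_mul]
      · rw [hvan i h1 h2, map_zero, mul_zero]
  by_cases hN0 : N = 0
  · -- growth, isotropic case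
    obtain ⟨q, hq, hq'⟩ := exists_other hk p₁
    obtain ⟨δ, hδ, hb₁⟩ := exists_y hf hstd NF (q := q) a1
    set y := ww p₁ q δ with hy
    have hyB : InB l y := inB_ww hq.symm δ
    have hyy : f y y = 0 := ww_iso hf hstd hq'.symm hδ
    set b₁ := f a y with hb₁d
    have hT₀ := (block_vecs hf hstd hK hyB hyy).2 α₀ hα
    set T₀ := T hf (α₀ • y) y (by rw [hf.smul_left, hyy, mul_zero]) with hT₀d
    have hb₀y : f b₀ y = b₁ := by
      rw [hb₁d, hstd, hstd]
      refine Finset.sum_congr rfl fun i _ => ?_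
      by_cases h1 : i.1 = l
      · rw [hb₀l i (h1 ▸ hlm) (h1 ▸ hr1.symm)]
      · rw [hyB i h1, map_zero, mul_zero, mul_zero]
    set b : τ × κ → F := b₀ + (b₁ * α₀) • y with hb
    have hbv : b ∈ vecs hf K := by
      have := mulVec_mem_vecs hf hb₀v hT₀ ((mem_isoGroup hf).1 (hKiso hT₀)).1
      rw [T_mulVec, hb₀y, smul_smul] at this
      exact this
    have hya : f y a = σ b₁ := hf.herm _ _
    have hba : f b a = α₀ * (b₁ * σ b₁) := by
      rw [hb, hf.add_left, hf.smul_left, hb₀aN, hN0, hya]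
      ring
    have hσ₁ : σ b₁ ≠ 0 := by
      rw [Ne, map_eq_zero]
      exact hb₁
    have hba0 : f b a ≠ 0 := by
      rw [hba]
      exact mul_ne_zero hα0 (mul_ne_zero hb₁ hσ₁)
    set e := f b a with he
    have haT := ha.2 α₀ hα
    have ha'' : b + (e * α₀) • a ∈ vecs hf K := by
      have := mulVec_mem_vecs hf hbv haT ((mem_isoGroup hf).1 (hKiso haT)).1
      rw [T_mulVec, smul_smul, ← he] at this
      exact this
    set a'' := b + (e * α₀) • a with ha''d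
    have hyp : y p₁ = 1 := by
      simp [hy, ww, ee, Pi.single_eq_of_ne hq'.symm]
    have hyq : y q = δ := by
      simp [hy, ww, ee, Pi.single_eq_of_ne hq']
    have hym : y p₂ = 0 := hyB _ h12.symm
    have hyj : y j₀ = 0 := hyB _ hj₀l
    have c2 : a'' p₂ ≠ 0 := by
      simp only [ha''d, hb, Pi.add_apply, Pi.smul_apply, smul_eq_mul, hym, hb₀m p₂ rfl, mul_zero, add_zero, zero_add]
      exact mul_ne_zero (mul_ne_zero hba0 hα0) a2
    have c3 : a'' j₀ ≠ 0 := by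
      simp only [ha''d, hb, Pi.add_apply, Pi.smul_apply, smul_eq_mul, hyj, haj₀, mul_zero, add_zero, hb₀r]
      exact a2
    obtain ⟨i, hil, hi⟩ : ∃ i : τ × κ, i.1 = l ∧ a'' i ≠ 0 := by
      by_contra hcon
      push Not at hcon
      have c1 := hcon p₁ rfl
      have cq := hcon q hq
      simp only [ha''d, hb, Pi.add_apply, Pi.smul_apply, smul_eq_mul, hyp, hyq, hb₀l p₁ hlm hr1.symm,
        hb₀l q (hq ▸ hlm) (hq ▸ hr1.symm), mul_one] at c1 cq
      have hb₁e : b₁ = a p₁ + a q * σ δ := f_ww hstd a p₁ q δ hf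
      have h3 : (1 + e * α₀) * b₁ = 0 := by
        rw [hb₁e] at c1 cq ⊢
        linear_combination c1 + σ δ * cq - (a p₁ + a q * σ δ) * α₀ * hδ
      rcases mul_eq_zero.1 h3 with h4 | h4
      · have : b₁ * α₀ = 0 := by linear_combination c1 - a p₁ * h4
        rcases mul_eq_zero.1 this with h5 | h5
        · exact hb₁ h5
        · exact hα0 h5
      · exact hb₁ h4
    exact three_blocks hf hstd NF hk hc hKiso hK ha'' (p₁ := i) (p₂ := p₂) (p₃ := j₀) (by rw [hil]; exact hlm) (by rw [hil]; exact hj₀l.symm) hj₀m.symm hi c2 c3 hzz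
  · by_cases hk3 : 3 ≤ Fintype.card κ
    · -- a direct Heisenberg element
      obtain ⟨v, hvB, hv0, hvv, hva⟩ := exists_perp_iso hf hstd hk3 (p := p₁) a1
      have hav : f a v = 0 := swap_zero hf hva
      set w : τ × κ → F := (-N⁻¹) • bp l a with hw
      have hwB : InB l w := inB_smul (bp_inB l a) _
      have hbv : f (bp l a) v = 0 := by
        rw [← f_bp_right hstd hvB a]
        exact hav
      have h0 : f w v = 0 := by
        rw [hw, hf.smul_left, hbv, mul_zero]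
      have hww : f w w = (N⁻¹ * N⁻¹) * N := by
        rw [hw, hf.smul_left, smul_right hf, ← hN, map_neg, map_inv₀, hNσ]
        ring
      obtain ⟨s, hs⟩ := exists_trace hf.ne_refl hf.involutive (- f w w) (by rw [map_neg, sigma_self hf])
      have hgK := block_Hh_mem hf hstd hK hvB hwB hvv h0 (s := s) (by linear_combination hs)
      have haw : f a w = -1 := by
        rw [hw, smul_right hf, map_neg, map_inv₀, hNσ, f_bp_right hstd (bp_inB l a) a, ← hN]
        field_simp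
      have hgv : ((Hh hf v w s hvv h0 : GL (τ × κ) F) : Matrix (τ × κ) (τ × κ) F) *ᵥ a = a + v := by
        rw [Hh_mulVec hf hvv, hav, haw]
        simp
      have hav' : a + v ∈ vecs hf K := by
        rw [← hgv]
        exact mulVec_mem_vecs hf ha hgK ((mem_isoGroup hf).1 (hKiso hgK)).1
      have hY := heis_of_vecs hf ha hav' hva hvv hα
      refine block_T1 hf hstd NF hk (by omega) hKiso hK hY hv0 (m := m) ?_ (f₁ := p₂) rfl ?_ (Z := Zoff τ κ l m) ?_
        (card_Zoff hc hk hlm hr1 hr2) hzz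
      · intro i hi
        exact hvB i (hi ▸ hlm.symm)
      · simp only [Pi.smul_apply, smul_eq_mul]
        exact mul_ne_zero hα0 a2
      · intro i hi
        exact hvB i (mem_Zoff.1 hi).1
    · -- growth, two-dimensional blocks
      obtain ⟨β, hβ0, hβ, hβb⟩ := hT (by omega) (-N⁻¹)
      have haT := ha.2 β hβ
      have ha'' : b₀ + (N * β) • a ∈ vecs hf K := by
        have := mulVec_mem_vecs hf hb₀v haT ((mem_isoGroup hf).1 (hKiso haT)).1
        rw [T_mulVec, smul_smul, hb₀aN] at this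
        exact this
      set a'' := b₀ + (N * β) • a with ha''d
      have hNβ : 1 + N * β ≠ 0 := by
        intro h0
        apply hβb
        field_simp
        linear_combination h0
      have c1 : a'' p₁ ≠ 0 := by
        simp only [ha''d, Pi.add_apply, Pi.smul_apply, smul_eq_mul, hb₀l p₁ hlm hr1.symm]
        have : a p₁ + N * β * a p₁ = (1 + N * β) * a p₁ := by ring
        rw [this]
        exact mul_ne_zero hNβ a1
      have c2 : a'' p₂ ≠ 0 := by
        simp only [ha''d, Pi.add_apply, Pi.smul_apply, smul_eq_mul, hb₀m p₂ rfl, zero_add]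
        exact mul_ne_zero (mul_ne_zero hN0 hβ0) a2
      have c3 : a'' j₀ ≠ 0 := by
        simp only [ha''d, Pi.add_apply, Pi.smul_apply, smul_eq_mul, hb₀r, haj₀, mul_zero, add_zero]
        exact a2
      exact three_blocks hf hstd NF hk hc hKiso hK ha'' (p₁ := p₁) (p₂ := p₂) (p₃ := j₀) hlm hj₀l.symm hj₀m.symm c1 c2 c3 hzz

include hf hstd NF in
/-- **The starting vector**. -/
theorem exists_good_vec (hk : 2 ≤ Fintype.card κ) (hKiso : K ≤ isoGroup hf) (hK : HasBlocksU hf K) {x : GL (τ × κ) F} (hx : x ∈ K)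
    (hxs : ¬ ∃ π : Equiv.Perm τ, ∀ l v, InB l v → InB (π l) ((x : Matrix (τ × κ) (τ × κ) F) *ᵥ v)) :
    ∃ a ∈ vecs hf K, ∃ p p' : τ × κ, p.1 ≠ p'.1 ∧ a p ≠ 0 ∧ a p' ≠ 0 := by
  haveI : Nonempty κ := Fintype.card_pos_iff.1 (by omega)
  obtain ⟨l₀, u, hu, p, p', hpp, h1, h2⟩ := exists_start hxs
  by_contra hcon
  push Not at hcon
  have hxi := ((mem_isoGroup hf).1 (hKiso hx)).1
  have hsingle : ∀ w, InB l₀ w → f w w = 0 → ∀ i j : τ × κ, ((x : Matrix (τ × κ) (τ × κ) F) *ᵥ w) i ≠ 0 →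
      ((x : Matrix (τ × κ) (τ × κ) F) *ᵥ w) j ≠ 0 → i.1 = j.1 := by
    intro w hw hww i j hi hj
    by_contra hij
    exact hj (hcon _ (mulVec_mem_vecs hf (block_vecs hf hstd hK hw hww) hx hxi) i j hij hi)
  have hoverlap : ∀ {A B : τ × κ → F}, f A B ≠ 0 → ∃ i, A i ≠ 0 ∧ B i ≠ 0 := by
    intro A B h
    rw [hstd] at h
    obtain ⟨i, -, hi⟩ := Finset.exists_ne_zero_of_sum_ne_zero h
    refine ⟨i, left_ne_zero_of_mul hi, ?_⟩
    intro h0
    rw [h0, map_zero, mul_zero] at hi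
    exact hi rfl
  obtain ⟨v₀⟩ := ‹Nonempty κ›
  obtain ⟨q, hq, hq'⟩ := exists_other hk ((l₀, v₀) : τ × κ)
  obtain ⟨δ₀, hδ₀, -, -⟩ := NF.three (-1) (by simp) (by simp) 0 0
  set w₀ := ww ((l₀, v₀) : τ × κ) q δ₀ with hw₀
  have hw₀B : InB l₀ w₀ := inB_ww hq.symm δ₀
  have hw₀w₀ : f w₀ w₀ = 0 := ww_iso hf hstd hq'.symm hδ₀
  have hw₀0 : w₀ ≠ 0 := by
    intro h0
    have := congrFun h0 (l₀, v₀)
    simp [hw₀, ww, ee, Pi.single_eq_of_ne hq'.symm] at this
  have hxw₀ : (x : Matrix (τ × κ) (τ × κ) F) *ᵥ w₀ ≠ 0 := by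
    intro h0
    apply hw₀0
    apply mulVec_injective x
    beta_reduce
    rw [h0, Matrix.mulVec_zero]
  obtain ⟨i₀, hi₀⟩ := Function.ne_iff.1 hxw₀
  set m := i₀.1 with hm
  have hpartner : ∀ t, InB l₀ t → f t t = 0 → f t w₀ ≠ 0 → InB m ((x : Matrix (τ × κ) (τ × κ) F) *ᵥ t) := by
    intro t ht htt h3 j hj
    by_contra h0
    obtain ⟨i, h4, h5⟩ := hoverlap (A := (x : Matrix (τ × κ) (τ × κ) F) *ᵥ t) (B := (x : Matrix (τ × κ) (τ × κ) F) *ᵥ w₀) (by rwa [hxi])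
    have h6 : i.1 = i₀.1 := hsingle w₀ hw₀B hw₀w₀ i i₀ h5 hi₀
    exact hj ((hsingle t ht htt j i h0 h4).trans h6)
  have hnd := nd_Vb (κ := κ) hstd hf l₀
  have hall : ∀ w, InB l₀ w → f w w = 0 → InB m ((x : Matrix (τ × κ) (τ × κ) F) *ᵥ w) := by
    intro w hw hww
    by_cases hw0 : w = 0
    · subst hw0
      rw [Matrix.mulVec_zero]
      exact (Vb F κ m).zero_mem
    obtain ⟨t, ht, htt, h3, h4⟩ := exists_common hf hnd (y := w₀) (p := w) hw₀B hw₀0 hw₀w₀ hw hw0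
    have htm := hpartner t ht htt h3
    obtain ⟨i, h5, h6⟩ := hoverlap (A := (x : Matrix (τ × κ) (τ × κ) F) *ᵥ t) (B := (x : Matrix (τ × κ) (τ × κ) F) *ᵥ w) (by rwa [hxi])
    have him : i.1 = m := by
      by_contra h7
      exact h5 (htm i h7)
    intro j hj
    by_contra h0
    exact hj ((hsingle w hw hww j i h0 h6).trans him)
  have hle := le_span_iso hf hnd hw₀B hw₀0 hw₀w₀
  have hspan : Submodule.span F {v | v ∈ Vb F κ l₀ ∧ f v v = 0} ≤ (Vb F κ m).comap (Matrix.mulVecLin (x : Matrix (τ × κ) (τ × κ) F)) := by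
    apply Submodule.span_le.2
    rintro v ⟨hv, hvv⟩
    exact hall v hv hvv
  have hum : InB m ((x : Matrix (τ × κ) (τ × κ) F) *ᵥ u) := hspan (hle hu)
  apply hpp
  have h3 : p.1 = m := by
    by_contra h0
    exact h1 (hum p h0)
  have h4 : p'.1 = m := by
    by_contra h0
    exact h2 (hum p' h0)
  rw [h3, h4]

/-- The block as a space of functions. -/
noncomputable def vbEquiv (F : Type*) [Field F] (κ : Type) [Fintype κ] [DecidableEq κ] (l : τ) : (κ → F) ≃ₗ[F] Vb F κ l where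
  toFun w := ⟨fun i => if i.1 = l then w i.2 else 0, fun i hi => if_neg hi⟩
  invFun v := fun x => v.1 (l, x)
  map_add' a b := by
    ext i
    simp only [Pi.add_apply, Submodule.coe_add]
    split_ifs <;> simp
  map_smul' c a := by
    ext i
    simp only [Pi.smul_apply, smul_eq_mul, RingHom.id_apply, Submodule.coe_smul]
    split_ifs <;> simp
  left_inv w := by
    ext x
    simp
  right_inv v := by
    ext i
    change (if i.1 = l then v.1 (l, i.2) else 0) = v.1 i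
    by_cases hi : i.1 = l
    · have e : ((l, i.2) : τ × κ) = i := Prod.ext hi.symm rfl
      rw [if_pos hi, e]
    · rw [if_neg hi]
      exact (v.2 i hi).symm

theorem finrank_Vb (l : τ) : finrank F (Vb F κ l) = Fintype.card κ := by
  rw [← (vbEquiv F κ l).finrank_eq, Module.finrank_fintype_fun_eq_card]

include hf hstd in
/-- **Two blocks in all.** -/
theorem two_case (hτ : Fintype.card τ = 2) (hk : 7 ≤ Fintype.card κ) (hK : HasBlocksU hf K) {a : τ × κ → F}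
    (ha : a ∈ vecs hf K) {p p' : τ × κ} (hpp : p.1 ≠ p'.1) (a1 : a p ≠ 0) (a2 : a p' ≠ 0) {z : τ × κ → F} (hzz : f z z = 0) :
    z ∈ vecs hf K := by
  set l := p.1 with hl
  set m := p'.1 with hm
  have hall : ∀ c : τ, c = l ∨ c = m := by
    intro c
    by_contra hc
    push Not at hc
    have h3 : ({l, m, c} : Finset τ).card = 3 := Finset.card_eq_three.2 ⟨l, m, c, hpp, hc.1.symm, hc.2.symm, rfl⟩
    have h4 := Finset.card_le_univ ({l, m, c} : Finset τ)
    omega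
  have hdec : ∀ x : τ × κ → F, bp l x + bp m x = x := by
    intro x
    ext i
    rw [Pi.add_apply]
    rcases hall i.1 with h | h
    · rw [bp_apply_same _ h, bp_apply_ne x (h ▸ hpp), add_zero]
    · rw [bp_apply_ne x (h ▸ hpp.symm), bp_apply_same _ h, zero_add]
  have P : OD f (Vb F κ l) (Vb F κ m) := by
    refine ⟨fun a ha b hb => orth_of_inB hstd hpp ha hb, fun a ha b hb => orth_of_inB hstd hpp.symm ha hb, ⟨?_, ?_⟩, nd_Vb hstd hf l, nd_Vb hstd hf m⟩
    · rw [Submodule.disjoint_def]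
      intro x h1 h2
      ext i
      rcases hall i.1 with h | h
      · exact h2 i (h ▸ hpp)
      · exact h1 i (h ▸ hpp.symm)
    · rw [codisjoint_iff]
      rw [eq_top_iff]
      intro x _
      rw [← hdec x]
      exact Submodule.add_mem_sup (bp_inB l x) (bp_inB m x)
  refine all_vecs hf P (by rw [finrank_Vb]; exact hk) (fun z hz hzz => block_vecs hf hstd hK hz hzz)
    (fun z hz hzz => block_vecs hf hstd hK hz hzz) (p₀ := bp m a) (u₀ := bp l a) (bp_inB m a) (bp_inB l a) ?_ ?_ ?_ hzz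
  · intro h0
    have := congrFun h0 p'
    rw [bp_apply_same _ rfl] at this
    exact a2 this
  · intro h0
    have := congrFun h0 p
    rw [bp_apply_same _ rfl] at this
    exact a1 this
  · rw [add_comm, hdec]
    exact ha

include hf hstd NF in
/-- **The main theorem for the blocks of dimension at least two.** -/
theorem block_main (hk : 2 ≤ Fintype.card κ) (hc : 13 ≤ Fintype.card (τ × κ))
    (hT : Fintype.card κ = 2 → ∀ b : F, ∃ β : F, β ≠ 0 ∧ β + σ β = 0 ∧ β ≠ b) (hKiso : K ≤ isoGroup hf) (hK : HasBlocksU hf K)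
    {x : GL (τ × κ) F} (hx : x ∈ K)
    (hxs : ¬ ∃ π : Equiv.Perm τ, ∀ l v, InB l v → InB (π l) ((x : Matrix (τ × κ) (τ × κ) F) *ᵥ v)) {z : τ × κ → F} (hzz : f z z = 0) :
    z ∈ vecs hf K := by
  obtain ⟨a, ha, p, p', hpp, a1, a2⟩ := exists_good_vec hf hstd NF hk hKiso hK hx hxs
  have hc2 : 2 ≤ Fintype.card τ := by
    have h3 : ({p.1, p'.1} : Finset τ).card = 2 := Finset.card_pair hpp
    have h4 := Finset.card_le_univ ({p.1, p'.1} : Finset τ)
    omega
  rw [Fintype.card_prod] at hc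
  by_cases hτ : Fintype.card τ = 2
  · refine two_case hf hstd hτ ?_ hK ha hpp a1 a2 hzz
    rw [hτ] at hc
    omega
  · obtain ⟨r, hr⟩ := exists_notMem_finset ({p.1, p'.1} : Finset τ) (by
      have h3 : ({p.1, p'.1} : Finset τ).card = 2 := Finset.card_pair hpp
      omega)
    simp only [Finset.mem_insert, Finset.mem_singleton, not_or] at hr
    have hc' : 13 ≤ Fintype.card (τ × κ) := by
      rw [Fintype.card_prod]
      exact hc
    by_cases h3 : ∃ i : τ × κ, i.1 ≠ p.1 ∧ i.1 ≠ p'.1 ∧ a i ≠ 0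
    · obtain ⟨i, h4, h5, h6⟩ := h3
      exact three_blocks hf hstd NF hk hc' hKiso hK ha hpp h4.symm h5.symm a1 a2 h6 hzz
    · push Not at h3
      exact two_blocks hf hstd NF hk hc' hT hKiso hK ha hpp a1 a2 hr.1 hr.2 h3 hzz

end Main

end Cfsg.Agent.Lib.Classical.C2U.BlockMain
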