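/-
Norm facts in a field of order `q ^ 2`.
-/
import Mathlib
import Cfsg.Agent.Lib.Classical.C2U.Pipe
import Cfsg.Agent.Lib.Classical.Geo.HermBridge
import Cfsg.Agent.S0754

set_option autoImplicit false
set_option linter.unusedSectionVars false

namespace Cfsg.Agent.Lib.Classical.C2U.Norm

open Cfsg Cfsg.Agent.Lib.Classical.C2U.Base Cfsg.Agent.Lib.Classical.Geo.HermBridge
open Cfsg.Agent.Lib.Classical.Herm.Basic

variable {F : Type*} [Field F] [Fintype F] [DecidableEq F] {q : ℕ}

/-- The fibres of the norm map. -/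
noncomputable def nf (hF : Fintype.card F = q ^ 2) (t : F) : Finset F :=
  Finset.univ.filter fun x => x * sigmaEquiv hF x = t

theorem mem_nf (hF : Fintype.card F = q ^ 2) {t x : F} : x ∈ nf hF t ↔ x * sigmaEquiv hF x = t := by
  unfold nf
  rw [Finset.mem_filter]
  exact ⟨fun h => h.2, fun h => ⟨Finset.mem_univ _, h⟩⟩

theorem card_nf (hF : Fintype.card F = q ^ 2) {t : F} (ht : t ≠ 0) (hσ : sigmaEquiv hF t = t) :
    (nf hF t).card = q + 1 := by
  have h := Cfsg.Agent.S0754.result hF t ht hσ
  rw [← h, Nat.card_eq_fintype_card, Fintype.card_subtype]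
  congr 1
  ext x
  rw [mem_nf, sigmaEquiv_apply]
  simp [pow_succ, mul_comm]

/-- The additive group generated by the elements of norm one is everything. -/
theorem span_norm_one (hF : Fintype.card F = q ^ 2) (z : F) :
    z ∈ AddSubgroup.closure {δ : F | δ * sigmaEquiv hF δ = 1} := by
  set A := AddSubgroup.closure {δ : F | δ * sigmaEquiv hF δ = 1} with hA
  have hq := two_le_q hF
  have hmem : ∀ x, x * sigmaEquiv hF x = 1 → x ∈ A := fun x hx => AddSubgroup.subset_closure hx
  have h1 : (1 : F) ∈ A := hmem 1 (by simp)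
  -- closed under multiplication
  have hmul0 : ∀ a, a * sigmaEquiv hF a = 1 → ∀ b ∈ A, a * b ∈ A := by
    intro a ha b hb
    induction hb using AddSubgroup.closure_induction with
    | mem x hx =>
      apply hmem
      rw [map_mul]
      have hx' : x * sigmaEquiv hF x = 1 := hx
      linear_combination (x * sigmaEquiv hF x) * ha + hx'
    | zero =>
      rw [mul_zero]
      exact A.zero_mem
    | add x y _ _ h5 h6 =>
      rw [mul_add]
      exact A.add_mem h5 h6
    | neg x _ h5 =>
      rw [mul_neg]
      exact A.neg_mem h5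
  have hmul : ∀ a ∈ A, ∀ b ∈ A, a * b ∈ A := by
    intro a ha b hb
    induction ha using AddSubgroup.closure_induction with
    | mem x hx => exact hmul0 x hx b hb
    | zero =>
      rw [zero_mul]
      exact A.zero_mem
    | add x y _ _ h5 h6 =>
      rw [add_mul]
      exact A.add_mem h5 h6
    | neg x _ h5 =>
      rw [neg_mul]
      exact A.neg_mem h5
  have hpow : ∀ a ∈ A, ∀ k : ℕ, a ^ k ∈ A := by
    intro a ha k
    induction k with
    | zero => simpa using h1
    | succ k ih =>
      rw [pow_succ]
      exact hmul _ ih _ ha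
  have hinv : ∀ a ∈ A, a⁻¹ ∈ A := by
    intro a ha
    by_cases h0 : a = 0
    · subst h0
      simpa using A.zero_mem
    · have h2 : a ^ (Fintype.card F - 1) = 1 := FiniteField.pow_card_sub_one_eq_one a h0
      have h3 : 2 ≤ Fintype.card F := Fintype.one_lt_card
      have e : a⁻¹ = a ^ (Fintype.card F - 2) := by
        have h4 : a ^ (Fintype.card F - 2) * a = 1 := by
          rw [← pow_succ]
          rwa [show Fintype.card F - 2 + 1 = Fintype.card F - 1 by omega]
        exact inv_eq_of_mul_eq_one_left h4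
      rw [e]
      exact hpow a ha _
  by_contra hz
  -- the injection
  classical
  let SA : Finset F := Finset.univ.filter fun x => x ∈ A
  have hinj : Set.InjOn (fun p : F × F => p.1 + z * p.2) (SA ×ˢ SA : Finset (F × F)) := by
    rintro ⟨a, b⟩ hp ⟨a', b'⟩ hp' h
    simp only [Finset.coe_product, Set.mem_prod, Finset.mem_coe, SA, Finset.mem_filter, Finset.mem_univ, true_and] at hp hp'
    simp only at h
    by_cases hb : b = b'
    · subst hb
      have : a = a' := by linear_combination h
      rw [this]
    · exfalso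
      apply hz
      have hb' : b - b' ≠ 0 := sub_ne_zero.2 hb
      have e : z = (a' - a) * (b - b')⁻¹ := by
        field_simp
        linear_combination h
      rw [e]
      exact hmul _ (A.sub_mem hp'.1 hp.1) _ (hinv _ (A.sub_mem hp.2 hp'.2))
  have hcard := Finset.card_le_card_of_injOn _ (fun _ _ => Finset.mem_univ _) hinj
  rw [Finset.card_product, Finset.card_univ, hF] at hcard
  -- the lower bound
  have hl : (insert 0 (nf hF 1)).card ≤ SA.card := by
    apply Finset.card_le_card
    intro x hx
    simp only [Finset.mem_insert] at hx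
    simp only [SA, Finset.mem_filter, Finset.mem_univ, true_and]
    rcases hx with rfl | hx
    · exact A.zero_mem
    · exact hmem x ((mem_nf hF).1 hx)
  rw [Finset.card_insert_of_notMem (by
    intro h0
    have := (mem_nf hF).1 h0
    simp at this), card_nf hF one_ne_zero (by simp)] at hl
  have : (q + 2) * (q + 2) ≤ SA.card * SA.card := Nat.mul_le_mul hl hl
  nlinarith

/-- The fixed points of the automorphism. -/
theorem card_fix_le (hF : Fintype.card F = q ^ 2) (S : Finset F) (hS : ∀ x ∈ S, sigmaEquiv hF x = x) : S.card ≤ q := by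
  have hq := two_le_q hF
  let P : Polynomial F := Polynomial.X ^ q - Polynomial.X
  have hdeg : P.natDegree = q := by
    have h1 : (Polynomial.X : Polynomial F).natDegree < (Polynomial.X ^ q : Polynomial F).natDegree := by
      rw [Polynomial.natDegree_X, Polynomial.natDegree_X_pow]
      omega
    rw [show P = Polynomial.X ^ q - Polynomial.X from rfl, Polynomial.natDegree_sub_eq_left_of_natDegree_lt h1,
      Polynomial.natDegree_X_pow]
  have hP0 : P ≠ 0 := by
    intro h0
    rw [h0, Polynomial.natDegree_zero] at hdeg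
    omega
  have hsub : S ⊆ P.roots.toFinset := by
    intro x hx
    rw [Multiset.mem_toFinset, Polynomial.mem_roots hP0]
    have := hS x hx
    rw [sigmaEquiv_apply] at this
    simp [P, Polynomial.IsRoot, this]
  calc S.card ≤ P.roots.toFinset.card := Finset.card_le_card hsub
    _ ≤ Multiset.card P.roots := Multiset.toFinset_card_le _
    _ ≤ P.natDegree := Polynomial.card_roots' P
    _ = q := hdeg

/-- The traces of a multiple by elements of norm one: the fibres have at most two elements. -/
theorem fiber_le_two (hF : Fintype.card F = q ^ 2) {a : F} (ha : a ≠ 0) (s : Finset F)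
    (hs : ∀ x ∈ s, x * sigmaEquiv hF x = 1) (c : F) :
    (s.filter fun x => x * a + sigmaEquiv hF (x * a) = c).card ≤ 2 := by
  by_contra hcon
  push Not at hcon
  obtain ⟨x, hx, y, hy, z, hz, hxy, hxz, hyz⟩ := Finset.two_lt_card.1 hcon
  rw [Finset.mem_filter] at hx hy hz
  have key : ∀ u v : F, u ∈ s → v ∈ s → u * a + sigmaEquiv hF (u * a) = c → v * a + sigmaEquiv hF (v * a) = c →
      u ≠ v → (u + v) * a = c := by
    intro u v hu hv huc hvc huv
    have hU : (u * a) * sigmaEquiv hF (u * a) = a * sigmaEquiv hF a := by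
      rw [map_mul]
      linear_combination (a * sigmaEquiv hF a) * hs u hu
    have hV : (v * a) * sigmaEquiv hF (v * a) = a * sigmaEquiv hF a := by
      rw [map_mul]
      linear_combination (a * sigmaEquiv hF a) * hs v hv
    have h1 : (u * a - v * a) * ((u + v) * a - c) = 0 := by
      have e1 : sigmaEquiv hF (u * a) = c - u * a := by linear_combination huc
      have e2 : sigmaEquiv hF (v * a) = c - v * a := by linear_combination hvc
      rw [e1] at hU
      rw [e2] at hV
      linear_combination hV - hU
    rcases mul_eq_zero.1 h1 with h2 | h2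
    · exfalso
      apply huv
      have : (u - v) * a = 0 := by linear_combination h2
      rcases mul_eq_zero.1 this with h3 | h3
      · exact sub_eq_zero.1 h3
      · exact absurd h3 ha
    · exact sub_eq_zero.1 h2
  have h1 := key x y hx.1 hy.1 hx.2 hy.2 hxy
  have h2 := key x z hx.1 hz.1 hx.2 hz.2 hxz
  apply hyz
  have : (y - z) * a = 0 := by linear_combination h1 - h2
  rcases mul_eq_zero.1 this with h3 | h3
  · exact sub_eq_zero.1 h3
  · exact absurd h3 ha

/-- **The pigeonhole lemma.** -/
theorem pigeon (hF : Fintype.card F = q ^ 2) {a b τ : F} (ha : a ≠ 0) (hb : b ≠ 0) (hτ : sigmaEquiv hF τ = τ) (δ₀ : F) :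
    ∃ δ₁ δ₂ : F, δ₁ * sigmaEquiv hF δ₁ = 1 ∧ δ₂ * sigmaEquiv hF δ₂ = 1 ∧ δ₁ ≠ δ₀ ∧
      (δ₁ * a + sigmaEquiv hF (δ₁ * a)) + (δ₂ * b + sigmaEquiv hF (δ₂ * b)) = τ := by
  let s₁ := (nf hF 1).erase δ₀
  let s₂ := nf hF 1
  have hs₂ : ∀ x ∈ s₂, x * sigmaEquiv hF x = 1 := fun x hx => (mem_nf hF).1 hx
  have hs₁ : ∀ x ∈ s₁, x * sigmaEquiv hF x = 1 := fun x hx => hs₂ x (Finset.mem_of_mem_erase hx)
  have c₂ : s₂.card = q + 1 := card_nf hF one_ne_zero (by simp)
  have c₁ : q ≤ s₁.card := by
    have := Finset.pred_card_le_card_erase (s := s₂) (a := δ₀)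
    change s₂.card - 1 ≤ s₁.card at this
    omega
  let f₁ : F → F := fun x => x * a + sigmaEquiv hF (x * a)
  let f₂ : F → F := fun x => τ - (x * b + sigmaEquiv hF (x * b))
  have h1 : s₁.card ≤ 2 * (s₁.image f₁).card := Finset.card_le_mul_card_image _ _ (fun c _ => fiber_le_two hF ha s₁ hs₁ c)
  have h2 : s₂.card ≤ 2 * (s₂.image f₂).card := by
    refine Finset.card_le_mul_card_image _ _ (fun c _ => ?_)
    have := fiber_le_two hF hb s₂ hs₂ (τ - c)
    convert this using 3
    simp only [f₂]
    constructor
    · intro h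
      rw [← h]
      ring
    · intro h
      rw [h]
      ring
  have hinv : ∀ x, sigmaEquiv hF (sigmaEquiv hF x) = x := fun x => sigma_sigma hF x
  have hf₁ : ∀ x, sigmaEquiv hF (f₁ x) = f₁ x := by
    intro x
    simp only [f₁, map_add, hinv]
    ring
  have hf₂ : ∀ x, sigmaEquiv hF (f₂ x) = f₂ x := by
    intro x
    simp only [f₂, map_sub, map_add, hinv, hτ]
    ring
  have h3 : ¬ Disjoint (s₁.image f₁) (s₂.image f₂) := by
    intro hd
    have h4 := card_fix_le hF ((s₁.image f₁) ∪ (s₂.image f₂)) (by
      intro x hx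
      rcases Finset.mem_union.1 hx with hx | hx
      · obtain ⟨y, _, rfl⟩ := Finset.mem_image.1 hx
        exact hf₁ y
      · obtain ⟨y, _, rfl⟩ := Finset.mem_image.1 hx
        exact hf₂ y)
    rw [Finset.card_union_of_disjoint hd] at h4
    omega
  obtain ⟨c, hc₁, hc₂⟩ := Finset.not_disjoint_iff.1 h3
  obtain ⟨x, hx, hxc⟩ := Finset.mem_image.1 hc₁
  obtain ⟨y, hy, hyc⟩ := Finset.mem_image.1 hc₂
  refine ⟨x, y, hs₁ x hx, hs₂ y hy, Finset.ne_of_mem_erase hx, ?_⟩
  have e : f₁ x = f₂ y := hxc.trans hyc.symm
  simp only [f₁, f₂] at e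
  linear_combination e

/-- The norm facts of a field of order `q ^ 2`. -/
theorem normFacts (hF : Fintype.card F = q ^ 2) : NormFacts (sigmaEquiv hF) where
  three t ht hσ b₁ b₂ := by
    have hq := two_le_q hF
    have hc := card_nf hF ht hσ
    have hlt : (({b₁, b₂} : Finset F)).card < (nf hF t).card := by
      have := Finset.card_le_two (a := b₁) (b := b₂)
      omega
    obtain ⟨x, hx, hx'⟩ := Finset.exists_mem_notMem_of_card_lt_card hlt
    simp only [Finset.mem_insert, Finset.mem_singleton, not_or] at hx'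
    exact ⟨x, (mem_nf hF).1 hx, hx'.1, hx'.2⟩
  span z := span_norm_one hF z

end Cfsg.Agent.Lib.Classical.C2U.Norm
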