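/-
The stabilisers of non-degenerate decompositions in special unitary groups are maximal.
-/
import Mathlib
import Cfsg.Agent.Lib.Classical.C2U.BlockMain
import Cfsg.Agent.Lib.Classical.C2U.Norm
import Cfsg.Agent.Lib.Classical.C2.Main
import Cfsg.Agent.Lib.Classical.Herm.HermOnb

set_option autoImplicit false
set_option linter.unusedSectionVars false

namespace Cfsg.Agent.Lib.Classical.C2U.Main

open scoped Matrix MatrixGroups
open Module Cfsg Cfsg.Geo
open Cfsg.Agent.Lib.Classical.Geo.Basic
open Cfsg.Agent.Lib.Classical.Geo.UForm Cfsg.Agent.Lib.Classical.Geo.UPair Cfsg.Agent.Lib.Classical.Geo.UParab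
open Cfsg.Agent.Lib.Classical.Sub.Rat Cfsg.Agent.Lib.Classical.Sub.UElts
open Cfsg.Agent.Lib.Classical.C2.Base Cfsg.Agent.Lib.Classical.C2.Finish Cfsg.Agent.Lib.Classical.C2.Blocks
open Cfsg.Agent.Lib.Classical.C2.Main
open Cfsg.Agent.Lib.Classical.C2U.Base Cfsg.Agent.Lib.Classical.C2U.Pipe Cfsg.Agent.Lib.Classical.C2U.Grow
open Cfsg.Agent.Lib.Classical.Geo.UNondeg Cfsg.Agent.Lib.Classical.C2U.BlockEl Cfsg.Agent.Lib.Classical.C2U.BlockMain
open Cfsg.Agent.Lib.Classical.C2U.Norm Cfsg.Agent.Lib.Classical.Geo.HermBridge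

section Std

variable {ι : Type} [Fintype ι] [DecidableEq ι] {F : Type*} [Field F]

/-- The standard form. -/
def stdForm (σ : F ≃+* F) (x y : ι → F) : F := ∑ i, x i * σ (y i)

theorem stdForm_unitary {σ : F ≃+* F} (hne : σ ≠ RingEquiv.refl F) (hinv : ∀ a, σ (σ a) = a) :
    IsUnitaryForm σ (stdForm σ (ι := ι)) where
  ne_refl := hne
  involutive := hinv
  add_left x y v := by
    simp only [stdForm, Pi.add_apply, add_mul, Finset.sum_add_distrib]
  smul_left c x v := by
    simp only [stdForm, Pi.smul_apply, smul_eq_mul, Finset.mul_sum, mul_assoc]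
  herm v w := by
    simp only [stdForm, map_sum, map_mul, hinv]
    exact Finset.sum_congr rfl fun i _ => mul_comm _ _
  nondegenerate := by
    intro v hv
    obtain ⟨i, hi⟩ := Function.ne_iff.1 hv
    have hi' : v i ≠ 0 := hi
    constructor
    · refine ⟨Pi.single i 1, ?_⟩
      simp only [stdForm]
      rw [Finset.sum_eq_single i]
      · simp only [Pi.single_eq_same, one_mul]
        intro h0
        exact hi' ((map_eq_zero σ).1 h0)
      · intro b _ hb
        simp [Pi.single_eq_of_ne hb]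
      · simp
    · refine ⟨Pi.single i 1, ?_⟩
      simp only [stdForm]
      rw [Finset.sum_eq_single i]
      · simpa using hi'
      · intro b _ hb
        simp [Pi.single_eq_of_ne hb]
      · simp

/-- The form in an orthonormal basis. -/
theorem form_eq {ι' : Type} [Fintype ι'] [DecidableEq ι'] {σ : F ≃+* F} {f : (ι → F) → (ι → F) → F} (hf : IsUnitaryForm σ f)
    (B : Module.Basis ι' F (ι → F)) (hO : ∀ a b, f (B a) (B b) = if a = b then 1 else 0) (x y : ι → F) :
    f x y = stdForm σ (B.equivFun x) (B.equivFun y) := by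
  have hsumL : ∀ (s : Finset ι') (c : ι' → (ι → F)) (z : ι → F), f (∑ i ∈ s, c i) z = ∑ i ∈ s, f (c i) z := by
    intro s c z
    exact map_sum (fLin hf z) c s
  have hsumR : ∀ (s : Finset ι') (c : ι' → (ι → F)) (z : ι → F), f z (∑ i ∈ s, c i) = ∑ i ∈ s, f z (c i) := by
    intro s c z
    rw [hf.herm, hsumL, map_sum]
    exact Finset.sum_congr rfl fun i _ => (hf.herm _ _).symm
  conv_lhs => rw [← B.sum_equivFun x, ← B.sum_equivFun y]
  rw [hsumL, stdForm]
  refine Finset.sum_congr rfl fun i _ => ?_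
  rw [hsumR, Finset.sum_eq_single i]
  · rw [hf.smul_left, smul_right hf, hO i i]
    simp
  · intro j _ hj
    rw [hf.smul_left, smul_right hf, hO i j, if_neg hj.symm]
    simp
  · simp

end Std

variable {F : Type*} [Field F] [Fintype F] {n q t k : ℕ}

/-- An orthonormal basis adapted to the decomposition. -/
theorem exists_onb_basis (hF : Fintype.card F = q ^ 2) {D : Fin t → Submodule F (Fin n → F)}
    (hD : IsNondegenerateMDecomposition (hermForm n F q) k D) :
    ∃ B : Module.Basis (Fin t × Fin k) F (Fin n → F), (∀ i j, B (i, j) ∈ D i) ∧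
      (∀ i, ∀ w ∈ D i, ∀ l, l ≠ i → ∀ j, B.repr w (l, j) = 0) ∧
      ∀ a b, hermForm n F q (B a) (B b) = if a = b then 1 else 0 := by
  classical
  have hf := isUnitaryForm hF n
  have hkpos : 0 < k := hD.decomp.pos
  haveI : Nonempty (Fin k) := ⟨⟨0, hkpos⟩⟩
  have hint : DirectSum.IsInternal D :=
    DirectSum.isInternal_submodule_of_iSupIndep_of_iSup_eq_top hD.decomp.indep hD.decomp.iSup_eq_top
  have hH : ∀ i, Cfsg.Agent.Lib.Classical.Herm.HermOnb.IsHerm q (fun x y : D i => hermForm n F q x.1 y.1) := by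
    intro i
    refine ⟨fun x y z => hf.add_left _ _ _, fun c x y => hf.smul_left _ _ _, fun x y => hf.herm _ _, fun x hx => ?_⟩
    by_contra hne
    obtain ⟨-, z, hz, hz0⟩ := hD.nondegenerate i x.1 x.2 (fun h => hne (Subtype.ext h))
    exact hz0 (hx ⟨z, hz⟩)
  have honb : ∀ i, ∃ b : Fin k → D i, ∀ a c, hermForm n F q (b a).1 (b c).1 = if a = c then 1 else 0 := fun i =>
    Cfsg.Agent.Lib.Classical.Herm.HermOnb.exists_onb hF k (D i) _ (hH i) (hD.decomp.finrank_eq i)
  choose b hb using honb
  have hli : ∀ i, LinearIndependent F (b i) := by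
    intro i
    rw [Fintype.linearIndependent_iff]
    intro g hg c
    have h1 : ∑ a, g a • ((b i a : D i) : Fin n → F) = 0 := by
      have := congrArg (Submodule.subtype (D i)) hg
      rw [map_sum, map_zero] at this
      simpa using this
    have h2 : hermForm n F q (∑ a, g a • ((b i a : D i) : Fin n → F)) (b i c).1 = 0 := by
      rw [h1]
      exact zero_left hf _
    have h3 : ∑ a, g a * hermForm n F q (b i a).1 (b i c).1 = 0 := by
      rw [← h2]
      have := map_sum (fLin hf (b i c).1) (fun a => g a • ((b i a : D i) : Fin n → F)) Finset.univ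
      refine Eq.trans ?_ this.symm
      refine Finset.sum_congr rfl fun a _ => ?_
      exact (hf.smul_left _ _ _).symm
    rw [Finset.sum_eq_single c] at h3
    · rw [hb, if_pos rfl, mul_one] at h3
      exact h3
    · intro a _ ha
      rw [hb, if_neg ha, mul_zero]
    · simp
  let v : ∀ i, Module.Basis (Fin k) F (D i) := fun i =>
    basisOfLinearIndependentOfCardEqFinrank (hli i) (by rw [hD.decomp.finrank_eq i]; simp)
  have hv : ∀ i j, v i j = b i j := fun i j => by
    simp [v, coe_basisOfLinearIndependentOfCardEqFinrank]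
  let B₀ := hint.collectedBasis v
  let B : Module.Basis (Fin t × Fin k) F (Fin n → F) := B₀.reindex (Equiv.sigmaEquivProd (Fin t) (Fin k))
  have hB : ∀ i j, B (i, j) = (v i j : Fin n → F) := by
    intro i j
    simp only [B, Module.Basis.reindex_apply]
    have : (Equiv.sigmaEquivProd (Fin t) (Fin k)).symm (i, j) = ⟨i, j⟩ := rfl
    rw [this]
    exact congrFun (hint.collectedBasis_coe v) ⟨i, j⟩
  refine ⟨B, fun i j => ?_, fun i w hw l hl j => ?_, ?_⟩
  · rw [hB]
    exact (v i j).2
  · have h1 : w = ∑ j', ((v i).repr ⟨w, hw⟩ j') • B (i, j') := by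
      simp only [hB]
      have := (v i).sum_repr ⟨w, hw⟩
      have h2 := congrArg (Submodule.subtype (D i)) this
      rw [map_sum] at h2
      simp only [map_smul, Submodule.subtype_apply] at h2
      exact h2.symm
    rw [h1, map_sum, Finsupp.finsetSum_apply]
    refine Finset.sum_eq_zero fun j' _ => ?_
    rw [map_smul, Finsupp.smul_apply, Module.Basis.repr_self, Finsupp.single_apply, if_neg, smul_zero]
    intro h
    exact hl (congrArg Prod.fst h).symm
  · rintro ⟨i, p⟩ ⟨i', p'⟩
    rw [hB, hB, hv, hv]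
    by_cases hi : i = i'
    · subst hi
      rw [hb]
      simp
    · rw [hD.orthogonal i i' hi _ (b i p).2 _ (b i' p').2, if_neg]
      intro h
      exact hi (congrArg Prod.fst h)

/-- Enough trace-zero elements. -/
theorem exists_tr0_ne [DecidableEq F] (hF : Fintype.card F = q ^ 2) (hq : 3 ≤ q) (b : F) :
    ∃ β : F, β ≠ 0 ∧ β + sigmaEquiv hF β = 0 ∧ β ≠ b := by
  have hf := isUnitaryForm hF 1
  obtain ⟨c₀, hc0, hc⟩ := exists_tr0 hf.ne_refl hf.involutive
  have hσc : sigmaEquiv hF c₀ = -c₀ := by linear_combination hc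
  by_contra hcon
  push Not at hcon
  -- every fixed element is `0` or `b / c₀`
  have hfix : ∀ r : F, sigmaEquiv hF r = r → r = 0 ∨ r = b / c₀ := by
    intro r hr
    by_cases hr0 : r = 0
    · exact Or.inl hr0
    · right
      have := hcon (c₀ * r) (mul_ne_zero hc0 hr0) (by
        rw [map_mul, hσc, hr]
        ring)
      rw [← this]
      field_simp
  have h1 : (1 : F) = b / c₀ := (hfix 1 (map_one _)).resolve_left one_ne_zero
  have hall : ∀ x : F, x ≠ 0 → x * sigmaEquiv hF x = 1 := by
    intro x hx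
    have h2 := hfix (x * sigmaEquiv hF x) (by
      rw [map_mul, Cfsg.Agent.Lib.Classical.Geo.UForm.sigma_self hf |> fun _ => hf.involutive x]
      ring)
    rcases h2 with h2 | h2
    · exfalso
      rcases mul_eq_zero.1 h2 with h3 | h3
      · exact hx h3
      · exact hx ((map_eq_zero _).1 h3)
    · rw [h2, ← h1]
  have hsub : (Finset.univ.erase (0 : F)) ⊆ nf hF 1 := by
    intro x hx
    exact (mem_nf hF).2 (hall x (Finset.ne_of_mem_erase hx))
  have h3 := Finset.card_le_card hsub
  rw [card_nf hF one_ne_zero (map_one _), Finset.card_erase_of_mem (Finset.mem_univ _), Finset.card_univ, hF] at h3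
  have h4 : 3 * q ≤ q * q := Nat.mul_le_mul_right _ hq
  have h5 : q ^ 2 = q * q := sq q
  omega

/-- **The maximality.** -/
theorem isMaximal_main (hF : Fintype.card F = q ^ 2) (hn : 13 ≤ n) {D : Fin t → Submodule F (Fin n → F)}
    (hD : IsNondegenerateMDecomposition (hermForm n F q) k D) (hex : ¬ (k = 2 ∧ q = 2)) :
    IsMaximalIn (isoGroup (isUnitaryForm hF n)) (decompositionStabilizer D ⊓ isoGroup (isUnitaryForm hF n)) := by
  classical
  have hf := isUnitaryForm hF n
  set σ := sigmaEquiv hF with hσ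
  set f := hermForm n F q with hfdef
  obtain ⟨B, hB, hB', hO⟩ := exists_onb_basis hF hD
  have hcard : Fintype.card (Fin t × Fin k) = n := by
    have h1 := Cfsg.Agent.Lib.Classical.Asch.Block.card_eq_mul hD.decomp
    rw [Fintype.card_fin] at h1
    rw [Fintype.card_prod, Fintype.card_fin, Fintype.card_fin, h1]
  have hc : 13 ≤ Fintype.card (Fin t × Fin k) := by omega
  set e := B.equivFun with he
  have hform : ∀ x y, f x y = stdForm σ (e x) (e y) := form_eq hf B hO
  have hf' : IsUnitaryForm σ (stdForm σ (ι := Fin t × Fin k)) := stdForm_unitary hf.ne_refl hf.involutive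
  have hstd' : ∀ x y : Fin t × Fin k → F, stdForm σ x y = ∑ i, x i * σ (y i) := fun _ _ => rfl
  have hstab := mem_stab_iff hD.decomp B hB hB'
  have NF : NormFacts σ := normFacts hF
  have Pg : PigeonFact σ := fun a b τ ha hb hτ δ₀ => pigeon hF ha hb hτ δ₀
  have ht2 : 2 ≤ t := hD.decomp.two_le
  have hk1 : 1 ≤ k := hD.decomp.pos
  -- the transfer of isometries
  have hiso : ∀ g ∈ isoGroup hf, conjE e g ∈ isoGroup hf' := by
    intro g hg
    refine (mem_isoGroup hf').2 ⟨fun x y => ?_, (conjE_mem_sl e).2 hg.2⟩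
    rw [conjE_mulVec, conjE_mulVec, ← hform, ((mem_isoGroup hf).1 hg).1, hform]
    simp
  have hiso' : ∀ g ∈ isoGroup hf', conjE e.symm g ∈ isoGroup hf := by
    intro g hg
    refine (mem_isoGroup hf).2 ⟨fun x y => ?_, (conjE_mem_sl e.symm).2 hg.2⟩
    rw [hform, hform, conjE_mulVec, conjE_mulVec]
    simp only [LinearEquiv.symm_symm, LinearEquiv.apply_symm_apply]
    exact ((mem_isoGroup hf').1 hg).1 _ _
  have hconjT : ∀ (w : Fin n → F) (hw : f w w = 0) (c : F),
      conjE e (T hf (c • w) w (by rw [hf.smul_left, hw, mul_zero])) =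
        T hf' (c • e w) (e w) (by rw [hf'.smul_left, ← hform, hw, mul_zero]) := by
    intro w hw c
    apply gl_ext
    intro y
    rw [conjE_mulVec, T_mulVec, T_mulVec, map_add, map_smul, map_smul]
    simp only [LinearEquiv.apply_symm_apply]
    rw [hform]
    simp only [LinearEquiv.apply_symm_apply]
  refine ⟨?_, ?_⟩
  · -- the proper containment
    refine lt_of_le_of_ne inf_le_right ?_
    intro heq
    let l₀ : Fin t := ⟨0, by omega⟩
    let l₁ : Fin t := ⟨1, by omega⟩
    let j : Fin k := ⟨0, by omega⟩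
    have hl : l₀ ≠ l₁ := by
      intro h
      have := congrArg Fin.val h
      simp [l₀, l₁] at this
    set p₂ : Fin t × Fin k := (l₀, j) with hp₂
    set p₃ : Fin t × Fin k := (l₁, j) with hp₃
    have h23 : p₂ ≠ p₃ := fun h => hl (congrArg Prod.fst h)
    obtain ⟨p₁, hp₁⟩ := exists_notMem_finset ({p₂, p₃} : Finset (Fin t × Fin k)) (by
      have := Finset.card_le_two (a := p₂) (b := p₃)
      omega)
    obtain ⟨p₄, hp₄⟩ := exists_notMem_finset ({p₁, p₂, p₃} : Finset (Fin t × Fin k)) (by
      have := Finset.card_le_three (a := p₁) (b := p₂) (c := p₃)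
      omega)
    simp only [Finset.mem_insert, Finset.mem_singleton, not_or] at hp₁ hp₄
    obtain ⟨δ, hδ, -, -⟩ := NF.three (-1) (by simp) (by simp) 0 0
    have h12 : p₁ ≠ p₂ := hp₁.1
    have h13 : p₁ ≠ p₃ := hp₁.2
    have h14 : p₁ ≠ p₄ := Ne.symm hp₄.1
    have h24 : p₂ ≠ p₄ := Ne.symm hp₄.2.1
    have h34 : p₃ ≠ p₄ := Ne.symm hp₄.2.2
    set a : Fin t × Fin k → F := ww p₁ p₂ δ + ww p₃ p₄ δ with ha
    have hw₁ := ww_iso hf' hstd' h12 hδ
    have hw₂ := ww_iso hf' hstd' h34 hδ
    have h0 : stdForm σ (ww p₁ p₂ δ) (ww p₃ p₄ δ) = 0 := by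
      rw [f_ww hstd' _ p₃ p₄ δ hf']
      simp [ww, ee, Pi.single_eq_of_ne h13.symm, Pi.single_eq_of_ne h14.symm, Pi.single_eq_of_ne h23.symm, Pi.single_eq_of_ne h24.symm]
    have h0' := swap_zero hf' h0
    have haa : stdForm σ a a = 0 := by
      rw [ha, hf'.add_left, add_right hf', add_right hf', hw₁, hw₂, h0, h0']
      ring
    obtain ⟨c₀, hc0, hc⟩ := exists_tr0 hf.ne_refl hf.involutive
    have hT := T_mem_isoGroup hf' a c₀ haa hc
    set g := T hf' (c₀ • a) a (by rw [hf'.smul_left, haa, mul_zero]) with hg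
    have h1 : conjE e.symm g ∈ decompositionStabilizer D ⊓ isoGroup hf := by
      rw [heq]
      exact hiso' g hT
    obtain ⟨π, hπ⟩ := (hstab _).1 h1.1
    rw [← he, conjE_symm'] at hπ
    have h5 := hπ p₁.1 (ee p₁) (inB_ee p₁)
    have h6 : ((g : GL (Fin t × Fin k) F) : Matrix (Fin t × Fin k) (Fin t × Fin k) F) *ᵥ (ee p₁) = ee p₁ + (σ (a p₁) * c₀) • a := by
      rw [hg, T_mulVec, f_single_left hstd', smul_smul]
    rw [h6] at h5
    have hap₁ : a p₁ = 1 := by
      simp [ha, ww, ee, Pi.single_eq_of_ne h12, Pi.single_eq_of_ne h13, Pi.single_eq_of_ne h14]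
    have hap₂ : a p₂ = δ := by
      simp [ha, ww, ee, Pi.single_eq_of_ne h12.symm, Pi.single_eq_of_ne h23, Pi.single_eq_of_ne h24]
    have hap₃ : a p₃ = 1 := by
      simp [ha, ww, ee, Pi.single_eq_of_ne h13.symm, Pi.single_eq_of_ne h23.symm, Pi.single_eq_of_ne h34]
    have hδ0 : δ ≠ 0 := by
      rintro rfl
      simp at hδ
    have c2 : (ee p₁ + (σ (a p₁) * c₀) • a : Fin t × Fin k → F) p₂ ≠ 0 := by
      simp only [ee, Pi.add_apply, Pi.smul_apply, smul_eq_mul, Pi.single_eq_of_ne h12.symm, hap₁, hap₂, map_one, one_mul, zero_add]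
      exact mul_ne_zero hc0 hδ0
    have c3 : (ee p₁ + (σ (a p₁) * c₀) • a : Fin t × Fin k → F) p₃ ≠ 0 := by
      simp only [ee, Pi.add_apply, Pi.smul_apply, smul_eq_mul, Pi.single_eq_of_ne h13.symm, hap₁, hap₃, map_one, one_mul, zero_add, mul_one]
      exact hc0
    have e2 : p₂.1 = π p₁.1 := by
      by_contra h7
      exact c2 (h5 p₂ h7)
    have e3 : p₃.1 = π p₁.1 := by
      by_contra h7
      exact c3 (h5 p₃ h7)
    exact hl (e2.trans e3.symm)
  · intro M hle hM
    by_cases hMH : M ≤ decompositionStabilizer D ⊓ isoGroup hf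
    · exact Or.inl (le_antisymm hMH hle)
    right
    refine le_antisymm hM ?_
    obtain ⟨x, hxM, hx⟩ := SetLike.not_le_iff_exists.1 hMH
    have hxs : x ∉ decompositionStabilizer D := fun h => hx ⟨h, hM hxM⟩
    let Φ : GL (Fin n) F ≃* GL (Fin t × Fin k) F := conjMul e
    have hΦ : ∀ g, Φ g = conjE e g := fun g => rfl
    let K : Subgroup (GL (Fin t × Fin k) F) := M.map Φ.toMonoidHom
    have hmemK : ∀ g, g ∈ M → conjE e g ∈ K := fun g hg => ⟨g, hg, rfl⟩
    have hKiso : K ≤ isoGroup hf' := by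
      rintro _ ⟨g, hg, rfl⟩
      exact hiso g (hM hg)
    have hHas : HasBlocksU hf' K := by
      intro h hh hπ
      have h5 : conjE e (conjE e.symm h) = h := conjE_symm' e h
      rw [← h5]
      refine hmemK _ (hle (Subgroup.mem_inf.2 ⟨?_, hiso' h hh⟩))
      rw [hstab, ← he, h5]
      exact hπ
    have hxK : conjE e x ∈ K := hmemK x hxM
    have hxs' : ¬ ∃ π : Equiv.Perm (Fin t), ∀ l v, InB l v →
        InB (π l) (((conjE e x : GL (Fin t × Fin k) F) : Matrix (Fin t × Fin k) (Fin t × Fin k) F) *ᵥ v) := by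
      rw [← hstab]
      exact hxs
    have hall : ∀ z : Fin t × Fin k → F, stdForm σ z z = 0 → z ∈ vecs hf' K := by
      intro z hzz
      by_cases hk1' : k = 1
      · have hκ : Fintype.card (Fin k) = 1 := by simpa using hk1'
        have hUM : UMono σ ≤ K := by
          intro g hg
          refine hHas g (UMono_le_iso hf' hstd' hg) ?_
          obtain ⟨π, c, rfl, -, -⟩ := hg
          exact mono_blocks hκ π c
        refine Cfsg.Agent.Lib.Classical.C2U.Odd.monomial_vecs hf' hstd' NF Pg hc hKiso hUM hxK ?_ hzz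
        rintro ⟨π, c, h5, -, -⟩
        apply hxs'
        rw [h5]
        exact mono_blocks hκ π c
      · have hk2 : 2 ≤ Fintype.card (Fin k) := by
          rw [Fintype.card_fin]
          omega
        refine block_main hf' hstd' NF hk2 hc ?_ hKiso hHas hxK hxs' hzz
        intro h2 b
        rw [Fintype.card_fin] at h2
        have hq : 3 ≤ q := by
          have h3 := Cfsg.Agent.Lib.Classical.Herm.Basic.two_le_q hF
          have h4 : q ≠ 2 := fun h => hex ⟨h2, h⟩
          omega
        exact exists_tr0_ne hF hq b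
    refine hgen hF (by omega) (by omega) M fun w hw => ?_
    have hw' : f w w = 0 := hw
    refine ⟨hw, fun c hc' => ?_⟩
    have h5 := (hall (e w) (by rw [← hform]; exact hw)).2 c hc'
    rw [← hconjT w hw c] at h5
    obtain ⟨g, hg, hg'⟩ := h5
    have h6 : g = T hf (c • w) w (by rw [hf.smul_left, hw', mul_zero]) := Φ.injective hg'
    rw [← h6]
    exact hg

end Cfsg.Agent.Lib.Classical.C2U.Main
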